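import Mathlib
import Cfsg.Prelude.Def_PLocal
import Cfsg.Agent.Lib.helper3.QuadPairSylow2
import Cfsg.Agent.Lib.helper3.PLocal
import Cfsg.Agent.Lib.helper3.Thompson
import Cfsg.Agent.S0012

set_option autoImplicit false
set_option linter.style.haveILetI false

namespace Cfsg.Agent.Lib.helper3

open scoped commutatorElement

universe u

/-- If all `2`-subgroups of `G` are abelian and `p` is odd, `G` acts `p`-stably on every normal
elementary abelian `p`-subgroup. -/
theorem pstableOn_of_two_subgroups_comm {G : Type u} [Group G] [Finite G] {p : ℕ} [Fact p.Prime]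
    (hp : p ≠ 2) (V : Subgroup G) [hVn : V.Normal] (hV : Cfsg.IsElementaryAbelian p V)
    (h2 : ∀ Q : Subgroup G, IsPGroup 2 Q → ∀ x ∈ Q, ∀ y ∈ Q, x * y = y * x) :
    Cfsg.IsPStableOn p V := by
  intro a hq
  have hVc : ∀ x ∈ V, ∀ y ∈ V, x * y = y * x := ((isEA_iff p V).mp hV).1
  have hqa := quad_of_comm_comm_eq_bot V a hq
  have hnorm : ∀ g : G, g ∈ Subgroup.normalizer (V : Set G) := fun g => by
    rw [Subgroup.normalizer_eq_top]; trivial
  obtain ⟨π, hπ⟩ : ∃ π : G →* G ⧸ Subgroup.centralizer (V : Set G),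
      π = QuotientGroup.mk' _ := ⟨_, rfl⟩
  have hπs : Function.Surjective π := by rw [hπ]; exact QuotientGroup.mk'_surjective _
  have hπk : ∀ x : G, x ∈ Subgroup.centralizer (V : Set G) → π x = 1 := by
    intro x hx; rw [hπ]; exact (QuotientGroup.eq_one_iff x).mpr hx
  have key : ∀ g : G, ∀ h ∈ Subgroup.closure ({a, g * a * g⁻¹} : Set G),
      ∃ j : ℕ, (π h) ^ (p ^ j) = 1 := by
    intro g h hh
    obtain ⟨j, hj⟩ := quad_pair_sylow2_subgroup hp V hVc hV.2 a (g * a * g⁻¹) (hnorm a)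
      (hnorm _) hqa (quad_conj V a g (hnorm g) hqa) (fun Q hQ _ => h2 Q hQ) h hh
    exact ⟨j, by rw [← map_pow]; exact hπk _ hj⟩
  have hBS : ∀ g' : G ⧸ Subgroup.centralizer (V : Set G),
      IsPGroup p ↥(Subgroup.zpowers (π a) ⊔
        (Subgroup.zpowers (π a)).map (MulAut.conj g').toMonoidHom) := by
    intro g'
    obtain ⟨g, rfl⟩ := hπs g'
    have hle : Subgroup.zpowers (π a) ⊔
        (Subgroup.zpowers (π a)).map (MulAut.conj (π g)).toMonoidHom ≤
        (Subgroup.closure ({a, g * a * g⁻¹} : Set G)).map π := by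
      apply sup_le
      · rw [Subgroup.zpowers_le]; exact ⟨a, Subgroup.subset_closure (by simp), rfl⟩
      · rw [MonoidHom.map_zpowers, Subgroup.zpowers_le]
        exact ⟨g * a * g⁻¹, Subgroup.subset_closure (by simp), by simp⟩
    rintro ⟨y, hy⟩
    obtain ⟨h, hh, rfl⟩ := hle hy
    obtain ⟨j, hj⟩ := key g h hh
    exact ⟨j, Subtype.ext hj⟩
  have hXp : IsPGroup p (Subgroup.zpowers (π a)) := (hBS 1).to_le le_sup_left
  obtain ⟨N, hNn, hNp, hxN⟩ := Cfsg.Agent.S0199.result (Subgroup.zpowers (π a)) hXp hBS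
  have h3 : π a ∈ Cfsg.pCore p (G ⧸ Subgroup.centralizer (V : Set G)) :=
    (le_sSup (show N ∈ {N : Subgroup _ | N.Normal ∧ IsPGroup p N} from ⟨hNn, hNp⟩))
      (hxN (Subgroup.mem_zpowers _))
  rw [hπ] at h3
  exact h3

/-- If all `2`-subgroups of `G` are abelian, so are those of any quotient. -/
theorem two_subgroups_comm_quot {G H : Type*} [Group G] [Finite G] [Group H] [Finite H]
    (π : G →* H) (hπ : Function.Surjective π)
    (h2 : ∀ Q : Subgroup G, IsPGroup 2 Q → ∀ x ∈ Q, ∀ y ∈ Q, x * y = y * x) :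
    ∀ Q : Subgroup H, IsPGroup 2 Q → ∀ x ∈ Q, ∀ y ∈ Q, x * y = y * x := by
  obtain ⟨T⟩ : Nonempty (Sylow 2 G) := inferInstance
  intro Q hQ
  apply psubgroup_comm_of_sylow_comm (T.mapSurjective hπ) _ Q hQ
  intro x hx y hy
  have hx' : x ∈ (T : Subgroup G).map π := by
    rw [← Sylow.coe_mapSurjective (hf := hπ)]; exact hx
  have hy' : y ∈ (T : Subgroup G).map π := by
    rw [← Sylow.coe_mapSurjective (hf := hπ)]; exact hy
  obtain ⟨x', hx'T, rfl⟩ := hx'
  obtain ⟨y', hy'T, rfl⟩ := hy'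
  rw [← map_mul, ← map_mul, h2 (T : Subgroup G) T.isPGroup' x' hx'T y' hy'T]

/-- If all `2`-subgroups of `G` are abelian and `p` is odd, `G` acts `p`-stably on the Frattini
quotient of any normal `p`-subgroup. -/
theorem pstableOnSection_frattini {G : Type u} [Group G] [Finite G] {p : ℕ} [Fact p.Prime]
    (hp : p ≠ 2)
    (h2 : ∀ Q : Subgroup G, IsPGroup 2 Q → ∀ x ∈ Q, ∀ y ∈ Q, x * y = y * x)
    (P : Subgroup G) [hPn : P.Normal] (hP : IsPGroup p P) (N : Subgroup G) [hNn : N.Normal]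
    (hN : N = (frattini ↥P).map P.subtype) :
    Cfsg.IsPStableOnSection p P N := by
  intro a hq
  have hcommΦ : ∀ x ∈ P, ∀ y ∈ P, x * y * x⁻¹ * y⁻¹ ∈ N := by
    intro x hx y hy
    have h1 := (Cfsg.Agent.S0012.result p (G := ↥P) hP).1
    have h3 : ⁅(⟨x, hx⟩ : ↥P), ⟨y, hy⟩⁆ ∈ commutator ↥P :=
      Subgroup.commutator_mem_commutator (Subgroup.mem_top _) (Subgroup.mem_top _)
    rw [hN]
    exact ⟨_, h1 h3, rfl⟩
  have hpowΦ : ∀ x ∈ P, x ^ p ∈ N := by
    intro x hx
    have h1 := (Cfsg.Agent.S0012.result p (G := ↥P) hP).2 ⟨x, hx⟩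
    rw [hN]
    exact ⟨_, h1, rfl⟩
  obtain ⟨π, hπ⟩ : ∃ π : G →* G ⧸ N, π = QuotientGroup.mk' N := ⟨_, rfl⟩
  have hπsurj : Function.Surjective π := by rw [hπ]; exact QuotientGroup.mk'_surjective N
  have hπker : ∀ x : G, π x = 1 ↔ x ∈ N := by
    intro x; rw [hπ]; exact QuotientGroup.eq_one_iff x
  obtain ⟨V, hV⟩ : ∃ V : Subgroup (G ⧸ N), V = P.map π := ⟨_, rfl⟩
  have hVn : V.Normal := by rw [hV]; exact hPn.map π hπsurj
  haveI := hVn
  have hVea : Cfsg.IsElementaryAbelian p V := by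
    rw [isEA_iff]
    constructor
    · intro x hx y hy
      rw [hV] at hx hy
      obtain ⟨x', hx', rfl⟩ := hx
      obtain ⟨y', hy', rfl⟩ := hy
      have h1 := (hπker _).mpr (hcommΦ x' hx' y' hy')
      rw [map_mul, map_mul, map_mul, map_inv, map_inv] at h1
      calc π x' * π y' = (π x' * π y' * (π x')⁻¹ * (π y')⁻¹) * (π y' * π x') := by group
        _ = π y' * π x' := by rw [h1, one_mul]
    · intro x hx
      rw [hV] at hx
      obtain ⟨x', hx', rfl⟩ := hx
      rw [← map_pow]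
      exact (hπker _).mpr (hpowΦ x' hx')
  have h2' := two_subgroups_comm_quot π hπsurj h2
  have hqV : ⁅⁅V, Subgroup.zpowers (π a)⁆, Subgroup.zpowers (π a)⁆ = ⊥ := by
    rw [hV, ← MonoidHom.map_zpowers, ← Subgroup.map_commutator, ← Subgroup.map_commutator,
      eq_bot_iff]
    rintro _ ⟨x, hx, rfl⟩
    exact Subgroup.mem_bot.mpr ((hπker x).mpr (hq hx))
  have hst := pstableOn_of_two_subgroups_comm hp V hVea h2' (π a) hqV
  obtain ⟨ρ, hρ⟩ : ∃ ρ : G →* (G ⧸ N) ⧸ Subgroup.centralizer (V : Set (G ⧸ N)),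
      ρ = (QuotientGroup.mk' _).comp π := ⟨_, rfl⟩
  have hρs : Function.Surjective ρ := by
    rw [hρ]; exact (QuotientGroup.mk'_surjective _).comp hπsurj
  have hker : Cfsg.sectionKernel P N = ρ.ker := by
    unfold Cfsg.sectionKernel
    rw [hρ, ← MonoidHom.comap_ker, QuotientGroup.ker_mk', hV, hπ]
  refine ⟨(Cfsg.pCore p _).comap ρ, (pCore_normal3 p _).comap ρ, ?_, ?_, ?_⟩
  · rw [hker]
    intro x hx
    rw [Subgroup.mem_comap, MonoidHom.mem_ker.mp hx]
    exact Subgroup.one_mem _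
  · obtain ⟨k, hk⟩ := (pCore_isPGroup3 p
      ((G ⧸ N) ⧸ Subgroup.centralizer (V : Set (G ⧸ N)))).exists_card_eq
    refine ⟨k, ?_⟩
    rw [hker, ← MonoidHom.comap_bot, Subgroup.relIndex_comap,
      Subgroup.map_comap_eq_self_of_surjective hρs, Subgroup.relIndex_bot_left, hk]
  · rw [Subgroup.mem_comap, hρ]; exact hst

/-- For odd `p`, groups whose Sylow `2`-subgroups are abelian are `p`-stable in the action
sense. -/
theorem actionPStable_of_sylow2_comm {G : Type u} [Group G] [Finite G] {p : ℕ} [Fact p.Prime]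
    (hp : p ≠ 2) (hab : ∀ T : Sylow 2 G, IsMulCommutative T) : Cfsg.IsActionPStable p G := by
  have h2 : ∀ Q : Subgroup G, IsPGroup 2 Q → ∀ x ∈ Q, ∀ y ∈ Q, x * y = y * x := by
    intro Q hQ
    obtain ⟨T⟩ : Nonempty (Sylow 2 G) := inferInstance
    have hTc : ∀ x ∈ T, ∀ y ∈ T, x * y = y * x := fun x hx y hy =>
      congrArg Subtype.val ((hab T).is_comm.comm (⟨x, hx⟩ : ↥T) ⟨y, hy⟩)
    exact psubgroup_comm_of_sylow_comm T hTc Q hQ
  refine ⟨?_, ?_, ?_⟩
  · intro V _ hV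
    exact pstableOn_of_two_subgroups_comm hp V hV h2
  · exact pstableOnSection_frattini hp h2 (Cfsg.pCore p G) (pCore_isPGroup3 p G) _ rfl
  · intro S V _ hVle
    apply pstableOn_of_two_subgroups_comm hp V
    · have hΩ : Cfsg.IsElementaryAbelian p (Cfsg.omegaCenterThompson p ↥(S : Subgroup G)) := by
        unfold Cfsg.omegaCenterThompson Cfsg.omegaOne
        apply isEA_closure
        · rintro x ⟨hx, _⟩ y ⟨hy, _⟩
          exact Subgroup.mem_centralizer_iff.mp hy.2 x hx.1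
        · rintro x ⟨_, hx⟩
          exact hx
      rw [isEA_iff] at hΩ ⊢
      constructor
      · intro x hx y hy
        obtain ⟨x', hx', hxe⟩ := hVle ⟨x, hx, rfl⟩
        obtain ⟨y', hy', hye⟩ := hVle ⟨y, hy, rfl⟩
        apply Subtype.ext
        have h3 := congrArg (Subgroup.subtype (S : Subgroup G)) (hΩ.1 x' hx' y' hy')
        rw [map_mul, map_mul, hxe, hye] at h3
        exact h3
      · intro x hx
        obtain ⟨x', hx', hxe⟩ := hVle ⟨x, hx, rfl⟩
        apply Subtype.ext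
        have h3 := congrArg (Subgroup.subtype (S : Subgroup G)) (hΩ.2 x' hx')
        rw [map_pow, hxe, map_one] at h3
        exact h3
    · intro Q hQ x hx y hy
      have h3 := h2 (Q.map (Subgroup.subtype _)) (hQ.map _) x ⟨x, hx, rfl⟩ y ⟨y, hy, rfl⟩
      exact Subtype.ext h3

end Cfsg.Agent.Lib.helper3
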