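import Mathlib
import Cfsg.Prelude.Def_SolvableStructure
import Cfsg.Agent.Lib.helper3.HallSystem2
import Cfsg.Agent.Lib.helper3.PLocal
import Cfsg.Agent.Lib.helper3.Kegel

set_option autoImplicit false
set_option linter.style.haveILetI false

namespace Cfsg.Agent.Lib.helper3

universe u

open Pointwise

/-- The image of a Hall complement system in a quotient is a Hall complement system. -/
theorem complementSystem_map {G : Type u} [Group G] [Finite G] (K : Nat.Primes → Subgroup G)
    (hK : Cfsg.IsComplementSystem K) (N : Subgroup G) [N.Normal] :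
    Cfsg.IsComplementSystem (fun p => (K p).map (QuotientGroup.mk' N)) := by
  intro p
  show ((K p).map (QuotientGroup.mk' N)).index = _
  have h1 : ((K p).map (QuotientGroup.mk' N)).index ∣ (p : ℕ) ^ (Nat.card G).factorization p := by
    rw [← hK p]
    exact Subgroup.index_map_dvd _ (QuotientGroup.mk'_surjective N)
  obtain ⟨j, _, hj⟩ := (Nat.dvd_prime_pow p.2).mp h1
  have h2 : ¬ (p : ℕ) ∣ Nat.card ((K p).map (QuotientGroup.mk' N)) := fun h =>
    not_dvd_card_of_complementSystem hK p (dvd_trans h (Subgroup.card_map_dvd _ _))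
  have h3 := Subgroup.card_mul_index ((K p).map (QuotientGroup.mk' N))
  rw [hj] at h3
  have h4 : (Nat.card (G ⧸ N)).factorization p = j := by
    rw [← h3, Nat.factorization_mul Nat.card_pos.ne' (pow_ne_zero _ p.2.ne_zero),
      Finsupp.add_apply, Nat.factorization_eq_zero_of_not_dvd h2, Nat.factorization_pow,
      Finsupp.smul_apply, p.2.factorization_self]
    simp
  rw [hj, h4]

theorem index_biInf_dvd {G : Type u} [Group G] [Finite G] (X : Nat.Primes → Subgroup G)
    (a : Nat.Primes → ℕ) (hX : ∀ p, (X p).index ∣ (p : ℕ) ^ a p) (T : Finset Nat.Primes) :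
    (⨅ p ∈ T, X p).index ∣ ∏ p ∈ T, (p : ℕ) ^ a p := by
  classical
  induction T using Finset.induction_on with
  | empty => simp
  | insert q T hq ih =>
    rw [Finset.iInf_insert, Finset.prod_insert hq]
    have hcop : ((X q).index).Coprime (⨅ p ∈ T, X p).index := by
      apply Nat.Coprime.coprime_dvd_left (hX q)
      apply Nat.Coprime.coprime_dvd_right ih
      apply Nat.Coprime.prod_right
      intro p hp
      apply Nat.Coprime.pow
      exact (Nat.coprime_primes q.2 p.2).mpr (fun h => hq (by
        have : q = p := Subtype.ext h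
        rw [this]; exact hp))
    rw [index_inf_of_coprime _ _ hcop]
    exact Nat.mul_dvd_mul (hX q) ih

theorem systemNormalizer_map_aux {G : Type u} [Group G] [Finite G] [Group.IsSolvable G]
    (K : Nat.Primes → Subgroup G) (hK : Cfsg.IsComplementSystem K) (N : Subgroup G) [N.Normal]
    (x : G) (hx : ∀ p : Nat.Primes, x ∈ Subgroup.normalizer ((K p ⊔ N : Subgroup G) : Set G))
    (T : Finset Nat.Primes) :
    ∃ y : G, x⁻¹ * y ∈ N ∧ ∀ p ∈ T, y ∈ Subgroup.normalizer (K p : Set G) := by
  classical
  induction T using Finset.induction_on with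
  | empty => exact ⟨x, by simp, fun p hp => absurd hp (Finset.notMem_empty p)⟩
  | insert q T hq ih =>
    obtain ⟨x', hx'N, hx'⟩ := ih
    set M := K q ⊔ N with hM
    have hKM : K q ≤ M := le_sup_left
    have hNM : N ≤ M := le_sup_right
    have hx'M : x' ∈ Subgroup.normalizer (M : Set G) := by
      have h1 : x' = x * (x⁻¹ * x') := by group
      rw [h1]
      exact Subgroup.mul_mem _ (hx q) (Subgroup.le_normalizer (hNM hx'N))
    have hconjM : MulAut.conj x' • K q ≤ M := by
      intro z hz
      rw [mem_conj_smul] at hz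
      have h1 : x' * (x'⁻¹ * z * x') * x'⁻¹ ∈ M :=
        (Subgroup.mem_normalizer_iff.mp hx'M _).mp (hKM hz)
      have e : x' * (x'⁻¹ * z * x') * x'⁻¹ = z := by group
      rwa [e] at h1
    have hcardc : Nat.card (MulAut.conj x' • K q : Subgroup G) = Nat.card (K q) :=
      Cfsg.Agent.Lib.helper1.card_conj_smul x' (K q)
    -- Hall conjugacy inside M
    have hidx : (K q).relIndex M ∣ (q : ℕ) ^ (Nat.card G).factorization q := by
      rw [← hK q]; exact Subgroup.relIndex_dvd_index_of_le hKM
    obtain ⟨j, _, hj⟩ := (Nat.dvd_prime_pow q.2).mp hidx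
    have hcardM : Nat.card M = Nat.card (K q) * (q : ℕ) ^ j := by
      rw [← hj]; exact (card_mul_relIndex_of_le hKM).symm
    have hcop : (Nat.card (K q)).Coprime ((q : ℕ) ^ j) := by
      apply Nat.Coprime.pow_right
      exact ((Nat.Prime.coprime_iff_not_dvd q.2).mpr
        (not_dvd_card_of_complementSystem hK q)).symm
    have hc1 : Nat.card ((K q).subgroupOf M) = Nat.card (K q) :=
      Nat.card_congr (Subgroup.subgroupOfEquivOfLe hKM).toEquiv
    have hc2 : Nat.card ((MulAut.conj x' • K q : Subgroup G).subgroupOf M) = Nat.card (K q) := by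
      rw [Nat.card_congr (Subgroup.subgroupOfEquivOfLe hconjM).toEquiv, hcardc]
    obtain ⟨u, hu⟩ := Cfsg.Agent.Lib.helper1.hall_conj (G := M) (Nat.card (K q)) ((q : ℕ) ^ j)
      hcardM hcop ((K q).subgroupOf M) ((MulAut.conj x' • K q : Subgroup G).subgroupOf M) hc1 hc2
    have hle : MulAut.conj x' • K q ≤ MulAut.conj (u : G) • K q := by
      intro z hz
      have hzM : z ∈ M := hconjM hz
      have h1 : (⟨z, hzM⟩ : M) ∈ (MulAut.conj x' • K q : Subgroup G).subgroupOf M :=
        Subgroup.mem_subgroupOf.mpr hz
      rw [← hu, mem_conj_smul, Subgroup.mem_subgroupOf] at h1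
      rw [mem_conj_smul]
      simpa using h1
    have heq : MulAut.conj x' • K q = MulAut.conj (u : G) • K q :=
      Subgroup.eq_of_le_of_card_ge hle (by
        rw [hcardc, Cfsg.Agent.Lib.helper1.card_conj_smul])
    -- u = m * k with m ∈ N, k ∈ K q
    have huM : (u : G) ∈ ((N ⊔ K q : Subgroup G) : Set G) := by
      rw [sup_comm]; exact u.2
    rw [Subgroup.normal_mul, Set.mem_mul] at huM
    obtain ⟨m, hm, k, hk, hmk⟩ := huM
    have heq2 : MulAut.conj x' • K q = MulAut.conj m • K q := by
      rw [heq, ← hmk, Cfsg.Agent.Lib.helper1.conj_mul_smul m k, Subgroup.conj_smul_eq_self_of_mem hk]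
    have hmx : m⁻¹ * x' ∈ Subgroup.normalizer (K q : Set G) := by
      apply mem_normalizer_of_conj_smul_le'
      rw [Cfsg.Agent.Lib.helper1.conj_mul_smul, heq2, ← Cfsg.Agent.Lib.helper1.conj_mul_smul, inv_mul_cancel, map_one, one_smul]
    -- decompose m in N
    let X : Nat.Primes → Subgroup N := fun p => (Subgroup.normalizer (K p : Set G)).subgroupOf N
    have hXidx : ∀ p : Nat.Primes, (X p).index ∣ (p : ℕ) ^ (Nat.card G).factorization p := by
      intro p
      have h1 : (Subgroup.normalizer (K p : Set G)).relIndex N ∣ (K p).relIndex N :=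
        Subgroup.relIndex_dvd_of_le_left N Subgroup.le_normalizer
      have h2 : (K p).relIndex N ∣ (K p).index := relIndex_dvd_index_of_normal_right (K p) N
      rw [← hK p]
      exact dvd_trans h1 h2
    have hcop2 : ((X q).index).Coprime (⨅ p ∈ T, X p).index := by
      apply Nat.Coprime.coprime_dvd_left (hXidx q)
      apply Nat.Coprime.coprime_dvd_right (index_biInf_dvd X _ hXidx T)
      apply Nat.Coprime.prod_right
      intro p hp
      apply Nat.Coprime.pow
      exact (Nat.coprime_primes q.2 p.2).mpr (fun h => hq (by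
        have : q = p := Subtype.ext h
        rw [this]; exact hp))
    obtain ⟨m', hm', r, hr, hmr⟩ := exists_mul_of_coprime_index (X q) (⨅ p ∈ T, X p) hcop2 ⟨m, hm⟩
    have hm'T : ∀ p ∈ T, (m' : G) ∈ Subgroup.normalizer (K p : Set G) := by
      intro p hp
      have : m' ∈ X p := by
        simp only [Subgroup.mem_iInf] at hm'
        exact hm' p hp
      exact Subgroup.mem_subgroupOf.mp this
    have hrq : (r : G) ∈ Subgroup.normalizer (K q : Set G) := Subgroup.mem_subgroupOf.mp hr
    have hmr' : m = (m' : G) * (r : G) := by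
      have := congrArg (fun t : N => (t : G)) hmr
      simpa using this
    refine ⟨(m' : G)⁻¹ * x', ?_, ?_⟩
    · have e : x⁻¹ * ((m' : G)⁻¹ * x') = (x⁻¹ * (m' : G)⁻¹ * x⁻¹⁻¹) * (x⁻¹ * x') := by group
      rw [e]
      exact N.mul_mem (Subgroup.Normal.conj_mem inferInstance _ (N.inv_mem m'.2) _) hx'N
    · intro p hp
      rcases Finset.mem_insert.mp hp with rfl | hpT
      · have e : (m' : G)⁻¹ * x' = (r : G) * (m⁻¹ * x') := by rw [hmr']; group
        rw [e]
        exact Subgroup.mul_mem _ hrq hmx
      · exact Subgroup.mul_mem _ (Subgroup.inv_mem _ (hm'T p hpT)) (hx' p hpT)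

/-- The system normalizer of the image system is the image of the system normalizer. -/
theorem systemNormalizer_map {G : Type u} [Group G] [Finite G] [Group.IsSolvable G]
    (K : Nat.Primes → Subgroup G) (hK : Cfsg.IsComplementSystem K) (N : Subgroup G) [N.Normal] :
    Cfsg.systemNormalizer (fun p => (K p).map (QuotientGroup.mk' N)) =
      (Cfsg.systemNormalizer K).map (QuotientGroup.mk' N) := by
  classical
  apply le_antisymm
  · intro xb hxb
    obtain ⟨x, rfl⟩ := QuotientGroup.mk'_surjective N xb
    have hxb' : ∀ p : Nat.Primes, QuotientGroup.mk' N x ∈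
        Subgroup.normalizer (((K p).map (QuotientGroup.mk' N) : Subgroup (G ⧸ N)) : Set (G ⧸ N)) := by
      intro p
      have := hxb
      unfold Cfsg.systemNormalizer at this
      rw [Subgroup.mem_iInf] at this
      exact this p
    have hmemsup : ∀ (p : Nat.Primes) (z : G), z ∈ K p ⊔ N ↔
        QuotientGroup.mk' N z ∈ (K p).map (QuotientGroup.mk' N) := by
      intro p z
      rw [← Subgroup.mem_comap, Subgroup.comap_map_eq, QuotientGroup.ker_mk']
    have hx : ∀ p : Nat.Primes, x ∈ Subgroup.normalizer ((K p ⊔ N : Subgroup G) : Set G) := by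
      intro p
      rw [Subgroup.mem_normalizer_iff]
      intro z
      rw [hmemsup, hmemsup, map_mul, map_mul, map_inv]
      exact Subgroup.mem_normalizer_iff.mp (hxb' p) _
    obtain ⟨y, hyN, hy⟩ := systemNormalizer_map_aux K hK N x hx
      ((Nat.card G).primeFactors.subtype Nat.Prime)
    have hyD : y ∈ Cfsg.systemNormalizer K := by
      unfold Cfsg.systemNormalizer
      rw [Subgroup.mem_iInf]
      intro p
      by_cases hp : (p : ℕ) ∈ (Nat.card G).primeFactors
      · exact hy p (Finset.mem_subtype.mpr hp)
      · have h0 : (Nat.card G).factorization p = 0 := by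
          rw [← Nat.support_factorization] at hp
          exact Finsupp.notMem_support_iff.mp hp
        have hKt : K p = ⊤ := by
          rw [← Subgroup.index_eq_one, hK p, h0, pow_zero]
        rw [hKt, Subgroup.mem_normalizer_iff]
        intro z
        simp
    refine ⟨y, hyD, ?_⟩
    exact (QuotientGroup.eq.mpr hyN).symm
  · rintro _ ⟨d, hd, rfl⟩
    unfold Cfsg.systemNormalizer at hd ⊢
    rw [SetLike.mem_coe] at hd
    rw [Subgroup.mem_iInf] at hd ⊢
    intro p
    have hdp := hd p
    rw [Subgroup.mem_normalizer_iff]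
    intro qb
    constructor
    · rintro ⟨k, hk, rfl⟩
      refine ⟨d * k * d⁻¹, (Subgroup.mem_normalizer_iff.mp hdp k).mp hk, ?_⟩
      simp
    · rintro ⟨k, hk, hkeq⟩
      refine ⟨d⁻¹ * k * d, ?_, ?_⟩
      · have := (Subgroup.mem_normalizer_iff.mp (Subgroup.inv_mem _ hdp) k).mp hk
        simpa using this
      · rw [map_mul, map_mul, hkeq, map_inv]
        group

/-- The normal closure of a system normalizer of a finite solvable group is the whole group. -/
theorem normalClosure_systemNormalizer {G : Type u} [Group G] [Finite G] [Group.IsSolvable G]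
    (K : Nat.Primes → Subgroup G) (hK : Cfsg.IsComplementSystem K) :
    Subgroup.normalClosure ((Cfsg.systemNormalizer K : Subgroup G) : Set G) = ⊤ := by
  set D := Cfsg.systemNormalizer K with hD
  -- D ⊔ G' = ⊤
  have h1 : D ⊔ commutator G = ⊤ := by
    have h2 := systemNormalizer_map K hK (commutator G)
    have h3 : Cfsg.systemNormalizer (fun p => (K p).map (QuotientGroup.mk' (commutator G))) = ⊤ := by
      unfold Cfsg.systemNormalizer
      rw [eq_top_iff]
      intro z _
      rw [Subgroup.mem_iInf]
      intro p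
      rw [Subgroup.mem_normalizer_iff]
      intro w
      have hcomm : z * w * z⁻¹ = w := by
        have : z * w = w * z := @mul_comm (Abelianization G) _ z w
        rw [this]; group
      rw [hcomm]
    rw [h3] at h2
    have h4 := congrArg (Subgroup.comap (QuotientGroup.mk' (commutator G))) h2
    rw [Subgroup.comap_top, Subgroup.comap_map_eq, QuotientGroup.ker_mk'] at h4
    exact h4.symm
  set M := Subgroup.normalClosure (D : Set G) with hM
  have hDM : D ≤ M := Subgroup.le_normalClosure
  have h5 : M ⊔ commutator G = ⊤ := by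
    rw [eq_top_iff, ← h1]
    exact sup_le_sup_right hDM _
  apply QuotientGroup.subgroup_eq_top_of_subsingleton
  by_contra hns
  rw [not_subsingleton_iff_nontrivial] at hns
  haveI := hns
  have h6 : commutator (G ⧸ M) < ⊤ := Group.IsSolvable.commutator_lt_top_of_nontrivial (G ⧸ M)
  apply h6.ne
  have h7 : (commutator G).map (QuotientGroup.mk' M) = commutator (G ⧸ M) := by
    rw [commutator_def, commutator_def, Subgroup.map_commutator, ← MonoidHom.range_eq_map,
      MonoidHom.range_eq_top.mpr (QuotientGroup.mk'_surjective M)]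
  rw [← h7]
  have h8 := congrArg (Subgroup.map (QuotientGroup.mk' M)) h5
  rw [Subgroup.map_sup, QuotientGroup.map_mk'_self, bot_sup_eq, ← MonoidHom.range_eq_map,
    MonoidHom.range_eq_top.mpr (QuotientGroup.mk'_surjective M)] at h8
  exact h8

end Cfsg.Agent.Lib.helper3
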