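import Mathlib
import Cfsg.Prelude.Def_PLocal
import Cfsg.Agent.Lib.helper3.PLocal
import Cfsg.Agent.Lib.helper3.SupersolvablePrime

set_option autoImplicit false
set_option linter.style.haveILetI false

namespace Cfsg.Agent.Lib.helper3

universe u

theorem relIndex_comap_mk' {G : Type u} [Group G] [Finite G] (N : Subgroup G) [N.Normal]
    (K : Subgroup (G ⧸ N)) : N.relIndex (K.comap (QuotientGroup.mk' N)) = Nat.card K := by
  have hle : N ≤ K.comap (QuotientGroup.mk' N) := by
    have := MonoidHom.ker_le_comap (QuotientGroup.mk' N) K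
    rwa [QuotientGroup.ker_mk'] at this
  have h1 := card_mul_relIndex_of_le hle
  rw [card_comap_mk', mul_comm] at h1
  exact Nat.eq_of_mul_eq_mul_right Nat.card_pos h1

/-- If the normal subgroup `W` is generated by its fixed points under the Sylow `p`-subgroups,
a normal subgroup `D ≥ C_G(W)` with `D / C_G(W)` a `p`-group equals `C_G(W)`. -/
theorem eq_centralizer_of_generated {G : Type u} [Group G] [Finite G] {p : ℕ} [Fact p.Prime]
    (W : Subgroup G) [W.Normal]
    (hgen : W ≤ ⨆ S : Sylow p G, W ⊓ Subgroup.centralizer ((S : Subgroup G) : Set G))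
    (D : Subgroup G) [D.Normal]
    (hCD : Subgroup.centralizer (W : Set G) ≤ D) {k : ℕ}
    (hidx : (Subgroup.centralizer (W : Set G)).relIndex D = p ^ k) :
    D = Subgroup.centralizer (W : Set G) := by
  set CW := Subgroup.centralizer (W : Set G) with hCW
  haveI hCWn : CW.Normal := Subgroup.normal_centralizer
  obtain T₀ : Sylow p D := default
  set T : Subgroup G := (T₀ : Subgroup D).map D.subtype with hT
  have hTp : IsPGroup p T := T₀.isPGroup'.map D.subtype
  have hsup : CW.subgroupOf D ⊔ (T₀ : Subgroup D) = ⊤ :=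
    sup_sylow_eq_top_of_index_pow (CW.subgroupOf D) T₀ hidx
  have hfr : Subgroup.normalizer (T : Set G) ⊔ D = ⊤ := Sylow.normalizer_sup_eq_top T₀
  obtain ⟨S₁, hS₁⟩ := hTp.exists_le_sylow
  have hdecomp : ∀ d ∈ D, ∃ c ∈ CW, ∃ t ∈ T, d = c * t := by
    intro d hd
    obtain ⟨c, hc, t, ht, hct⟩ :=
      exists_mul_of_sup_eq_top (CW.subgroupOf D) (T₀ : Subgroup D) hsup ⟨d, hd⟩
    refine ⟨c, Subgroup.mem_subgroupOf.mp hc, t, Subgroup.mem_map_of_mem D.subtype ht, ?_⟩
    have := congrArg (fun y : D => (y : G)) hct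
    simpa using this
  have hWT : W ≤ Subgroup.centralizer (T : Set G) := by
    refine hgen.trans (iSup_le fun S => ?_)
    intro x hx
    obtain ⟨hxW, hxC⟩ := Subgroup.mem_inf.mp hx
    obtain ⟨g, hg⟩ := MulAction.exists_smul_eq G S₁ S
    obtain ⟨d, hd, n, hn, hgdn⟩ := exists_mul_of_sup_eq_top D (Subgroup.normalizer (T : Set G))
      (by rw [sup_comm]; exact hfr) g
    obtain ⟨c, hc, t, ht, hdct⟩ := hdecomp d hd
    have hn' : t * n ∈ Subgroup.normalizer (T : Set G) :=
      Subgroup.mul_mem _ (Subgroup.le_normalizer ht) hn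
    have hg' : g = c * (t * n) := by rw [hgdn, hdct]; group
    have hx' : g⁻¹ * x * g ∈ Subgroup.centralizer ((S₁ : Subgroup G) : Set G) := by
      rw [Subgroup.mem_centralizer_iff] at hxC ⊢
      intro y hy
      have hy' : g * y * g⁻¹ ∈ (S : Subgroup G) := (sylow_smul_mem_iff hg).mp hy
      have := hxC _ hy'
      calc y * (g⁻¹ * x * g) = g⁻¹ * ((g * y * g⁻¹) * x) * g := by group
        _ = g⁻¹ * (x * (g * y * g⁻¹)) * g := by rw [this]
        _ = g⁻¹ * x * g * y := by group
    have hcx : x * c = c * x := by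
      rw [hCW, Subgroup.mem_centralizer_iff] at hc
      exact hc x hxW
    have hx'' : g⁻¹ * x * g = (t * n)⁻¹ * x * (t * n) := by
      rw [hg']
      calc (c * (t * n))⁻¹ * x * (c * (t * n)) = (t * n)⁻¹ * (c⁻¹ * (x * c)) * (t * n) := by group
        _ = (t * n)⁻¹ * (c⁻¹ * (c * x)) * (t * n) := by rw [hcx]
        _ = (t * n)⁻¹ * x * (t * n) := by group
    rw [Subgroup.mem_centralizer_iff]
    intro s hs
    have hs' : (t * n)⁻¹ * s * (t * n) ∈ T := by
      have := (Subgroup.mem_normalizer_iff.mp hn') ((t * n)⁻¹ * s * (t * n))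
      apply this.mpr
      have e : t * n * ((t * n)⁻¹ * s * (t * n)) * (t * n)⁻¹ = s := by group
      rw [e]; exact hs
    rw [Subgroup.mem_centralizer_iff] at hx'
    have h1 := hx' _ (hS₁ hs')
    rw [hx''] at h1
    calc s * x = (t * n) * (((t * n)⁻¹ * s * (t * n)) * ((t * n)⁻¹ * x * (t * n))) * (t * n)⁻¹ := by
          group
      _ = (t * n) * (((t * n)⁻¹ * x * (t * n)) * ((t * n)⁻¹ * s * (t * n))) * (t * n)⁻¹ := by
          rw [h1]
      _ = x * s := by group
  have hTC : T ≤ CW := Subgroup.le_centralizer_iff.mp hWT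
  apply le_antisymm _ hCD
  intro d hd
  obtain ⟨c, hc, t, ht, rfl⟩ := hdecomp d hd
  exact CW.mul_mem hc (hTC ht)

theorem pCore_quotient_centralizer_eq_bot {G : Type u} [Group G] [Finite G] {p : ℕ}
    [Fact p.Prime] (W : Subgroup G) [W.Normal]
    (hgen : W ≤ ⨆ S : Sylow p G, W ⊓ Subgroup.centralizer ((S : Subgroup G) : Set G)) :
    Cfsg.pCore p (G ⧸ Subgroup.centralizer (W : Set G)) = ⊥ := by
  haveI hn : (Cfsg.pCore p (G ⧸ Subgroup.centralizer (W : Set G))).Normal := pCore_normal3 p _
  obtain ⟨k, hk⟩ := IsPGroup.iff_card.mp (pCore_isPGroup3 p (G ⧸ Subgroup.centralizer (W : Set G)))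
  have hCD : Subgroup.centralizer (W : Set G) ≤
      (Cfsg.pCore p (G ⧸ Subgroup.centralizer (W : Set G))).comap
        (QuotientGroup.mk' (Subgroup.centralizer (W : Set G))) := by
    have := MonoidHom.ker_le_comap (QuotientGroup.mk' (Subgroup.centralizer (W : Set G)))
      (Cfsg.pCore p (G ⧸ Subgroup.centralizer (W : Set G)))
    rwa [QuotientGroup.ker_mk'] at this
  have hidx : (Subgroup.centralizer (W : Set G)).relIndex
      ((Cfsg.pCore p (G ⧸ Subgroup.centralizer (W : Set G))).comap
        (QuotientGroup.mk' (Subgroup.centralizer (W : Set G)))) = p ^ k := by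
    rw [relIndex_comap_mk', hk]
  have hD := eq_centralizer_of_generated W hgen _ hCD hidx
  have h1 : ((Cfsg.pCore p (G ⧸ Subgroup.centralizer (W : Set G))).comap
        (QuotientGroup.mk' (Subgroup.centralizer (W : Set G)))).map
        (QuotientGroup.mk' (Subgroup.centralizer (W : Set G))) =
      Cfsg.pCore p (G ⧸ Subgroup.centralizer (W : Set G)) :=
    Subgroup.map_comap_eq_self_of_surjective (QuotientGroup.mk'_surjective _) _
  rw [← h1, hD, QuotientGroup.map_mk'_self]

end Cfsg.Agent.Lib.helper3
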