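import Mathlib
import Cfsg.Agent.Lib.helper3.Solvable
import Cfsg.Agent.Lib.helper3.Subnormal
import Cfsg.Agent.Lib.helper3.Conj

set_option autoImplicit false
set_option linter.style.haveILetI false

namespace Cfsg.Agent.Lib.helper3

universe u

/-- A minimal normal `p`-subgroup is abelian. -/
theorem IsMinNormal.le_centralizer_of_isPGroup {G : Type u} [Group G] [Finite G] {p : ℕ}
    [Fact p.Prime] {A : Subgroup G} (hA : IsMinNormal A) (hAp : IsPGroup p A) :
    A ≤ Subgroup.centralizer (A : Set G) := by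
  haveI := hA.1
  obtain ⟨a, ha, ha1, hac⟩ := exists_ne_one_comm_of_pgroup A A hAp hAp hA.2.1
  have hZn : (A ⊓ Subgroup.centralizer (A : Set G)).Normal := inferInstance
  have hZ : A ⊓ Subgroup.centralizer (A : Set G) = A := by
    refine (hA.2.2 _ hZn inf_le_left).resolve_left ?_
    intro hb
    have : a ∈ A ⊓ Subgroup.centralizer (A : Set G) := ⟨ha, fun l hl => hac l hl⟩
    rw [hb, Subgroup.mem_bot] at this
    exact ha1 this
  exact inf_eq_left.mp hZ

/-- A nontrivial finite solvable group has an abelian minimal normal `p`-subgroup. -/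
theorem exists_minNormal_abelian_pgroup (G : Type u) [Group G] [Finite G] [Group.IsSolvable G]
    [Nontrivial G] : ∃ p : ℕ, p.Prime ∧ ∃ A : Subgroup G, IsMinNormal A ∧ IsPGroup p A ∧
      A ≤ Subgroup.centralizer (A : Set G) := by
  obtain ⟨p, hp, N, hNn, hNp, hNne⟩ := exists_normal_pgroup_ne_bot' G
  haveI : Fact p.Prime := ⟨hp⟩
  obtain ⟨A, hA, hAN⟩ := exists_minNormal_le N hNn hNne
  have hAp : IsPGroup p A := hNp.to_le hAN
  exact ⟨p, hp, A, hA, hAp, hA.le_centralizer_of_isPGroup hAp⟩

end Cfsg.Agent.Lib.helper3
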