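import Mathlib
import Cfsg.Prelude.Def_SolvableStructure
import Cfsg.Agent.Lib.helper3.HallSystem3
import Cfsg.Agent.Lib.helper3.PLocal2
import Cfsg.Agent.Lib.helper3.SolvableMin

set_option autoImplicit false
set_option linter.style.haveILetI false

namespace Cfsg.Agent.Lib.helper3

universe u

open Pointwise
open scoped commutatorElement

/-- A minimal normal subgroup of a finite solvable group is a `p`-group. -/
theorem IsMinNormal.exists_isPGroup {G : Type u} [Group G] [Finite G] [Group.IsSolvable G]
    {B : Subgroup G} (hB : IsMinNormal B) : ∃ p : ℕ, p.Prime ∧ IsPGroup p B := by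
  haveI := hB.1
  haveI : Nontrivial B := (Subgroup.nontrivial_iff_ne_bot B).mpr hB.2.1
  obtain ⟨A', hA'c, hA'comm, hA'ne⟩ := exists_char_comm_ne_bot B
  haveI := hA'c
  have hAn : (A'.map B.subtype).Normal := inferInstance
  have hAeq : A'.map B.subtype = B := by
    refine (hB.2.2 _ hAn (Subgroup.map_subtype_le _)).resolve_left ?_
    intro hbot
    rw [Subgroup.map_eq_bot_iff_of_injective _ (Subgroup.subtype_injective _)] at hbot
    exact hA'ne hbot
  have hcomm : ∀ x y : B, x * y = y * x := by
    intro x y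
    have hx : (x : G) ∈ A'.map B.subtype := by rw [hAeq]; exact x.2
    have hy : (y : G) ∈ A'.map B.subtype := by rw [hAeq]; exact y.2
    obtain ⟨x', hx', hxe⟩ := hx
    obtain ⟨y', hy', hye⟩ := hy
    have ex : x' = x := Subtype.ext hxe
    have ey : y' = y := Subtype.ext hye
    rw [← ex, ← ey]
    have := hA'comm.is_comm.comm ⟨x', hx'⟩ ⟨y', hy'⟩
    exact congrArg Subtype.val this
  have hcard : Nat.card B ≠ 1 := fun h => hB.2.1 (Subgroup.card_eq_one.mp h)
  obtain ⟨p, hp, hpd⟩ := Nat.exists_prime_and_dvd hcard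
  haveI : Fact p.Prime := ⟨hp⟩
  obtain P : Sylow p B := default
  have hPn : (P : Subgroup B).Normal := by
    constructor
    intro n hn g
    have : g * n * g⁻¹ = n := by rw [hcomm g n]; group
    rw [this]; exact hn
  haveI := P.characteristic_of_normal hPn
  have hPGn : ((P : Subgroup B).map B.subtype).Normal := inferInstance
  have hPeq : (P : Subgroup B).map B.subtype = B := by
    refine (hB.2.2 _ hPGn (Subgroup.map_subtype_le _)).resolve_left ?_
    intro hbot
    rw [Subgroup.map_eq_bot_iff_of_injective _ (Subgroup.subtype_injective _)] at hbot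
    exact P.ne_bot_of_dvd_card hpd hbot
  refine ⟨p, hp, ?_⟩
  have h1 : IsPGroup p ((P : Subgroup B).map B.subtype) := P.isPGroup'.map B.subtype
  rwa [hPeq] at h1

/-- A system normalizer avoids a non-central minimal normal subgroup. -/
theorem minNormal_inf_systemNormalizer {G : Type u} [Group G] [Finite G] [Group.IsSolvable G]
    (K : Nat.Primes → Subgroup G) (hK : Cfsg.IsComplementSystem K) (B : Subgroup G)
    (hB : IsMinNormal B) (hnc : ¬ B ≤ Subgroup.center G) :
    B ⊓ Cfsg.systemNormalizer K = ⊥ := by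
  obtain ⟨p, hp, hBp⟩ := hB.exists_isPGroup
  haveI : Fact p.Prime := ⟨hp⟩
  haveI := hB.1
  set C := Subgroup.centralizer (B : Set G) with hC
  haveI hCn : C.Normal := Subgroup.normal_centralizer
  have hCne : C ≠ ⊤ := by
    intro h
    apply hnc
    intro b hb
    rw [Subgroup.mem_center_iff]
    intro g
    have hg : g ∈ C := by rw [h]; trivial
    rw [hC, Subgroup.mem_centralizer_iff] at hg
    exact (hg b hb).symm
  haveI : Nontrivial (G ⧸ C) := by
    by_contra hns
    rw [not_nontrivial_iff_subsingleton] at hns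
    exact hCne (QuotientGroup.subgroup_eq_top_of_subsingleton C hns)
  obtain ⟨r, hr, Rb, hRb, hRbr, -⟩ := exists_minNormal_abelian_pgroup (G ⧸ C)
  haveI : Fact r.Prime := ⟨hr⟩
  haveI := hRb.1
  set R := Rb.comap (QuotientGroup.mk' C) with hR
  haveI hRn : R.Normal := inferInstance
  have hCR : C ≤ R := by
    have := MonoidHom.ker_le_comap (QuotientGroup.mk' C) Rb
    rwa [QuotientGroup.ker_mk'] at this
  have hmapR : R.map (QuotientGroup.mk' C) = Rb :=
    Subgroup.map_comap_eq_self_of_surjective (QuotientGroup.mk'_surjective C) Rb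
  -- the normal subgroup F := C_B(R)
  have hFn : (B ⊓ Subgroup.centralizer (R : Set G)).Normal := inferInstance
  have hFne : B ⊓ Subgroup.centralizer (R : Set G) ≠ B := by
    intro hF
    have h1 : B ≤ Subgroup.centralizer (R : Set G) := hF ▸ inf_le_right
    have h2 : R ≤ C := Subgroup.le_centralizer_iff.mp h1
    have h3 : Rb ≤ ⊥ := by
      rw [← hmapR, ← QuotientGroup.map_mk'_self C]
      exact Subgroup.map_mono h2
    exact hRb.2.1 (le_bot_iff.mp h3)
  have hF : B ⊓ Subgroup.centralizer (R : Set G) = ⊥ :=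
    (hB.2.2 _ hFn inf_le_left).resolve_right hFne
  -- r ≠ p
  have hrp : r ≠ p := by
    rintro rfl
    obtain ⟨i, hi⟩ := IsPGroup.iff_card.mp hRbr
    have hidx : (C.subgroupOf R).index = r ^ i := by
      have := relIndex_comap_mk' C Rb
      rw [hi] at this
      exact this
    obtain T : Sylow r R := default
    have hsup := sup_sylow_eq_top_of_index_pow (C.subgroupOf R) T hidx
    set L : Subgroup G := (T : Subgroup R).map R.subtype with hL
    have hLp : IsPGroup r L := T.isPGroup'.map R.subtype
    obtain ⟨a, ha, ha1, hac⟩ := exists_ne_one_comm_of_pgroup L B hLp hBp hB.2.1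
    have haF : a ∈ B ⊓ Subgroup.centralizer (R : Set G) := by
      refine Subgroup.mem_inf.mpr ⟨ha, ?_⟩
      rw [Subgroup.mem_centralizer_iff]
      intro h hh
      haveI : (C.subgroupOf R).Normal := inferInstance
      obtain ⟨c, hc, t, ht, hct⟩ := exists_mul_of_sup_eq_top (C.subgroupOf R) (T : Subgroup R) hsup ⟨h, hh⟩
      have hh' : h = (c : G) * (t : G) := by
        have := congrArg (fun y : R => (y : G)) hct
        simpa using this
      have hcC : (c : G) ∈ C := Subgroup.mem_subgroupOf.mp hc
      rw [hC, Subgroup.mem_centralizer_iff] at hcC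
      have e1 : a * (c : G) = (c : G) * a := hcC a ha
      have e2 : (t : G) * a = a * (t : G) := hac _ (Subgroup.mem_map_of_mem R.subtype ht)
      rw [hh']
      calc (c : G) * (t : G) * a = (c : G) * ((t : G) * a) := by group
        _ = (c : G) * (a * (t : G)) := by rw [e2]
        _ = ((c : G) * a) * (t : G) := by group
        _ = (a * (c : G)) * (t : G) := by rw [e1]
        _ = a * ((c : G) * (t : G)) := by group
    rw [hF, Subgroup.mem_bot] at haF
    exact ha1 haF
  -- R ≤ K p ⊔ C
  have hRK : R ≤ K ⟨p, hp⟩ ⊔ C := by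
    have h1 : ((K ⟨p, hp⟩).map (QuotientGroup.mk' C)).index ∣ p ^ (Nat.card G).factorization p := by
      have := hK ⟨p, hp⟩
      simp only at this
      rw [← this]
      exact Subgroup.index_map_dvd _ (QuotientGroup.mk'_surjective C)
    have h2 : ((K ⟨p, hp⟩).map (QuotientGroup.mk' C)).relIndex Rb ∣
        p ^ (Nat.card G).factorization p :=
      dvd_trans (relIndex_dvd_index_of_normal_right _ Rb) h1
    obtain ⟨i, hi⟩ := IsPGroup.iff_card.mp hRbr
    have h3 : ((K ⟨p, hp⟩).map (QuotientGroup.mk' C)).relIndex Rb ∣ r ^ i := by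
      rw [← hi]; exact Subgroup.relIndex_dvd_card _ _
    have hcop : Nat.Coprime (p ^ (Nat.card G).factorization p) (r ^ i) :=
      Nat.Coprime.pow _ _ ((Nat.coprime_primes hp hr).mpr (Ne.symm hrp))
    have h4 : ((K ⟨p, hp⟩).map (QuotientGroup.mk' C)).relIndex Rb = 1 :=
      Nat.eq_one_of_dvd_coprimes hcop h2 h3
    have h5 : Rb ≤ (K ⟨p, hp⟩).map (QuotientGroup.mk' C) := Subgroup.relIndex_eq_one.mp h4
    have h6 : R ≤ ((K ⟨p, hp⟩).map (QuotientGroup.mk' C)).comap (QuotientGroup.mk' C) :=
      Subgroup.comap_mono h5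
    rwa [Subgroup.comap_map_eq, QuotientGroup.ker_mk'] at h6
  -- main
  rw [eq_bot_iff]
  intro b hb
  obtain ⟨hbB, hbD⟩ := Subgroup.mem_inf.mp hb
  have hbN : b ∈ Subgroup.normalizer (K ⟨p, hp⟩ : Set G) := by
    unfold Cfsg.systemNormalizer at hbD
    rw [Subgroup.mem_iInf] at hbD
    exact hbD ⟨p, hp⟩
  have hdisj : B ⊓ K ⟨p, hp⟩ = ⊥ := by
    obtain ⟨i, hi⟩ := IsPGroup.iff_card.mp hBp
    apply disjoint_iff.mp
    apply Subgroup.disjoint_of_coprime_natCard
    rw [hi]
    apply Nat.Coprime.pow_left
    exact (Nat.Prime.coprime_iff_not_dvd hp).mpr (not_dvd_card_of_complementSystem hK ⟨p, hp⟩)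
  have hKZ : K ⟨p, hp⟩ ≤ Subgroup.centralizer ({b} : Set G) := by
    intro k hk
    rw [Subgroup.mem_centralizer_iff]
    intro x hx
    rw [Set.mem_singleton_iff] at hx
    rw [hx]
    have h1 : b * k * b⁻¹ * k⁻¹ ∈ K ⟨p, hp⟩ :=
      Subgroup.mul_mem _ ((Subgroup.mem_normalizer_iff.mp hbN k).mp hk) (Subgroup.inv_mem _ hk)
    have h2 : b * k * b⁻¹ * k⁻¹ ∈ B := by
      have : k * b⁻¹ * k⁻¹ ∈ B := hB.1.conj_mem _ (B.inv_mem hbB) k
      have e : b * k * b⁻¹ * k⁻¹ = b * (k * b⁻¹ * k⁻¹) := by group
      rw [e]; exact B.mul_mem hbB this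
    have h3 : b * k * b⁻¹ * k⁻¹ ∈ B ⊓ K ⟨p, hp⟩ := Subgroup.mem_inf.mpr ⟨h2, h1⟩
    rw [hdisj, Subgroup.mem_bot] at h3
    calc b * k = (b * k * b⁻¹ * k⁻¹) * k * b := by group
      _ = k * b := by rw [h3]; group
  have hCZ : C ≤ Subgroup.centralizer ({b} : Set G) := by
    intro c hc
    rw [hC, Subgroup.mem_centralizer_iff] at hc
    rw [Subgroup.mem_centralizer_iff]
    intro x hx
    rw [Set.mem_singleton_iff] at hx
    rw [hx]
    exact hc b hbB
  have hRZ : R ≤ Subgroup.centralizer ({b} : Set G) := hRK.trans (sup_le hKZ hCZ)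
  have hbF : b ∈ B ⊓ Subgroup.centralizer (R : Set G) := by
    refine Subgroup.mem_inf.mpr ⟨hbB, ?_⟩
    rw [Subgroup.mem_centralizer_iff]
    intro h hh
    have := hRZ hh
    rw [Subgroup.mem_centralizer_iff] at this
    exact (this b rfl).symm
  rw [hF] at hbF
  exact hbF

/-- Covering and avoidance of chief factors by a system normalizer. -/
theorem cover_avoid {G : Type u} [Group G] [Finite G] [Group.IsSolvable G]
    (K : Nat.Primes → Subgroup G) (hK : Cfsg.IsComplementSystem K) (A B : Subgroup G)
    [A.Normal] [B.Normal] (hAB : A < B)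
    (hchief : ∀ N : Subgroup G, N.Normal → A ≤ N → N ≤ B → N = A ∨ N = B) :
    (⁅B, (⊤ : Subgroup G)⁆ ≤ A → B ≤ A ⊔ Cfsg.systemNormalizer K) ∧
      (¬ ⁅B, (⊤ : Subgroup G)⁆ ≤ A → B ⊓ Cfsg.systemNormalizer K ≤ A) := by
  have hKb := complementSystem_map K hK A
  have hDb := systemNormalizer_map K hK A
  constructor
  · intro hc b hb
    have h1 : QuotientGroup.mk' A b ∈
        Cfsg.systemNormalizer (fun p => (K p).map (QuotientGroup.mk' A)) := by
      unfold Cfsg.systemNormalizer
      rw [Subgroup.mem_iInf]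
      intro p
      rw [Subgroup.mem_normalizer_iff]
      intro w
      obtain ⟨g, rfl⟩ := QuotientGroup.mk'_surjective A w
      have h2 : ⁅b, g⁆ ∈ A := hc (Subgroup.commutator_mem_commutator hb (Subgroup.mem_top g))
      have h3 : QuotientGroup.mk' A b * QuotientGroup.mk' A g * (QuotientGroup.mk' A b)⁻¹ =
          QuotientGroup.mk' A g := by
        have h4 : QuotientGroup.mk' A ⁅b, g⁆ = 1 := (QuotientGroup.eq_one_iff _).mpr h2
        rw [commutatorElement_def, map_mul, map_mul, map_mul, map_inv, map_inv] at h4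
        have h5 := congrArg (fun t => t * QuotientGroup.mk' A g) h4
        simpa using h5
      rw [h3]
    rw [hDb] at h1
    have h2 : b ∈ ((Cfsg.systemNormalizer K).map (QuotientGroup.mk' A)).comap
        (QuotientGroup.mk' A) := h1
    rw [Subgroup.comap_map_eq, QuotientGroup.ker_mk', sup_comm] at h2
    exact h2
  · intro hnc
    have hBbmin : IsMinNormal (B.map (QuotientGroup.mk' A)) := by
      refine ⟨Subgroup.Normal.map inferInstance _ (QuotientGroup.mk'_surjective A), ?_, ?_⟩
      · intro hbot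
        have h1 : B ≤ A := by
          intro b hb
          have : QuotientGroup.mk' A b ∈ B.map (QuotientGroup.mk' A) :=
            Subgroup.mem_map_of_mem _ hb
          rw [hbot, Subgroup.mem_bot] at this
          exact (QuotientGroup.eq_one_iff b).mp this
        exact absurd hAB (not_lt_of_ge h1)
      · intro Lb hLbn hLb
        haveI := hLbn
        have hLn : (Lb.comap (QuotientGroup.mk' A)).Normal := inferInstance
        have hAL : A ≤ Lb.comap (QuotientGroup.mk' A) := by
          have := MonoidHom.ker_le_comap (QuotientGroup.mk' A) Lb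
          rwa [QuotientGroup.ker_mk'] at this
        have hLB : Lb.comap (QuotientGroup.mk' A) ≤ B := by
          have h1 := Subgroup.comap_mono (f := QuotientGroup.mk' A) hLb
          rw [Subgroup.comap_map_eq, QuotientGroup.ker_mk', sup_eq_left.mpr hAB.le] at h1
          exact h1
        have hmap : (Lb.comap (QuotientGroup.mk' A)).map (QuotientGroup.mk' A) = Lb :=
          Subgroup.map_comap_eq_self_of_surjective (QuotientGroup.mk'_surjective A) Lb
        rcases hchief _ hLn hAL hLB with h | h
        · left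
          rw [← hmap, h, QuotientGroup.map_mk'_self]
        · right
          rw [← hmap, h]
    have hBbnc : ¬ B.map (QuotientGroup.mk' A) ≤ Subgroup.center (G ⧸ A) := by
      intro hcen
      apply hnc
      apply Subgroup.commutator_le.mpr
      intro b hb g _
      have h1 := hcen (Subgroup.mem_map_of_mem (QuotientGroup.mk' A) hb)
      rw [Subgroup.mem_center_iff] at h1
      have h2 := h1 (QuotientGroup.mk' A g)
      apply (QuotientGroup.eq_one_iff _).mp
      show QuotientGroup.mk' A ⁅b, g⁆ = 1
      rw [commutatorElement_def, map_mul, map_mul, map_mul, map_inv, map_inv, ← h2]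
      group
    have h0 := minNormal_inf_systemNormalizer _ hKb _ hBbmin hBbnc
    intro b hb
    obtain ⟨hbB, hbD⟩ := Subgroup.mem_inf.mp hb
    have h1 : QuotientGroup.mk' A b ∈ B.map (QuotientGroup.mk' A) ⊓
        Cfsg.systemNormalizer (fun p => (K p).map (QuotientGroup.mk' A)) := by
      refine Subgroup.mem_inf.mpr ⟨Subgroup.mem_map_of_mem _ hbB, ?_⟩
      rw [hDb]
      exact Subgroup.mem_map_of_mem _ hbD
    rw [h0, Subgroup.mem_bot] at h1
    exact (QuotientGroup.eq_one_iff b).mp h1

end Cfsg.Agent.Lib.helper3
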