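import Mathlib
import Cfsg.Agent.Lib.helper3.SL2Odd
import Cfsg.Agent.Lib.helper3.SL2Trace

set_option linter.style.haveILetI false
set_option autoImplicit false

namespace Cfsg.Agent.Lib.helper3

/-- A non-identity `2 × 2` matrix fixes at most a line pointwise. -/
theorem mat2_fix_line {F : Type*} [Field F] (M : Matrix (Fin 2) (Fin 2) F) (hM : M ≠ 1)
    (v w : Fin 2 → F) (hv : v ≠ 0) (hMv : M.mulVec v = v) (hMw : M.mulVec w = w) :
    w ∈ Submodule.span F {v} := by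
  have v0 := congrFun hMv 0
  have v1 := congrFun hMv 1
  have w0 := congrFun hMw 0
  have w1 := congrFun hMw 1
  simp only [Matrix.mulVec, dotProduct, Fin.sum_univ_two] at v0 v1 w0 w1
  by_cases hd : v 0 * w 1 - v 1 * w 0 = 0
  · rw [Submodule.mem_span_singleton]
    by_cases h0 : v 0 = 0
    · have h1 : v 1 ≠ 0 := by
        intro h1
        apply hv
        ext i
        fin_cases i
        · exact h0
        · exact h1
      have hw0 : w 0 = 0 := by
        have h2 : v 1 * w 0 = 0 := by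
          rw [h0] at hd
          linear_combination -hd
        exact (mul_eq_zero.mp h2).resolve_left h1
      refine ⟨w 1 / v 1, ?_⟩
      ext i
      fin_cases i
      · show w 1 / v 1 * v 0 = w 0
        rw [h0, hw0, mul_zero]
      · show w 1 / v 1 * v 1 = w 1
        field_simp
    · refine ⟨w 0 / v 0, ?_⟩
      ext i
      fin_cases i
      · show w 0 / v 0 * v 0 = w 0
        field_simp
      · show w 0 / v 0 * v 1 = w 1
        field_simp
        linear_combination -hd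
  · exfalso
    apply hM
    have e00 : (M 0 0 - 1) * (v 0 * w 1 - v 1 * w 0) = 0 := by
      linear_combination w 1 * v0 - v 1 * w0
    have e01 : M 0 1 * (v 0 * w 1 - v 1 * w 0) = 0 := by
      linear_combination v 0 * w0 - w 0 * v0
    have e10 : M 1 0 * (v 0 * w 1 - v 1 * w 0) = 0 := by
      linear_combination w 1 * v1 - v 1 * w1
    have e11 : (M 1 1 - 1) * (v 0 * w 1 - v 1 * w 0) = 0 := by
      linear_combination v 0 * w1 - w 0 * v1
    have f00 : M 0 0 = 1 := sub_eq_zero.mp ((mul_eq_zero.mp e00).resolve_right hd)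
    have f01 : M 0 1 = 0 := (mul_eq_zero.mp e01).resolve_right hd
    have f10 : M 1 0 = 0 := (mul_eq_zero.mp e10).resolve_right hd
    have f11 : M 1 1 = 1 := sub_eq_zero.mp ((mul_eq_zero.mp e11).resolve_right hd)
    ext i j
    fin_cases i <;> fin_cases j
    · show M 0 0 = (1 : Matrix (Fin 2) (Fin 2) F) 0 0
      rw [Matrix.one_apply_eq]; exact f00
    · show M 0 1 = (1 : Matrix (Fin 2) (Fin 2) F) 0 1
      rw [Matrix.one_apply_ne (by decide)]; exact f01
    · show M 1 0 = (1 : Matrix (Fin 2) (Fin 2) F) 1 0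
      rw [Matrix.one_apply_ne (by decide)]; exact f10
    · show M 1 1 = (1 : Matrix (Fin 2) (Fin 2) F) 1 1
      rw [Matrix.one_apply_eq]; exact f11

/-- An eigenvalue of an element of `SL₂` of trace `2` is `1`. -/
theorem sl2_eig_one {F : Type*} [Field F] (n : Matrix.SpecialLinearGroup (Fin 2) F)
    (htr : Matrix.trace (n : Matrix (Fin 2) (Fin 2) F) = 2) (v : Fin 2 → F) (c : F) (hv : v ≠ 0)
    (h : (n : Matrix (Fin 2) (Fin 2) F).mulVec v = c • v) : c = 1 := by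
  have hdet := n.det_coe
  rw [Matrix.det_fin_two] at hdet
  rw [Matrix.trace_fin_two] at htr
  have e0 := congrFun h 0
  have e1 := congrFun h 1
  simp only [Matrix.mulVec, dotProduct, Fin.sum_univ_two, Pi.smul_apply, smul_eq_mul] at e0 e1
  have h0 : (c - 1) ^ 2 * v 0 = 0 := by
    linear_combination ((n : Matrix (Fin 2) (Fin 2) F) 1 1 - c) * e0 -
      (n : Matrix (Fin 2) (Fin 2) F) 0 1 * e1 - v 0 * hdet + c * v 0 * htr
  have h1 : (c - 1) ^ 2 * v 1 = 0 := by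
    linear_combination ((n : Matrix (Fin 2) (Fin 2) F) 0 0 - c) * e1 -
      (n : Matrix (Fin 2) (Fin 2) F) 1 0 * e0 - v 1 * hdet + c * v 1 * htr
  have h2 : (c - 1) ^ 2 = 0 := by
    by_contra hne
    apply hv
    ext i
    fin_cases i
    · exact (mul_eq_zero.mp h0).resolve_left hne
    · exact (mul_eq_zero.mp h1).resolve_left hne
  exact sub_eq_zero.mp (pow_eq_zero_iff (two_ne_zero) |>.mp h2)

/-- A finite subgroup of odd order of `GL₂(F)`, `F` of characteristic `p`, with no invariant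
line has order prime to `p`. -/
theorem gl2_odd_irred {F : Type*} [Field F] (p : ℕ) [Fact p.Prime] [CharP F p]
    (H : Subgroup (GL (Fin 2) F)) [Finite H] (hodd : Odd (Nat.card H))
    (hirr : ∀ v : Fin 2 → F, v ≠ 0 →
      ∃ g ∈ H, (g : Matrix (Fin 2) (Fin 2) F).mulVec v ∉ Submodule.span F {v}) :
    ¬ p ∣ Nat.card H := by
  classical
  have hp : p.Prime := Fact.out
  intro hdvd
  obtain ⟨T, hT⟩ : ∃ T : Matrix.SpecialLinearGroup (Fin 2) F →* GL (Fin 2) F,
      T = Matrix.SpecialLinearGroup.toGL := ⟨_, rfl⟩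
  have hTcoe : ∀ s : Matrix.SpecialLinearGroup (Fin 2) F,
      ((T s : GL (Fin 2) F) : Matrix (Fin 2) (Fin 2) F) = (s : Matrix (Fin 2) (Fin 2) F) := by
    intro s; rw [hT]; rfl
  have hTinj : Function.Injective T := by
    intro a b hab
    apply Subtype.ext
    rw [← hTcoe a, ← hTcoe b, hab]
  have hlift : ∀ g : GL (Fin 2) F, Matrix.det (g : Matrix (Fin 2) (Fin 2) F) = 1 →
      ∃ s : Matrix.SpecialLinearGroup (Fin 2) F, T s = g := by
    intro g hg
    exact ⟨(⟨(g : Matrix (Fin 2) (Fin 2) F), hg⟩ : Matrix.SpecialLinearGroup (Fin 2) F),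
      Units.ext (hTcoe _)⟩
  have hdet1 : ∀ (g : GL (Fin 2) F) (j : ℕ), g ^ (p ^ j) = 1 →
      Matrix.det (g : Matrix (Fin 2) (Fin 2) F) = 1 := by
    intro g j hg
    have h1 : Matrix.det (g : Matrix (Fin 2) (Fin 2) F) ^ (p ^ j) = 1 := by
      rw [← Matrix.det_pow, ← Units.val_pow_eq_pow_val, hg, Units.val_one, Matrix.det_one]
    have h2 : (Matrix.det (g : Matrix (Fin 2) (Fin 2) F) - 1) ^ (p ^ j) = 0 := by
      rw [sub_pow_char_pow, h1, one_pow, sub_self]
    exact sub_eq_zero.mp (pow_eq_zero_iff (pow_ne_zero j hp.ne_zero) |>.mp h2)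
  obtain ⟨H', hH'⟩ : ∃ H' : Subgroup (Matrix.SpecialLinearGroup (Fin 2) F), H' = H.comap T :=
    ⟨_, rfl⟩
  obtain ⟨k, hk⟩ : ∃ k : Set (Matrix.SpecialLinearGroup (Fin 2) F),
      k = {s | s ∈ H' ∧ ∃ j : ℕ, s ^ (p ^ j) = 1} := ⟨_, rfl⟩
  obtain ⟨Γ, hΓ⟩ : ∃ Γ : Subgroup (Matrix.SpecialLinearGroup (Fin 2) F),
      Γ = Subgroup.closure k := ⟨_, rfl⟩
  have hΓle : Γ ≤ H' := by
    rw [hΓ, Subgroup.closure_le]
    intro s hs
    rw [hk] at hs
    exact hs.1
  have hmapΓ : ∀ s : ↥Γ, (T.comp Γ.subtype) s ∈ H := by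
    intro s
    have h1 : (s : Matrix.SpecialLinearGroup (Fin 2) F) ∈ H' := hΓle s.2
    rw [hH'] at h1
    exact h1
  obtain ⟨θ, hθ⟩ : ∃ θ : ↥Γ →* ↥H, ∀ s : ↥Γ,
      ((θ s : ↥H) : GL (Fin 2) F) = T (s : Matrix.SpecialLinearGroup (Fin 2) F) :=
    ⟨(T.comp Γ.subtype).codRestrict H hmapΓ, fun s => rfl⟩
  have hθinj : Function.Injective θ := by
    intro a b hab
    have h1 : T (a : Matrix.SpecialLinearGroup (Fin 2) F) =
        T (b : Matrix.SpecialLinearGroup (Fin 2) F) := by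
      rw [← hθ, ← hθ, hab]
    exact Subtype.ext (hTinj h1)
  haveI : Finite ↥Γ := Finite.of_injective θ hθinj
  have hoddΓ : Odd (Nat.card ↥Γ) := hodd.of_dvd_nat (Subgroup.card_dvd_of_injective θ hθinj)
  obtain ⟨S, hS⟩ : ∃ S : Set ↥Γ, S = {s | ∃ j : ℕ, s ^ (p ^ j) = 1} := ⟨_, rfl⟩
  have hkmem : ∀ s, s ∈ k → ∃ j : ℕ, s ^ (p ^ j) = 1 := by
    intro s hs
    rw [hk] at hs
    exact hs.2
  have hSgen : Subgroup.closure S = ⊤ := by
    subst hΓ
    have h1 := Subgroup.closure_closure_coe_preimage (k := k)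
    have h2 : (Subtype.val ⁻¹' k : Set ↥(Subgroup.closure k)) ⊆ S := by
      intro s hs
      have hs' : (s : Matrix.SpecialLinearGroup (Fin 2) F) ∈ k := hs
      obtain ⟨j, hj⟩ := hkmem _ hs'
      rw [hS]
      exact ⟨j, Subtype.ext (by rw [Subgroup.coe_pow]; exact hj)⟩
    have h3 := Subgroup.closure_mono h2
    rw [h1] at h3
    exact top_le_iff.mp h3
  have hPG : IsPGroup p ↥Γ := sl2_odd_isPGroup Γ.subtype Γ.subtype_injective hoddΓ S hSgen (by
    intro s hs; rw [hS] at hs; exact hs)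
  have hppow : ∀ n ∈ Γ, ∃ j : ℕ, n ^ (p ^ j) = 1 := by
    intro n hn
    obtain ⟨j, hj⟩ := hPG ⟨n, hn⟩
    have h1 := congrArg Subtype.val hj
    rw [Subgroup.coe_pow] at h1
    exact ⟨j, h1⟩
  -- an element of order p
  obtain ⟨x, hx⟩ := exists_prime_orderOf_dvd_card' (G := ↥H) p hdvd
  have hxp0 : x ^ p = 1 := by rw [← hx]; exact pow_orderOf_eq_one x
  have hxp : (x : GL (Fin 2) F) ^ (p ^ 1) = 1 := by
    rw [pow_one, ← Subgroup.coe_pow, hxp0, Subgroup.coe_one]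
  obtain ⟨s₀, hs₀⟩ := hlift (x : GL (Fin 2) F) (hdet1 _ 1 hxp)
  have hs₀p : s₀ ^ (p ^ 1) = 1 := hTinj (by rw [map_pow, hs₀, hxp, map_one])
  have hs₀1 : s₀ ≠ 1 := by
    intro h
    rw [h, map_one] at hs₀
    have hx1 : x = 1 := Subtype.ext hs₀.symm
    rw [hx1, orderOf_one] at hx
    exact hp.one_lt.ne hx
  have hs₀Γ : s₀ ∈ Γ := by
    rw [hΓ]
    apply Subgroup.subset_closure
    rw [hk]
    refine ⟨?_, 1, hs₀p⟩
    rw [hH']
    show T s₀ ∈ H
    rw [hs₀]
    exact x.2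
  haveI : Nontrivial ↥Γ := ⟨⟨⟨s₀, hs₀Γ⟩, 1, fun h => hs₀1 (congrArg Subtype.val h)⟩⟩
  haveI := hPG.center_nontrivial
  obtain ⟨z, hz1⟩ := exists_ne (1 : ↥(Subgroup.center ↥Γ))
  obtain ⟨u, hu⟩ : ∃ u : Matrix.SpecialLinearGroup (Fin 2) F,
      u = ((z : ↥Γ) : Matrix.SpecialLinearGroup (Fin 2) F) := ⟨_, rfl⟩
  have hu1 : u ≠ 1 := by
    intro h
    apply hz1
    apply Subtype.ext
    apply Subtype.ext
    rw [← hu, h]; rfl
  have huΓ : u ∈ Γ := by rw [hu]; exact (z : ↥Γ).2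
  have hucomm : ∀ n ∈ Γ, n * u = u * n := by
    intro n hn
    have h1 := Subgroup.mem_center_iff.mp z.2 ⟨n, hn⟩
    have h2 := congrArg (Subtype.val : ↥Γ → Matrix.SpecialLinearGroup (Fin 2) F) h1
    rw [hu]
    exact h2
  have htr : ∀ n ∈ Γ, Matrix.trace (n : Matrix (Fin 2) (Fin 2) F) = 2 := by
    intro n hn
    obtain ⟨j, hj⟩ := hppow n hn
    exact sl2_trace_of_ppow n j hj
  obtain ⟨M, hM⟩ : ∃ M : Matrix (Fin 2) (Fin 2) F, M = (u : Matrix (Fin 2) (Fin 2) F) :=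
    ⟨_, rfl⟩
  have hM1 : M ≠ 1 := by
    intro h
    apply hu1
    apply Subtype.ext
    rw [← hM, h]; rfl
  have hMsq : (M - 1) * (M - 1) = 0 := by
    have h1 := sl2_sq_eq u
    rw [htr u huΓ, ← hM] at h1
    rw [sub_mul, mul_sub, mul_sub, mul_one, one_mul, mul_one, h1, two_smul]
    abel
  have hEne : M - 1 ≠ 0 := sub_ne_zero.mpr hM1
  obtain ⟨i₀, j₀, hij⟩ : ∃ i j, (M - 1) i j ≠ 0 := by
    by_contra hcon
    push Not at hcon
    exact hEne (Matrix.ext hcon)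
  obtain ⟨v, hv⟩ : ∃ v : Fin 2 → F, v = fun i => (M - 1) i j₀ := ⟨_, rfl⟩
  have hv0 : v ≠ 0 := by
    intro h
    apply hij
    have h1 := congrFun h i₀
    rw [hv] at h1
    exact h1
  have hEv : (M - 1).mulVec v = 0 := by
    ext i
    have h1 := congrFun (congrFun hMsq i) j₀
    rw [Matrix.mul_apply] at h1
    rw [hv]
    exact h1
  have hMv : M.mulVec v = v := by
    have h1 : (M - 1).mulVec v = M.mulVec v - v := by
      rw [Matrix.sub_mulVec, Matrix.one_mulVec]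
    rw [h1] at hEv
    exact sub_eq_zero.mp hEv
  have hfix : ∀ n ∈ Γ, (n : Matrix (Fin 2) (Fin 2) F).mulVec v = v := by
    intro n hn
    have hc := hucomm n hn
    have hc' : (n : Matrix (Fin 2) (Fin 2) F) * M = M * (n : Matrix (Fin 2) (Fin 2) F) := by
      rw [hM, ← Matrix.SpecialLinearGroup.coe_mul, ← Matrix.SpecialLinearGroup.coe_mul, hc]
    have h1 : M.mulVec ((n : Matrix (Fin 2) (Fin 2) F).mulVec v) =
        (n : Matrix (Fin 2) (Fin 2) F).mulVec v := by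
      rw [Matrix.mulVec_mulVec, ← hc', ← Matrix.mulVec_mulVec, hMv]
    have h2 := mat2_fix_line M hM1 v _ hv0 hMv h1
    obtain ⟨c, hc2⟩ := Submodule.mem_span_singleton.mp h2
    have h3 := sl2_eig_one n (htr n hn) v c hv0 hc2.symm
    rw [← hc2, h3, one_smul]
  obtain ⟨g, hgH, hgv⟩ := hirr v hv0
  apply hgv
  obtain ⟨j, huj⟩ := hppow u huΓ
  have hconjpow : (g * T u * g⁻¹) ^ (p ^ j) = 1 := by
    rw [conj_pow, ← map_pow, huj, map_one, mul_one, mul_inv_cancel]
  obtain ⟨s₂, hs₂⟩ := hlift _ (hdet1 _ j hconjpow)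
  have hs₂Γ : s₂ ∈ Γ := by
    rw [hΓ]
    apply Subgroup.subset_closure
    rw [hk]
    refine ⟨?_, j, ?_⟩
    · rw [hH']
      show T s₂ ∈ H
      rw [hs₂]
      have huH : T u ∈ H := by
        have h1 := hΓle huΓ
        rw [hH'] at h1
        exact h1
      exact H.mul_mem (H.mul_mem hgH huH) (H.inv_mem hgH)
    · apply hTinj
      rw [map_pow, hs₂, hconjpow, map_one]
  have hs₂1 : (s₂ : Matrix (Fin 2) (Fin 2) F) ≠ 1 := by
    intro h
    apply hu1
    have h1 : s₂ = 1 := Subtype.ext h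
    rw [h1, map_one] at hs₂
    have h3 : g * T u * g⁻¹ = 1 := hs₂.symm
    have h2 : T u = 1 := by
      calc T u = g⁻¹ * (g * T u * g⁻¹) * g := by group
        _ = 1 := by rw [h3, mul_one, inv_mul_cancel]
    exact hTinj (by rw [h2, map_one])
  have hs₂coe : (s₂ : Matrix (Fin 2) (Fin 2) F) = (g : Matrix (Fin 2) (Fin 2) F) * M *
      ((g⁻¹ : GL (Fin 2) F) : Matrix (Fin 2) (Fin 2) F) := by
    rw [← hTcoe s₂, hs₂, Units.val_mul, Units.val_mul, hTcoe, hM]
  have hgw : (s₂ : Matrix (Fin 2) (Fin 2) F).mulVec ((g : Matrix (Fin 2) (Fin 2) F).mulVec v) =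
      (g : Matrix (Fin 2) (Fin 2) F).mulVec v := by
    rw [hs₂coe, Matrix.mulVec_mulVec, mul_assoc, mul_assoc, ← Units.val_mul, inv_mul_cancel,
      Units.val_one, mul_one, ← Matrix.mulVec_mulVec, hMv]
  exact mat2_fix_line _ hs₂1 v _ hv0 (hfix s₂ hs₂Γ) hgw

end Cfsg.Agent.Lib.helper3
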