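import Mathlib

set_option autoImplicit false
set_option synthInstance.maxSize 4000

/-! Decidable facts about the projective line over the field with nine elements, with the
affine plane over `ZMod 3` as its finite part. -/

namespace Cfsg.Agent.Lib.helper3.A6

/-- the affine plane over `ZMod 3` -/
abbrev L := ZMod 3 × ZMod 3

/-- the projective line over the field with nine elements -/
abbrev X := Option L

/-- affine maps; the columns of the linear part are `(α, β)` and `(γ, δ)` -/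
def aff (α β γ δ w1 w2 : ZMod 3) : X → X
  | none => none
  | some (a, b) => some (α * a + γ * b + w1, β * a + δ * b + w2)

/-- translations -/
def tr (w1 w2 : ZMod 3) : X → X := aff 1 0 0 1 w1 w2

/-- multiplication by a fourth root of unity -/
def cf : X → X := aff 0 1 (-1) 0 0 0

def cp (k : ℕ) (q : X) : X := cf^[k] q

/-- `x ↦ s / x` -/
def tf (s1 s2 : ZMod 3) : X → X
  | none => some (0, 0)
  | some (a, b) => if a = 0 ∧ b = 0 then none else
      some (s1 * (a ^ 2 + b ^ 2) * a + s2 * (a ^ 2 + b ^ 2) * b,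
        s2 * (a ^ 2 + b ^ 2) * a - s1 * (a ^ 2 + b ^ 2) * b)

abbrev Pa (s1 s2 : ZMod 3) : Prop := s1 * s2 = 0 ∧ s1 ^ 2 + s2 ^ 2 = 1

def FF (i : ℕ) (q r : X) : X → X
  | none => some (0, 0)
  | some x => if x = (0, 0) then none
      else if x = (1, 0) then q
      else if x = (0, 1) then cp i q
      else if x = (2, 0) then cp i (cp i q)
      else if x = (0, 2) then cp i (cp i (cp i q))
      else if x = (1, 1) then r
      else if x = (2, 1) then cp i r
      else if x = (2, 2) then cp i (cp i r)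
      else cp i (cp i (cp i r))

set_option maxRecDepth 1000000 in
theorem FF_dec : ∀ i < 4, ∀ (q r : X), Function.Injective (FF i q r) →
    (∀ x, FF i q r (cf x) = cp i (FF i q r x)) →
    (∃ k < 4, ∃ z1 z2, ∀ x, FF i q r (tr 1 0 (FF i q r x)) =
      tr (q.getD (0, 0)).1 (q.getD (0, 0)).2 (FF i q r (tr z1 z2 (cp k x)))) →
    ∃ s1 s2, Pa s1 s2 ∧ FF i q r = tf s1 s2 := by decide +kernel

theorem l_cases : ∀ x : L, x = (0, 0) ∨ x = (1, 0) ∨ x = (0, 1) ∨ x = (2, 0) ∨ x = (0, 2) ∨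
    x = (1, 1) ∨ x = (2, 1) ∨ x = (2, 2) ∨ x = (1, 2) := by decide

theorem det (T : X → X) (hinj : Function.Injective T) (h1 : T none = some (0, 0))
    (h1' : T (some (0, 0)) = none)
    (h2 : ∃ i < 4, ∀ q, T (cf q) = cp i (T q))
    (h4 : ∃ y1 y2, ∃ k < 4, ∃ z1 z2,
      ∀ q, T (tr 1 0 (T q)) = tr y1 y2 (T (tr z1 z2 (cp k q)))) :
    ∃ s1 s2, Pa s1 s2 ∧ ∀ q, T q = tf s1 s2 q := by
  obtain ⟨i, hi4, hj⟩ := h2
  obtain ⟨y1, y2, k, hk4, z1, z2, h4⟩ := h4
  have hy : T (some (1, 0)) = some (y1, y2) := by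
    have h := h4 none
    have e1 : tr 1 0 (some (0, 0)) = some (1, 0) := by decide
    have e2 : ∀ k, cp k none = none := by
      intro k
      induction k with
      | zero => rfl
      | succ k ih => unfold cp at ih ⊢; rw [Function.iterate_succ_apply']; rw [ih]; rfl
    have e3 : tr z1 z2 none = none := rfl
    have e4 : tr y1 y2 (some (0, 0)) = some (y1, y2) := by
      show some ((1 : ZMod 3) * 0 + 0 * 0 + y1, (0 : ZMod 3) * 0 + 1 * 0 + y2) = some (y1, y2)
      simp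
    rw [h1, e1, e2, e3, h1, e4] at h
    exact h
  have a1 : T (some (0, 1)) = cp i (T (some (1, 0))) := hj (some (1, 0))
  have a2 : T (some (2, 0)) = cp i (cp i (T (some (1, 0)))) := by
    have h := hj (some (0, 1))
    rw [a1] at h; exact h
  have a3 : T (some (0, 2)) = cp i (cp i (cp i (T (some (1, 0))))) := by
    have h := hj (some (2, 0))
    rw [a2] at h; exact h
  have b1 : T (some (2, 1)) = cp i (T (some (1, 1))) := hj (some (1, 1))
  have b2 : T (some (2, 2)) = cp i (cp i (T (some (1, 1)))) := by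
    have h := hj (some (2, 1))
    rw [b1] at h; exact h
  have b3 : T (some (1, 2)) = cp i (cp i (cp i (T (some (1, 1))))) := by
    have h := hj (some (2, 2))
    rw [b2] at h; exact h
  have key : ∀ q, T q = FF i (T (some (1, 0))) (T (some (1, 1))) q := by
    intro q
    rcases q with _ | x
    · exact h1
    · rcases l_cases x with rfl | rfl | rfl | rfl | rfl | rfl | rfl | rfl | rfl
      · exact h1'
      · rfl
      · exact a1
      · exact a2
      · exact a3
      · rfl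
      · exact b1
      · exact b2
      · exact b3
  have hfun : T = FF i (T (some (1, 0))) (T (some (1, 1))) := funext key
  have hA : Function.Injective (FF i (T (some (1, 0))) (T (some (1, 1)))) := by
    rw [← hfun]; exact hinj
  have hB : ∀ x, FF i (T (some (1, 0))) (T (some (1, 1))) (cf x) =
      cp i (FF i (T (some (1, 0))) (T (some (1, 1))) x) := by rw [← hfun]; exact hj
  have hC : ∃ k < 4, ∃ z1 z2, ∀ x, FF i (T (some (1, 0))) (T (some (1, 1)))
      (tr 1 0 (FF i (T (some (1, 0))) (T (some (1, 1))) x)) =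
      tr ((T (some (1, 0))).getD (0, 0)).1 ((T (some (1, 0))).getD (0, 0)).2
        (FF i (T (some (1, 0))) (T (some (1, 1))) (tr z1 z2 (cp k x))) := by
    refine ⟨k, hk4, z1, z2, ?_⟩
    rw [← hfun, hy]
    exact h4
  obtain ⟨s1, s2, hs, hh⟩ := FF_dec i hi4 _ _ hA hB hC
  exact ⟨s1, s2, hs, fun q => by rw [key, hh]⟩

/-! ### the permutations -/

theorem su_l : ∀ q : X, tr (-1) 0 (tr 1 0 q) = q := by decide
theorem su_r : ∀ q : X, tr 1 0 (tr (-1) 0 q) = q := by decide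
theorem sv_l : ∀ q : X, tr 0 (-1) (tr 0 1 q) = q := by decide
theorem sv_r : ∀ q : X, tr 0 1 (tr 0 (-1) q) = q := by decide
theorem sc_l : ∀ q : X, aff 0 (-1) 1 0 0 0 (cf q) = q := by decide
theorem sc_r : ∀ q : X, cf (aff 0 (-1) 1 0 0 0 q) = q := by decide

def tg (s1 s2 : ZMod 3) : X → X := if Pa s1 s2 then tf s1 s2 else id

theorem tg_inv : ∀ (s1 s2 : ZMod 3) (q : X), tg s1 s2 (tg s1 s2 q) = q := by decide +kernel

def su : Equiv.Perm X := ⟨tr 1 0, tr (-1) 0, su_l, su_r⟩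
def sv : Equiv.Perm X := ⟨tr 0 1, tr 0 (-1), sv_l, sv_r⟩
def sc : Equiv.Perm X := ⟨cf, aff 0 (-1) 1 0 0 0, sc_l, sc_r⟩
def st (s1 s2 : ZMod 3) : Equiv.Perm X := ⟨tg s1 s2, tg s1 s2, tg_inv s1 s2, tg_inv s1 s2⟩

theorem hsu (q : X) : su q = tr 1 0 q := rfl
theorem hsv (q : X) : sv q = tr 0 1 q := rfl
theorem hsc (q : X) : sc q = cf q := rfl
theorem hst_aux : ∀ s1 s2 : ZMod 3, Pa s1 s2 → ∀ q, tg s1 s2 q = tf s1 s2 q := by decide +kernel
theorem hst (s1 s2 : ZMod 3) (hs : Pa s1 s2) (q : X) : st s1 s2 q = tf s1 s2 q :=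
  hst_aux s1 s2 hs q

theorem sc_pow (k : ℕ) (q : X) : (sc ^ k) q = cp k q := by
  unfold cp
  rw [← Equiv.Perm.iterate_eq_pow]
  rfl

def K (s1 s2 : ZMod 3) : Subgroup (Equiv.Perm X) := Subgroup.closure {su, sv, sc, st s1 s2}

theorem orbit_aux : ∀ s1 s2 : ZMod 3, Pa s1 s2 →
    (∃ k < 4, ∀ q, tg s1 s2 q = cp k (tg 1 0 q)) ∧ (∃ k < 4, ∀ q, tg 1 0 q = cp k (tg s1 s2 q)) := by
  decide +kernel

theorem K_eq (s1 s2 : ZMod 3) (hs : Pa s1 s2) : K s1 s2 = K 1 0 := by
  obtain ⟨⟨k, -, hk⟩, ⟨k', -, hk'⟩⟩ := orbit_aux s1 s2 hs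
  have e1 : st s1 s2 = sc ^ k * st 1 0 := by
    ext q : 1
    rw [Equiv.Perm.mul_apply, sc_pow]
    exact hk q
  have e2 : st 1 0 = sc ^ k' * st s1 s2 := by
    ext q : 1
    rw [Equiv.Perm.mul_apply, sc_pow]
    exact hk' q
  unfold K
  apply le_antisymm
  · rw [Subgroup.closure_le]
    intro x hx
    simp only [Set.mem_insert_iff, Set.mem_singleton_iff] at hx
    rcases hx with rfl | rfl | rfl | rfl
    · exact Subgroup.subset_closure (by simp)
    · exact Subgroup.subset_closure (by simp)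
    · exact Subgroup.subset_closure (by simp)
    · rw [e1]
      exact Subgroup.mul_mem _ (Subgroup.pow_mem _ (Subgroup.subset_closure (by simp)) _)
        (Subgroup.subset_closure (by simp))
  · rw [Subgroup.closure_le]
    intro x hx
    simp only [Set.mem_insert_iff, Set.mem_singleton_iff] at hx
    rcases hx with rfl | rfl | rfl | rfl
    · exact Subgroup.subset_closure (by simp)
    · exact Subgroup.subset_closure (by simp)
    · exact Subgroup.subset_closure (by simp)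
    · rw [e2]
      exact Subgroup.mul_mem _ (Subgroup.pow_mem _ (Subgroup.subset_closure (by simp)) _)
        (Subgroup.subset_closure (by simp))

/-! ### facts about affine maps -/

def fixc (f : X → X) : ℕ := (Finset.univ.filter (fun q => f q = q)).card

set_option maxRecDepth 1000000 in
theorem D_inv : ∀ α β γ δ w1 w2 : ZMod 3,
    (∀ q, aff α β γ δ w1 w2 (aff α β γ δ w1 w2 q) = q) → (∃ q, aff α β γ δ w1 w2 q ≠ q) →
    fixc (aff α β γ δ w1 w2) % 4 = 2 → (α = -1 ∧ β = 0 ∧ γ = 0 ∧ δ = -1) := by decide +kernel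

theorem D_neg : ∀ w1 w2 w1' w2' : ZMod 3,
    (∀ q, aff (-1) 0 0 (-1) w1 w2 (aff (-1) 0 0 (-1) w1' w2' (aff (-1) 0 0 (-1) w1 w2
      (aff (-1) 0 0 (-1) w1' w2' (aff (-1) 0 0 (-1) w1 w2 (aff (-1) 0 0 (-1) w1' w2'
      (aff (-1) 0 0 (-1) w1 w2 (aff (-1) 0 0 (-1) w1' w2' q))))))) = q) →
    w1 = w1' ∧ w2 = w2' := by decide +kernel

set_option maxRecDepth 1000000 in
theorem D_ord4 : ∀ α β γ δ w1 w2 : ZMod 3,
    (∀ q, aff α β γ δ w1 w2 (aff α β γ δ w1 w2 (aff α β γ δ w1 w2 (aff α β γ δ w1 w2 q))) = q) →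
    (∃ q, aff α β γ δ w1 w2 (aff α β γ δ w1 w2 q) ≠ q) →
    (∀ q, aff α β γ δ w1 w2 (aff α β γ δ w1 w2 (tr 1 0 q)) =
      tr (-1) 0 (aff α β γ δ w1 w2 (aff α β γ δ w1 w2 q))) ∧
    (∀ k, ∃ q, aff α β γ δ w1 w2 (tr 1 0 q) ≠ tr k 0 (aff α β γ δ w1 w2 q)) ∧
    (∃ x1 x2, aff α β γ δ w1 w2 (some (x1, x2)) = some (x1, x2)) := by decide +kernel

theorem D_count : ∀ w1 w2 w1' w2' : ZMod 3, ∀ k < 4, ∀ k' < 4,
    (∀ q, tr w1 w2 (cp k q) = tr w1' w2' (cp k' q)) → w1 = w1' ∧ w2 = w2' ∧ k = k' := by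
  decide +kernel

theorem cp_four : ∀ q : X, cp 4 q = q := by decide

theorem D_c : ∀ α β γ δ w1 w2 : ZMod 3,
    (∀ q, aff α β γ δ w1 w2 (tr 1 0 q) = tr 0 1 (aff α β γ δ w1 w2 q)) →
    (∀ q, aff α β γ δ w1 w2 (tr 0 1 q) = tr (-1) 0 (aff α β γ δ w1 w2 q)) →
    aff α β γ δ w1 w2 (some (0, 0)) = some (0, 0) → ∀ q, aff α β γ δ w1 w2 q = cf q := by
  decide +kernel

end Cfsg.Agent.Lib.helper3.A6
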