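import Mathlib
import Cfsg.Prelude.Def_SolvableStructure
import Cfsg.Agent.Lib.helper3.SupersolvablePrime
import Cfsg.Agent.Lib.helper1.Hall

set_option autoImplicit false
set_option linter.style.haveILetI false

namespace Cfsg.Agent.Lib.helper3

universe u v

/-- Finite abelian groups have subgroups of every order dividing the group order. -/
theorem abelian_clt_aux : ∀ (n : ℕ) (A : Type u) [CommGroup A] [Finite A], Nat.card A = n →
    ∀ d : ℕ, d ∣ n → ∃ H : Subgroup A, Nat.card H = d := by
  intro n
  induction n using Nat.strong_induction_on with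
  | _ n ih =>
    intro A _ _ hn d hd
    by_cases hd1 : d = 1
    · exact ⟨⊥, by rw [Subgroup.card_bot, hd1]⟩
    · have hpp : (d.minFac).Prime := Nat.minFac_prime hd1
      haveI : Fact (d.minFac).Prime := ⟨hpp⟩
      have hpd : d.minFac ∣ d := Nat.minFac_dvd d
      have hpn : d.minFac ∣ Nat.card A := hn ▸ dvd_trans hpd hd
      obtain ⟨x, hx⟩ := exists_prime_orderOf_dvd_card' (d.minFac) hpn
      have hN : Nat.card (Subgroup.zpowers x) = d.minFac := by rw [Nat.card_zpowers, hx]
      have hq : Nat.card (A ⧸ Subgroup.zpowers x) = n / d.minFac := by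
        have := Subgroup.card_eq_card_quotient_mul_card_subgroup (Subgroup.zpowers x)
        rw [hn, hN] at this
        rw [this, Nat.mul_div_cancel _ hpp.pos]
      have hlt : n / d.minFac < n :=
        Nat.div_lt_self (by rw [← hn]; exact Nat.card_pos) hpp.one_lt
      obtain ⟨e, he⟩ := hpd
      have he' : e ∣ n / d.minFac := by
        apply (Nat.dvd_div_iff_mul_dvd (hn ▸ hpn)).mpr
        rw [← he]; exact hd
      obtain ⟨K, hK⟩ := ih (n / d.minFac) hlt (A ⧸ Subgroup.zpowers x) hq e he'
      refine ⟨K.comap (QuotientGroup.mk' (Subgroup.zpowers x)), ?_⟩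
      rw [card_comap_mk', hK, hN, mul_comm]
      exact he.symm

theorem abelian_clt (A : Type u) [CommGroup A] [Finite A] (d : ℕ) (hd : d ∣ Nat.card A) :
    ∃ H : Subgroup A, Nat.card H = d :=
  abelian_clt_aux (Nat.card A) A rfl d hd

theorem clt_prod {G : Type u} {A : Type v} [Group G] [CommGroup A] [Finite G] [Finite A]
    [Group.IsSolvable G]
    (hA : ∀ p : ℕ, p.Prime → p ∣ Nat.card A → p ∣ Nat.card G)
    (hexp : ∀ p : ℕ, p.Prime → p ∣ Nat.card G →
      (Nat.card A).factorization p + 1 = (Nat.card G).factorization p) :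
    Cfsg.HasSubgroupOfEveryOrder (G × A) := by
  classical
  intro d hd
  rw [Nat.card_prod] at hd
  have hg0 : Nat.card G ≠ 0 := Nat.card_pos.ne'
  have ha0 : Nat.card A ≠ 0 := Nat.card_pos.ne'
  have hga0 : Nat.card G * Nat.card A ≠ 0 := mul_ne_zero hg0 ha0
  have hd0 : d ≠ 0 := fun h0 => hga0 (by rw [h0] at hd; exact Nat.eq_zero_of_zero_dvd hd)
  set f : ℕ →₀ ℕ := (Nat.card G).factorization.filter
    (fun p => (Nat.card G).factorization p ≤ d.factorization p) with hf
  have hfsupp : ∀ p ∈ f.support, p.Prime := by
    intro p hp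
    rw [hf, Finsupp.support_filter, Finset.mem_filter] at hp
    exact Nat.prime_of_mem_primeFactors (by rw [← Nat.support_factorization]; exact hp.1)
  set m := f.prod (· ^ ·) with hm
  have hmf : m.factorization = f := Nat.prod_pow_factorization_eq_self hfsupp
  have hm0 : m ≠ 0 := by
    rw [hm, Finsupp.prod_ne_zero_iff]
    intro p hp
    exact pow_ne_zero _ (hfsupp p hp).ne_zero
  have hfle : ∀ p, f p ≤ (Nat.card G).factorization p := by
    intro p
    rw [hf, Finsupp.filter_apply]
    split_ifs <;> simp
  have hfle' : ∀ p, f p ≤ d.factorization p := by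
    intro p
    rw [hf, Finsupp.filter_apply]
    split_ifs with hc
    · exact hc
    · simp
  have hmg : m ∣ Nat.card G := by
    apply (Nat.factorization_le_iff_dvd hm0 hg0).mp
    rw [hmf]; exact fun p => hfle p
  have hmd : m ∣ d := by
    apply (Nat.factorization_le_iff_dvd hm0 hd0).mp
    rw [hmf]; exact fun p => hfle' p
  obtain ⟨n, hn⟩ := hmg
  have hn0 : n ≠ 0 := fun h0 => hg0 (by rw [hn, h0, mul_zero])
  have hnfact : n.factorization = (Nat.card G).factorization - m.factorization := by
    have : n = Nat.card G / m := by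
      rw [hn, Nat.mul_div_cancel_left _ (Nat.pos_of_ne_zero hm0)]
    rw [this, Nat.factorization_div ⟨n, hn⟩]
  have hcop : m.Coprime n := by
    apply Nat.coprime_of_dvd
    intro p hp hpm hpn
    have h1 : 1 ≤ m.factorization p := (hp.dvd_iff_one_le_factorization hm0).mp hpm
    have h2 : 1 ≤ n.factorization p := (hp.dvd_iff_one_le_factorization hn0).mp hpn
    rw [hnfact, Finsupp.tsub_apply, hmf] at h2
    rw [hmf] at h1
    have h3 : f p = (Nat.card G).factorization p := by
      rw [hf, Finsupp.filter_apply] at h1 ⊢
      split_ifs with hc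
      · rfl
      · rw [if_neg hc] at h1; omega
    omega
  obtain ⟨H, hH⟩ := Cfsg.Agent.Lib.helper1.hall_exists m n hn hcop
  obtain ⟨e, he⟩ := hmd
  have he0 : e ≠ 0 := fun h0 => hd0 (by rw [he, h0, mul_zero])
  have hefact : e.factorization = d.factorization - m.factorization := by
    have : e = d / m := by
      rw [he, Nat.mul_div_cancel_left _ (Nat.pos_of_ne_zero hm0)]
    rw [this, Nat.factorization_div ⟨e, he⟩]
  have hea : e ∣ Nat.card A := by
    apply (Nat.factorization_le_iff_dvd he0 ha0).mp
    intro p
    rw [hefact, Finsupp.tsub_apply, hmf]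
    by_cases hpp : p.Prime
    · have hdle : d.factorization p ≤
          (Nat.card G).factorization p + (Nat.card A).factorization p := by
        have := (Nat.factorization_le_iff_dvd hd0 hga0).mpr hd p
        rwa [Nat.factorization_mul hg0 ha0, Finsupp.add_apply] at this
      by_cases hpg : p ∣ Nat.card G
      · have h1 := hexp p hpp hpg
        by_cases hc : (Nat.card G).factorization p ≤ d.factorization p
        · have h3 : f p = (Nat.card G).factorization p := by
            rw [hf, Finsupp.filter_apply, if_pos hc]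
          omega
        · have h3 : f p = 0 := by
            rw [hf, Finsupp.filter_apply, if_neg hc]
          omega
      · have h1 : (Nat.card G).factorization p = 0 := Nat.factorization_eq_zero_of_not_dvd hpg
        have h2 : (Nat.card A).factorization p = 0 :=
          Nat.factorization_eq_zero_of_not_dvd (fun h => hpg (hA p hpp h))
        omega
    · rw [Nat.factorization_eq_zero_of_not_prime d hpp]
      simp
  obtain ⟨B, hB⟩ := abelian_clt A e hea
  refine ⟨H.prod B, ?_⟩
  rw [Nat.card_congr (Subgroup.prodEquiv H B).toEquiv, Nat.card_prod, hH, hB]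
  exact he.symm

end Cfsg.Agent.Lib.helper3
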