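import Mathlib

set_option autoImplicit false

namespace Cfsg.Agent.Lib.helper3

universe u

theorem commutator_le_centralizer_of_cyclic_normal {Q : Type u} [Group Q] (N : Subgroup Q)
    [N.Normal] [IsCyclic N] : commutator Q ≤ Subgroup.centralizer (N : Set Q) := by
  let _ : CommGroup (MulAut N) :=
    (IsCyclic.mulAutMulEquiv N).toMonoidHom.commGroupOfInjective (IsCyclic.mulAutMulEquiv N).injective
  have h := Abelianization.commutator_subset_ker (MulAut.conjNormal : Q →* MulAut N)
  intro s hs
  have hs' := h hs
  rw [MonoidHom.mem_ker] at hs'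
  rw [Subgroup.mem_centralizer_iff]
  intro n hn
  have e := congrArg (fun φ : MulAut N => ((φ ⟨n, hn⟩ : N) : Q)) hs'
  simp only [MulAut.conjNormal_apply, MulAut.one_apply] at e
  have e2 : s * n * s⁻¹ * s = n * s := by rw [e]
  rw [inv_mul_cancel_right] at e2
  exact e2.symm

end Cfsg.Agent.Lib.helper3
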