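import Mathlib
import Cfsg.Agent.Lib.helper3.Basic

set_option autoImplicit false
set_option linter.style.haveILetI false

namespace Cfsg.Agent.Lib.helper3

universe u

open scoped commutatorElement

theorem focalSubgroup_mono {G : Type u} [Group G] {A B : Subgroup G} (h : A ≤ B) :
    A.focalSubgroup ≤ B.focalSubgroup := by
  rw [Subgroup.focalSubgroup_def, Subgroup.focalSubgroup_def]
  apply Subgroup.closure_mono
  rintro g ⟨hg, x, hx, u, rfl⟩
  exact ⟨h hg, x, h hx, u, rfl⟩

theorem focalSubgroup_map_subtype_le {G : Type u} [Group G] (K : Subgroup G) (A : Subgroup K) :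
    A.focalSubgroup.map K.subtype ≤ (A.map K.subtype).focalSubgroup := by
  rw [Subgroup.focalSubgroup_def, Subgroup.focalSubgroup_def, MonoidHom.map_closure]
  apply Subgroup.closure_mono
  rintro _ ⟨g, ⟨hg, x, hx, u, rfl⟩, rfl⟩
  refine ⟨Subgroup.mem_map_of_mem _ hg, x, Subgroup.mem_map_of_mem _ hx, u, ?_⟩
  simp [commutatorElement_def]

theorem focal_iterate_mono {G : Type u} [Group G] (k : ℕ) {A B : Subgroup G} (h : A ≤ B) :
    (fun X : Subgroup G => X.focalSubgroup)^[k] A ≤ (fun X : Subgroup G => X.focalSubgroup)^[k] B := by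
  induction k generalizing A B with
  | zero => exact h
  | succ k ih =>
    rw [Function.iterate_succ_apply, Function.iterate_succ_apply]
    exact ih (focalSubgroup_mono h)

theorem focal_iterate_map_subtype_le {G : Type u} [Group G] (K : Subgroup G) (k : ℕ)
    (A : Subgroup K) :
    ((fun X : Subgroup K => X.focalSubgroup)^[k] A).map K.subtype ≤
      (fun X : Subgroup G => X.focalSubgroup)^[k] (A.map K.subtype) := by
  induction k generalizing A with
  | zero => exact le_rfl
  | succ k ih =>
    rw [Function.iterate_succ_apply, Function.iterate_succ_apply]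
    exact (ih _).trans (focal_iterate_mono k (focalSubgroup_map_subtype_le K A))

/-- Transfer into `H/H*` for a Hall subgroup `H`: a normal subgroup `K` with `K ⊓ H = H*`
and `|G : K| = |H : H*|`. -/
theorem exists_normal_inf_eq_focal {G : Type u} [Group G] [Finite G] (H : Subgroup G)
    (hHall : (Nat.card H).Coprime H.index) :
    ∃ K : Subgroup G, K.Normal ∧ K ⊓ H = H.focalSubgroup ∧
      Nat.card K * Nat.card H = Nat.card G * Nat.card H.focalSubgroup := by
  classical
  set Q := H ⧸ H.focalSubgroupOf with hQ
  have hQcard : Nat.card Q * Nat.card H.focalSubgroup = Nat.card H := by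
    have h1 := Subgroup.card_eq_card_quotient_mul_card_subgroup H.focalSubgroupOf
    have h2 : Nat.card H.focalSubgroupOf = Nat.card H.focalSubgroup := by
      rw [← Subgroup.card_map_of_injective (Subgroup.subtype_injective H), Subgroup.map_focalSubgroupOf]
    rw [h1, h2]
  have hQcop : (Nat.card Q).Coprime H.index := by
    apply Nat.Coprime.coprime_dvd_left _ hHall
    exact Dvd.intro _ hQcard
  set V : G →* Q := H.transferFocal with hV
  have hVpow : ∀ x : H, V x = (QuotientGroup.mk' H.focalSubgroupOf x) ^ H.index := fun x =>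
    H.transferFocal_eq_pow x
  have hsurj : Function.Surjective V := by
    intro q
    obtain ⟨y, hy⟩ := (powCoprime hQcop).surjective q
    obtain ⟨x, rfl⟩ := QuotientGroup.mk'_surjective _ y
    refine ⟨x, ?_⟩
    rw [hVpow x]
    exact hy
  refine ⟨V.ker, inferInstance, ?_, ?_⟩
  · ext x
    constructor
    · rintro ⟨hxk, hxH⟩
      have h1 : V (⟨x, hxH⟩ : H) = 1 := MonoidHom.mem_ker.mp hxk
      rw [hVpow] at h1
      have h2 : powCoprime hQcop (QuotientGroup.mk' H.focalSubgroupOf ⟨x, hxH⟩) =
          powCoprime hQcop 1 := by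
        simp only [powCoprime_apply, one_pow]
        exact h1
      have h3 := (powCoprime hQcop).injective h2
      have h4 : (⟨x, hxH⟩ : H) ∈ H.focalSubgroupOf := by
        rw [← QuotientGroup.eq_one_iff]
        exact h3
      exact h4
    · intro hx
      have hxH : x ∈ H := H.focalSubgroup_le hx
      refine ⟨?_, hxH⟩
      refine MonoidHom.mem_ker.mpr ?_
      have h1 : V (⟨x, hxH⟩ : H) = 1 := by
        rw [hVpow]
        have : (QuotientGroup.mk' H.focalSubgroupOf ⟨x, hxH⟩) = 1 := by
          rw [QuotientGroup.mk'_apply, QuotientGroup.eq_one_iff]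
          exact hx
        rw [this, one_pow]
      exact h1
  · have h1 : V.ker.index = Nat.card Q := by
      rw [Subgroup.index_ker, MonoidHom.range_eq_top.mpr hsurj, Subgroup.card_top]
    have h2 := V.ker.card_mul_index
    rw [h1] at h2
    rw [← h2, ← hQcard]
    ring

/-- A Hall subgroup whose iterated focal series reaches the trivial subgroup has a normal
complement. -/
theorem hall_focal_aux : ∀ (n : ℕ) (G : Type u) [Group G] [Finite G] (H : Subgroup G),
    (Nat.card H).Coprime H.index →
    (fun K : Subgroup G => K.focalSubgroup)^[n] H = ⊥ →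
    ∃ N : Subgroup G, N.Normal ∧ Subgroup.IsComplement' N H := by
  intro n
  induction n with
  | zero =>
    intro G _ _ H _ h
    have hH : H = ⊥ := h
    rw [hH]
    exact ⟨⊤, inferInstance, Subgroup.isComplement'_top_bot⟩
  | succ n ih =>
    intro G _ _ H hHall h
    rw [Function.iterate_succ_apply] at h
    obtain ⟨K, hKn, hKH, hcard⟩ := exists_normal_inf_eq_focal H hHall
    haveI := hKn
    set H₁ : Subgroup G := H.focalSubgroup with hH₁
    have hH₁K : H₁ ≤ K := by rw [← hKH]; exact inf_le_left
    have hH₁H : H₁ ≤ H := H.focalSubgroup_le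
    -- cardinalities
    have hGc := H.card_mul_index
    have hK1 : Nat.card H₁ * H₁.relIndex K = Nat.card K := card_mul_relIndex_of_le hH₁K
    have hrel : H₁.relIndex K = H.index := by
      have h1 : (Nat.card H₁ * Nat.card H) * H₁.relIndex K =
          (Nat.card H₁ * Nat.card H) * H.index := by
        calc (Nat.card H₁ * Nat.card H) * H₁.relIndex K
            = (Nat.card H₁ * H₁.relIndex K) * Nat.card H := by ring
          _ = Nat.card G * Nat.card H₁ := by rw [hK1, hcard]
          _ = (Nat.card H₁ * Nat.card H) * H.index := by rw [← hGc]; ring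
      exact Nat.eq_of_mul_eq_mul_left (Nat.mul_pos Nat.card_pos Nat.card_pos) h1
    have hcardH₁' : Nat.card (H₁.subgroupOf K) = Nat.card H₁ := by
      rw [← Subgroup.card_map_of_injective (Subgroup.subtype_injective K),
        Subgroup.map_subgroupOf_eq_of_le hH₁K]
    have hHall' : (Nat.card (H₁.subgroupOf K)).Coprime (H₁.subgroupOf K).index := by
      rw [hcardH₁']
      change (Nat.card H₁).Coprime (H₁.relIndex K)
      rw [hrel]
      exact Nat.Coprime.coprime_dvd_left (Subgroup.card_dvd_of_le hH₁H) hHall
    have hfoc : (fun X : Subgroup K => X.focalSubgroup)^[n] (H₁.subgroupOf K) = ⊥ := by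
      have h1 := focal_iterate_map_subtype_le K n (H₁.subgroupOf K)
      rw [Subgroup.map_subgroupOf_eq_of_le hH₁K, h, le_bot_iff,
        Subgroup.map_eq_bot_iff_of_injective _ (Subgroup.subtype_injective K)] at h1
      exact h1
    obtain ⟨N, hNn, hNc⟩ := ih K (H₁.subgroupOf K) hHall' hfoc
    haveI := hNn
    have hNcard : Nat.card N = H.index := by
      have h1 := hNc.card_mul_card
      rw [hcardH₁', ← hK1] at h1
      have h2 : Nat.card H₁ * Nat.card N = Nat.card H₁ * H₁.relIndex K := by
        rw [← h1]; ring
      rw [← hrel]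
      exact Nat.eq_of_mul_eq_mul_left Nat.card_pos h2
    have hNidx : N.index = Nat.card H₁ := by
      have h1 := N.card_mul_index
      have h2 := hNc.card_mul_card
      rw [hcardH₁'] at h2
      have h3 : Nat.card N * N.index = Nat.card N * Nat.card H₁ := by rw [h1, h2]
      exact Nat.eq_of_mul_eq_mul_left Nat.card_pos h3
    -- characterization of N
    have hchar : ∀ x : K, x ^ H.index = 1 → x ∈ N := by
      intro x hx
      rw [← QuotientGroup.eq_one_iff]
      have h1 : (x : K ⧸ N) ^ H.index = 1 := by
        rw [← QuotientGroup.mk_pow, hx]; rfl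
      have h2 : (x : K ⧸ N) ^ Nat.card (K ⧸ N) = 1 := pow_card_eq_one'
      have h3 : Nat.card (K ⧸ N) = Nat.card H₁ := by
        rw [← hNidx]; rfl
      rw [h3] at h2
      have h4 : orderOf (x : K ⧸ N) ∣ H.index := orderOf_dvd_of_pow_eq_one h1
      have h5 : orderOf (x : K ⧸ N) ∣ Nat.card H₁ := orderOf_dvd_of_pow_eq_one h2
      have hcop : (Nat.card H₁).Coprime H.index :=
        Nat.Coprime.coprime_dvd_left (Subgroup.card_dvd_of_le hH₁H) hHall
      have h6 : orderOf (x : K ⧸ N) = 1 := Nat.eq_one_of_dvd_coprimes hcop h5 h4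
      exact orderOf_eq_one_iff.mp h6
    have hpow : ∀ x : K, x ∈ N → x ^ H.index = 1 := by
      intro x hx
      have h1 : (⟨x, hx⟩ : N) ^ Nat.card N = 1 := pow_card_eq_one'
      rw [hNcard] at h1
      have := congrArg Subtype.val h1
      simpa using this
    refine ⟨N.map K.subtype, ?_, ?_⟩
    · constructor
      rintro _ ⟨x, hx, rfl⟩ g
      have hgK : g * (x : G) * g⁻¹ ∈ K := hKn.conj_mem _ x.2 g
      refine ⟨⟨_, hgK⟩, ?_, rfl⟩
      apply hchar
      apply Subtype.ext
      have h1 := congrArg Subtype.val (hpow x hx)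
      simp only [Subgroup.coe_pow, Subgroup.coe_one] at h1 ⊢
      rw [conj_pow, h1]; simp
    · apply Subgroup.isComplement'_of_coprime
      · rw [Subgroup.card_map_of_injective (Subgroup.subtype_injective K), hNcard, mul_comm]
        exact hGc
      · rw [Subgroup.card_map_of_injective (Subgroup.subtype_injective K), hNcard]
        exact hHall.symm

end Cfsg.Agent.Lib.helper3
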