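import Mathlib

set_option autoImplicit false
set_option linter.style.haveILetI false

namespace Cfsg.Agent.Lib.helper3

open Equiv

theorem perm_apply_inv {α : Type*} (f : Perm α) (x : α) : f (f⁻¹ x) = x :=
  (Perm.inv_eq_iff_eq.mp rfl).symm

theorem perm_inv_apply {α : Type*} (f : Perm α) (x : α) : f⁻¹ (f x) = x :=
  Perm.inv_eq_iff_eq.mpr rfl

/-- In a `(j+1)`-transitive permutation group, the pointwise stabilizer of a `j`-set is
transitive on the complement. -/
theorem exists_fix_map {α : Type*} [Fintype α] [DecidableEq α] (G : Subgroup (Perm α)) {j : ℕ}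
    (hG : MulAction.IsMultiplyPretransitive G α (j + 1)) (Γ : Finset α) (hΓ : Γ.card = j)
    {c d : α} (hc : c ∉ Γ) (hd : d ∉ Γ) :
    ∃ t : Perm α, t ∈ G ∧ (∀ y ∈ Γ, t y = y) ∧ t c = d := by
  haveI := hG
  have h1 : MulAction.IsMultiplyPretransitive (fixingSubgroup G (Γ : Set α))
      (SubMulAction.ofFixingSubgroup G (Γ : Set α)) 1 :=
    SubMulAction.ofFixingSubgroup.isMultiplyPretransitive G (Γ : Set α)
      (by rw [Set.ncard_coe_finset, hΓ])
  haveI : MulAction.IsPretransitive (fixingSubgroup G (Γ : Set α))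
      (SubMulAction.ofFixingSubgroup G (Γ : Set α)) := MulAction.is_one_pretransitive_iff.mp h1
  obtain ⟨t, ht⟩ := MulAction.exists_smul_eq (fixingSubgroup G (Γ : Set α))
    (⟨c, fun h => hc (Finset.mem_coe.mp h)⟩ : SubMulAction.ofFixingSubgroup G (Γ : Set α))
    ⟨d, fun h => hd (Finset.mem_coe.mp h)⟩
  refine ⟨((t : G) : Perm α), (t : G).2, ?_, ?_⟩
  · intro y hy
    have := (mem_fixingSubgroup_iff G).mp t.2 y (by simpa using hy)
    exact this
  · have := congrArg Subtype.val ht
    exact this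

/-- Support of `g⁻¹ * t * g * t⁻¹` when `t` fixes `Γ ⊆ supp g` pointwise. -/
theorem support_comm_subset {α : Type*} [Fintype α] [DecidableEq α] (g t : Perm α)
    (Γ : Finset α) (ht : ∀ y ∈ Γ, t y = y) :
    (g⁻¹ * t * g * t⁻¹).support ⊆
      (g.support ∪ (g.support \ Γ).image t) \ Γ.filter (fun y => g y ∈ Γ) := by
  intro y hy
  rw [Perm.mem_support] at hy
  rw [Finset.mem_sdiff]
  constructor
  · by_contra hE
    rw [Finset.mem_union, not_or] at hE
    obtain ⟨hyΔ, hyI⟩ := hE
    apply hy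
    have hgy : g y = y := Perm.notMem_support.mp hyΔ
    have h1 : t⁻¹ y ∉ g.support := by
      intro h
      by_cases hΓ' : t⁻¹ y ∈ Γ
      · have e := ht _ hΓ'
        rw [perm_apply_inv] at e
        apply hyΔ
        rw [e]; exact h
      · apply hyI
        rw [Finset.mem_image]
        exact ⟨t⁻¹ y, Finset.mem_sdiff.mpr ⟨h, hΓ'⟩, perm_apply_inv t y⟩
    have h2 : g (t⁻¹ y) = t⁻¹ y := Perm.notMem_support.mp h1
    show g⁻¹ (t (g (t⁻¹ y))) = y
    rw [h2, perm_apply_inv, Perm.inv_eq_iff_eq, hgy]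
  · intro hyΓ'
    rw [Finset.mem_filter] at hyΓ'
    obtain ⟨hyΓ, hgyΓ⟩ := hyΓ'
    apply hy
    have h1 : t⁻¹ y = y := by
      rw [Perm.inv_eq_iff_eq]; exact (ht y hyΓ).symm
    show g⁻¹ (t (g (t⁻¹ y))) = y
    rw [h1, ht _ hgyΓ, perm_inv_apply]

theorem card_support_comm_le {α : Type*} [Fintype α] [DecidableEq α] (g t : Perm α)
    (Γ : Finset α) (hΓ : Γ ⊆ g.support) (ht : ∀ y ∈ Γ, t y = y) (e b : ℕ)
    (he : ((g.support \ Γ).image t \ g.support).card ≤ e)
    (hb : (Γ.filter (fun y => g y ∉ Γ)).card ≤ b) :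
    (g⁻¹ * t * g * t⁻¹).support.card + Γ.card ≤ g.support.card + e + b := by
  have h1 := Finset.card_le_card (support_comm_subset g t Γ ht)
  have hsub : Γ.filter (fun y => g y ∈ Γ) ⊆ g.support ∪ (g.support \ Γ).image t :=
    (Finset.filter_subset _ _).trans (hΓ.trans Finset.subset_union_left)
  have h2 := Finset.card_sdiff_add_card_eq_card hsub
  have h3 : (g.support ∪ (g.support \ Γ).image t).card ≤ g.support.card + e := by
    rw [← Finset.union_sdiff_self_eq_union]
    exact (Finset.card_union_le _ _).trans (Nat.add_le_add_left he _)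
  have h4 := Finset.card_filter_add_card_filter_not (s := Γ) (fun y => g y ∈ Γ)
  omega

/-- Subsets of the support of every size with at most one "exit point". -/
theorem exists_segment {α : Type*} [Fintype α] [DecidableEq α] (g : Perm α) :
    ∀ j : ℕ, j ≤ g.support.card → ∃ Γ : Finset α, Γ ⊆ g.support ∧ Γ.card = j ∧
      (Γ.filter (fun y => g y ∉ Γ)).card ≤ 1 := by
  intro j
  induction j with
  | zero => intro _; exact ⟨∅, Finset.empty_subset _, rfl, by simp⟩
  | succ j ih =>
    intro hj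
    obtain ⟨Γ, hΓ, hcard, hB⟩ := ih (by omega)
    have hlt : Γ.card < g.support.card := by omega
    obtain ⟨z, hzΔ, hzΓ, hz⟩ : ∃ z ∈ g.support, z ∉ Γ ∧ ∀ y ∈ Γ, g y ∉ Γ → g y = z := by
      by_cases hBe : Γ.filter (fun y => g y ∉ Γ) = ∅
      · obtain ⟨z, hzΔ, hzΓ⟩ := Finset.exists_mem_notMem_of_card_lt_card hlt
        refine ⟨z, hzΔ, hzΓ, ?_⟩
        intro y hy hgy
        have h1 : y ∈ Γ.filter (fun y => g y ∉ Γ) := Finset.mem_filter.mpr ⟨hy, hgy⟩
        rw [hBe] at h1
        exact absurd h1 (Finset.notMem_empty _)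
      · obtain ⟨y₀, hy₀⟩ := Finset.nonempty_iff_ne_empty.mpr hBe
        have hy₀' := hy₀
        rw [Finset.mem_filter] at hy₀
        refine ⟨g y₀, Perm.apply_mem_support.mpr (hΓ hy₀.1), hy₀.2, ?_⟩
        intro y hy hgy
        have hy' : y ∈ Γ.filter (fun y => g y ∉ Γ) := Finset.mem_filter.mpr ⟨hy, hgy⟩
        have h1 : y = y₀ := Finset.card_le_one.mp hB y hy' y₀ hy₀'
        rw [h1]
    refine ⟨insert z Γ, Finset.insert_subset hzΔ hΓ, ?_, ?_⟩
    · rw [Finset.card_insert_of_notMem hzΓ, hcard]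
    · apply Finset.card_le_one.mpr
      intro a ha b hb
      rw [Finset.mem_filter, Finset.mem_insert] at ha hb
      have key : ∀ y, (y = z ∨ y ∈ Γ) → g y ∉ insert z Γ → y = z := by
        rintro y (rfl | hy) hgy
        · rfl
        · exfalso
          have h1 : g y ∉ Γ := fun h => hgy (Finset.mem_insert_of_mem h)
          have h2 := hz y hy h1
          apply hgy
          rw [h2]
          exact Finset.mem_insert_self z Γ
      rw [key a ha.1 ha.2, key b hb.1 hb.2]

/-- A `k`-transitive group (`k ≥ 3`) with a nonidentity element moving fewer than `2k - 2`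
points has a nonidentity element moving at most `3` points. -/
theorem ktrans_small_support {α : Type*} [Fintype α] [DecidableEq α] (G : Subgroup (Perm α))
    {k : ℕ} (hk : 3 ≤ k) (hkn : k ≤ Fintype.card α)
    (hG : MulAction.IsMultiplyPretransitive G α k)
    (g₀ : Perm α) (hg₀ : g₀ ∈ G) (hg₀1 : g₀ ≠ 1) (hsupp : g₀.support.card < 2 * k - 2) :
    ∃ h : Perm α, h ∈ G ∧ h ≠ 1 ∧ h.support.card ≤ 3 := by
  classical
  haveI := hG
  have hkn' : k ≤ Nat.card α := by rw [Nat.card_eq_fintype_card]; exact hkn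
  have htr : ∀ j, j + 1 ≤ k → MulAction.IsMultiplyPretransitive G α (j + 1) := fun j hj =>
    MulAction.isMultiplyPretransitive_of_le hj hkn'
  have hex : ∃ n, ∃ h : Perm α, h ∈ G ∧ h ≠ 1 ∧ h.support.card = n :=
    ⟨_, g₀, hg₀, hg₀1, rfl⟩
  obtain ⟨g, hgG, hg1, hgm⟩ := Nat.find_spec hex
  have hmin : ∀ h : Perm α, h ∈ G → h ≠ 1 → g.support.card ≤ h.support.card := by
    intro h hh h1
    rw [hgm]
    exact Nat.find_min' hex ⟨h, hh, h1, rfl⟩
  have hm0 : g.support.card ≤ g₀.support.card := hmin g₀ hg₀ hg₀1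
  by_contra hcon
  have hm4 : 4 ≤ g.support.card := by
    by_contra h4
    exact hcon ⟨g, hgG, hg1, by omega⟩
  have huG : ∀ t : Perm α, t ∈ G → g⁻¹ * t * g * t⁻¹ ∈ G := fun t htG =>
    G.mul_mem (G.mul_mem (G.mul_mem (G.inv_mem hgG) htG) hgG) (G.inv_mem htG)
  -- a point outside the support
  obtain ⟨d₀, hd₀⟩ : ∃ d₀, d₀ ∉ g.support := by
    by_contra hall
    push Not at hall
    have hcard : g.support.card = Fintype.card α := by
      rw [← Finset.card_univ]; congr 1; exact Finset.eq_univ_iff_forall.mpr hall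
    obtain ⟨a, b, c, hab, hac, hbc⟩ : ∃ a b c : α, a ≠ b ∧ a ≠ c ∧ b ≠ c :=
      Fintype.two_lt_card_iff.mp (by omega)
    obtain ⟨t, htG, htfix, htb⟩ := exists_fix_map G (htr 1 (by omega)) {a}
      (Finset.card_singleton a) (c := b) (d := c) (by simpa using hab.symm)
      (by simpa using hac.symm)
    have ht1 : t ≠ 1 := by
      rintro rfl
      exact hbc (by simpa using htb)
    have hta : a ∉ t.support := by
      rw [Perm.notMem_support]; exact htfix a (Finset.mem_singleton_self a)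
    have hlt : t.support.card < Fintype.card α := by
      rw [← Finset.card_univ]
      apply Finset.card_lt_card
      rw [Finset.ssubset_univ_iff]
      intro h
      exact hta (by rw [h]; exact Finset.mem_univ a)
    have := hmin t htG ht1
    omega
  obtain ⟨j, hj⟩ : ∃ j, j = min (g.support.card - 1) (k - 1) := ⟨_, rfl⟩
  have hj1 : j ≤ g.support.card - 1 := hj ▸ min_le_left _ _
  have hj2 : j ≤ k - 1 := hj ▸ min_le_right _ _
  have hj3 : g.support.card < 2 * j := by
    rcases min_choice (g.support.card - 1) (k - 1) with h | h <;> rw [h] at hj <;> omega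
  obtain ⟨Γ, hΓ, hΓc, hB⟩ := exists_segment g j (by omega)
  have htrans := htr j (by omega)
  have hd₀Γ : d₀ ∉ Γ := fun h => hd₀ (hΓ h)
  have hgen : ∀ t : Perm α, ((g.support \ Γ).image t \ g.support).card ≤ g.support.card - j := by
    intro t
    refine (Finset.card_le_card Finset.sdiff_subset).trans (Finset.card_image_le.trans ?_)
    rw [Finset.card_sdiff_of_subset hΓ, hΓc]
  by_cases hBe : Γ.filter (fun y => g y ∉ Γ) = ∅
  · obtain ⟨c, hcΔ, hcΓ⟩ := Finset.exists_mem_notMem_of_card_lt_card (s := Γ) (t := g.support)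
      (by omega)
    obtain ⟨t, htG, htfix, htc⟩ := exists_fix_map G htrans Γ hΓc hcΓ hd₀Γ
    have hu1 : g⁻¹ * t * g * t⁻¹ ≠ 1 := by
      intro h
      have h1 : (g⁻¹ * t * g * t⁻¹) d₀ = d₀ := by rw [h]; rfl
      have h2 : t⁻¹ d₀ = c := by rw [Perm.inv_eq_iff_eq]; exact htc.symm
      have h3 : g⁻¹ (t (g c)) = d₀ := by
        have e : (g⁻¹ * t * g * t⁻¹) d₀ = g⁻¹ (t (g (t⁻¹ d₀))) := rfl
        rw [e, h2] at h1; exact h1
      have h4 : t (g c) = g d₀ := by rw [Perm.inv_eq_iff_eq] at h3; exact h3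
      rw [Perm.notMem_support.mp hd₀, ← htc] at h4
      have h5 : g c = c := t.injective h4
      exact (Perm.mem_support.mp hcΔ) h5
    have hbound := card_support_comm_le g t Γ hΓ htfix (g.support.card - j) 0 (hgen t)
      (by rw [hBe]; simp)
    have := hmin _ (huG t htG) hu1
    omega
  · obtain ⟨y₀, hy₀⟩ := Finset.nonempty_iff_ne_empty.mpr hBe
    rw [Finset.mem_filter] at hy₀
    obtain ⟨hy₀Γ, hgy₀⟩ := hy₀
    have hcΔ : g y₀ ∈ g.support := Perm.apply_mem_support.mpr (hΓ hy₀Γ)
    have hu1 : ∀ (t : Perm α) (d : α), (∀ y ∈ Γ, t y = y) → t (g y₀) = d → d ≠ g y₀ →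
        g⁻¹ * t * g * t⁻¹ ≠ 1 := by
      intro t d htfix htc hdc h
      have h1 : (g⁻¹ * t * g * t⁻¹) y₀ = y₀ := by rw [h]; rfl
      have h2 : t⁻¹ y₀ = y₀ := by rw [Perm.inv_eq_iff_eq]; exact (htfix y₀ hy₀Γ).symm
      have h3 : g⁻¹ (t (g y₀)) = y₀ := by
        have e : (g⁻¹ * t * g * t⁻¹) y₀ = g⁻¹ (t (g (t⁻¹ y₀))) := rfl
        rw [e, h2] at h1; exact h1
      rw [htc, Perm.inv_eq_iff_eq] at h3
      exact hdc h3
    by_cases hd : ∃ d ∈ g.support, d ∉ Γ ∧ d ≠ g y₀
    · obtain ⟨d, hdΔ, hdΓ, hdc⟩ := hd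
      obtain ⟨t, htG, htfix, htc⟩ := exists_fix_map G htrans Γ hΓc hgy₀ hdΓ
      have hbound := card_support_comm_le g t Γ hΓ htfix (g.support.card - j - 1) 1
        (by
          have hsub : (g.support \ Γ).image t \ g.support ⊆
              ((g.support \ Γ).erase (g y₀)).image t := by
            intro x hx
            rw [Finset.mem_sdiff, Finset.mem_image] at hx
            obtain ⟨⟨w, hw, rfl⟩, hxΔ⟩ := hx
            rw [Finset.mem_image]
            refine ⟨w, Finset.mem_erase.mpr ⟨?_, hw⟩, rfl⟩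
            rintro rfl
            apply hxΔ
            rw [htc]; exact hdΔ
          refine (Finset.card_le_card hsub).trans (Finset.card_image_le.trans ?_)
          rw [Finset.card_erase_of_mem (Finset.mem_sdiff.mpr ⟨hcΔ, hgy₀⟩),
            Finset.card_sdiff_of_subset hΓ, hΓc])
        hB
      have := hmin _ (huG t htG) (hu1 t d htfix htc hdc)
      omega
    · push Not at hd
      have hcardΔ : g.support.card ≤ j + 1 := by
        have hsub : g.support ⊆ insert (g y₀) Γ := by
          intro x hx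
          by_cases hxΓ : x ∈ Γ
          · exact Finset.mem_insert_of_mem hxΓ
          · rw [hd x hx hxΓ]; exact Finset.mem_insert_self _ _
        have h1 := Finset.card_le_card hsub
        rw [Finset.card_insert_of_notMem hgy₀, hΓc] at h1
        exact h1
      obtain ⟨t, htG, htfix, htc⟩ := exists_fix_map G htrans Γ hΓc hgy₀ hd₀Γ
      have hdc : d₀ ≠ g y₀ := by
        intro h
        exact hd₀ (by rw [h]; exact hcΔ)
      have hbound := card_support_comm_le g t Γ hΓ htfix (g.support.card - j) 1 (hgen t) hB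
      have := hmin _ (huG t htG) (hu1 t d₀ htfix htc hdc)
      omega

/-- S0711: with Jordan's theorems. -/
theorem ktrans_alternating_le {α : Type*} [Fintype α] [DecidableEq α] (G : Subgroup (Perm α))
    {k : ℕ} (hk : 3 ≤ k) (hkn : k ≤ Fintype.card α)
    (hG : MulAction.IsMultiplyPretransitive G α k)
    (g : Perm α) (hg : g ∈ G) (hg1 : g ≠ 1) (hsupp : g.support.card < 2 * k - 2) :
    (∃ h : Perm α, h ∈ G ∧ h ≠ 1 ∧ h.support.card ≤ 3) ∧ alternatingGroup α ≤ G := by
  obtain ⟨h, hhG, hh1, hh3⟩ := ktrans_small_support G hk hkn hG g hg hg1 hsupp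
  refine ⟨⟨h, hhG, hh1, hh3⟩, ?_⟩
  haveI := hG
  have hkn' : k ≤ Nat.card α := by rw [Nat.card_eq_fintype_card]; exact hkn
  have h2 : MulAction.IsMultiplyPretransitive G α 2 :=
    MulAction.isMultiplyPretransitive_of_le (by omega) hkn'
  have hprim : MulAction.IsPreprimitive G α := MulAction.isPreprimitive_of_is_two_pretransitive h2
  have hc0 : h.support.card ≠ 0 := by rw [Ne, Perm.card_support_eq_zero]; exact hh1
  have hc1 : h.support.card ≠ 1 := Perm.card_support_ne_one h
  have hc : h.support.card = 2 ∨ h.support.card = 3 := by omega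
  rcases hc with h2c | h3c
  · have := Equiv.Perm.subgroup_eq_top_of_isPreprimitive_of_isSwap_mem hprim h
      (Perm.card_support_eq_two.mp h2c) hhG
    rw [this]; exact le_top
  · exact Equiv.Perm.alternatingGroup_le_of_isPreprimitive_of_isThreeCycle_mem hprim
      (card_support_eq_three_iff.mp h3c) hhG

end Cfsg.Agent.Lib.helper3
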