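import Mathlib
import Cfsg.Agent.Lib.helper3.KTransSupport

set_option autoImplicit false
set_option linter.style.haveILetI false

namespace Cfsg.Agent.Lib.helper3.GenTrans

open Equiv Cfsg.Agent.Lib.helper3

variable {α : Type*} [Fintype α] [DecidableEq α]

theorem inv_mem_of_maps (g : Perm α) (Γ : Finset α) (h : ∀ x ∈ Γ, g x ∈ Γ) :
    ∀ x ∈ Γ, g⁻¹ x ∈ Γ := by
  intro x hx
  have himg : Γ.image g = Γ := Finset.eq_of_subset_of_card_le
    (by
      intro y hy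
      obtain ⟨z, hz, rfl⟩ := Finset.mem_image.1 hy
      exact h z hz)
    (by rw [Finset.card_image_of_injective _ g.injective])
  rw [← himg] at hx
  obtain ⟨z, hz, rfl⟩ := Finset.mem_image.1 hx
  rw [perm_inv_apply]
  exact hz

/-- pointwise stabilizer of a finset. -/
def ptStab (A : Finset α) : Subgroup (Perm α) where
  carrier := {g | ∀ x ∈ A, g x = x}
  mul_mem' := by
    intro a b ha hb x hx
    rw [Perm.mul_apply, hb x hx, ha x hx]
  one_mem' := by intro x _; rfl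
  inv_mem' := by
    intro a ha x hx
    rw [Perm.inv_eq_iff_eq]
    exact (ha x hx).symm

/-- setwise stabilizer of a finset. -/
def setStab (A : Finset α) : Subgroup (Perm α) where
  carrier := {g | ∀ x ∈ A, g x ∈ A}
  mul_mem' := by
    intro a b ha hb x hx
    rw [Perm.mul_apply]
    exact ha _ (hb x hx)
  one_mem' := by intro x hx; exact hx
  inv_mem' := by
    intro a ha
    exact inv_mem_of_maps a A ha

/-- generous transitivity gives homogeneity on `k`-sets (in the weak form needed). -/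
theorem homog (G : Subgroup (Perm α)) {k : ℕ}
    (hgen : ∀ s : Finset α, s.card = k + 1 → ∀ σ : Perm ↥s, ∃ g ∈ G, ∀ x : ↥s, g (x : α) = σ x) :
    ∀ (n : ℕ) (Γ Γ' : Finset α), Γ.card = k → Γ'.card = k → (Γ' \ Γ).card ≤ n →
      ∃ g ∈ G, ∀ x ∈ Γ, g x ∈ Γ' := by
  have base : ∀ (Γ Γ' : Finset α), Γ.card = k → Γ'.card = k → Γ' ⊆ Γ →
      ∃ g ∈ G, ∀ x ∈ Γ, g x ∈ Γ' := by
    intro Γ Γ' hΓ hΓ' hsub
    have heq : Γ' = Γ := Finset.eq_of_subset_of_card_le hsub (by rw [hΓ, hΓ'])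
    exact ⟨1, G.one_mem, fun x hx => by rw [heq]; exact hx⟩
  intro n
  induction n with
  | zero =>
    intro Γ Γ' hΓ hΓ' h0
    refine base Γ Γ' hΓ hΓ' ?_
    have h0' : (Γ' \ Γ).card = 0 := Nat.le_zero.1 h0
    rw [Finset.card_eq_zero] at h0'
    exact Finset.sdiff_eq_empty_iff_subset.1 h0'
  | succ n ih =>
    intro Γ Γ' hΓ hΓ' hn
    by_cases hne : (Γ' \ Γ).Nonempty
    · obtain ⟨e, he⟩ := hne
      rw [Finset.mem_sdiff] at he
      have hc : ∃ c ∈ Γ, c ∉ Γ' := by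
        by_contra hcon
        push_neg at hcon
        have heq : Γ = Γ' := Finset.eq_of_subset_of_card_le hcon (by rw [hΓ, hΓ'])
        exact he.2 (heq ▸ he.1)
      obtain ⟨c, hcΓ, hcΓ'⟩ := hc
      have hs : (insert e Γ).card = k + 1 := by
        rw [Finset.card_insert_of_notMem he.2, hΓ]
      obtain ⟨g₁, hg₁G, hg₁⟩ := hgen (insert e Γ) hs
        (Equiv.swap ⟨c, Finset.mem_insert_of_mem hcΓ⟩ ⟨e, Finset.mem_insert_self e Γ⟩)
      have h1 : ∀ x ∈ Γ, g₁ x ∈ insert e (Γ.erase c) := by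
        intro x hx
        by_cases hxc : x = c
        · have hx' : g₁ c = e := by
            have := hg₁ ⟨c, Finset.mem_insert_of_mem hcΓ⟩
            rw [Equiv.swap_apply_left] at this
            exact this
          rw [hxc, hx']
          exact Finset.mem_insert_self _ _
        · have hxe : x ≠ e := fun h => he.2 (h ▸ hx)
          have hx' : g₁ x = x := by
            have := hg₁ ⟨x, Finset.mem_insert_of_mem hx⟩
            rw [Equiv.swap_apply_of_ne_of_ne (fun h => hxc (congrArg Subtype.val h))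
              (fun h => hxe (congrArg Subtype.val h))] at this
            exact this
          rw [hx']
          exact Finset.mem_insert_of_mem (Finset.mem_erase.2 ⟨hxc, hx⟩)
      have hΓ₂ : (insert e (Γ.erase c)).card = k := by
        rw [Finset.card_insert_of_notMem (fun h => he.2 (Finset.mem_of_mem_erase h)),
          Finset.card_erase_of_mem hcΓ, hΓ]
        have : 0 < k := by rw [← hΓ]; exact Finset.card_pos.2 ⟨c, hcΓ⟩
        omega
      have hsub : Γ' \ insert e (Γ.erase c) ⊆ (Γ' \ Γ).erase e := by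
        intro x hx
        rw [Finset.mem_sdiff, Finset.mem_insert, Finset.mem_erase] at hx
        push_neg at hx
        rw [Finset.mem_erase, Finset.mem_sdiff]
        refine ⟨hx.2.1, hx.1, fun hxΓ => ?_⟩
        have hxc : x = c := by
          by_contra hxc
          exact hx.2.2 hxc hxΓ
        exact hcΓ' (hxc ▸ hx.1)
      have hcard : (Γ' \ insert e (Γ.erase c)).card ≤ n := by
        have h2 := Finset.card_le_card hsub
        rw [Finset.card_erase_of_mem (Finset.mem_sdiff.2 he)] at h2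
        omega
      obtain ⟨g₂, hg₂G, hg₂⟩ := ih (insert e (Γ.erase c)) Γ' hΓ₂ hΓ' hcard
      refine ⟨g₂ * g₁, G.mul_mem hg₂G hg₁G, fun x hx => ?_⟩
      rw [Perm.mul_apply]
      exact hg₂ _ (h1 x hx)
    · refine base Γ Γ' hΓ hΓ' ?_
      rw [Finset.not_nonempty_iff_eq_empty] at hne
      exact Finset.sdiff_eq_empty_iff_subset.1 hne

/-- an element of `G` preserving `Γ` maps each point outside `Γ` into its orbit under the
pointwise stabilizer of `Γ`. -/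
theorem stepA (G : Subgroup (Perm α)) {k : ℕ}
    (hgen : ∀ s : Finset α, s.card = k + 1 → ∀ σ : Perm ↥s, ∃ g ∈ G, ∀ x : ↥s, g (x : α) = σ x)
    (Γ : Finset α) (hΓ : Γ.card = k) (g : Perm α) (hgG : g ∈ G) (hg : ∀ x ∈ Γ, g x ∈ Γ)
    (e : α) (he : e ∉ Γ) : ∃ t ∈ G, (∀ x ∈ Γ, t x = x) ∧ t e = g e := by
  have hs : (insert e Γ).card = k + 1 := by
    rw [Finset.card_insert_of_notMem he, hΓ]
  have hginv := inv_mem_of_maps g Γ hg
  obtain ⟨c, hcdef⟩ : ∃ c : Perm α, c = Perm.ofSubtype (g.subtypePerm (p := fun x => x ∈ Γ)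
      (fun x => ⟨fun h => by
        have := hginv _ h
        rwa [perm_inv_apply] at this, hg x⟩)) := ⟨_, rfl⟩
  have hc1 : ∀ x ∈ Γ, c x = g x := by
    intro x hx
    rw [hcdef]
    exact Perm.ofSubtype_apply_of_mem _ hx
  have hc2 : ∀ x, x ∉ Γ → c x = x := fun x hx => by
    rw [hcdef]
    exact Perm.ofSubtype_apply_of_not_mem _ hx
  have hcs : ∀ x, c x ∈ insert e Γ ↔ x ∈ insert e Γ := by
    intro x
    by_cases hx : x ∈ Γ
    · rw [hc1 x hx]
      exact ⟨fun _ => Finset.mem_insert_of_mem hx, fun _ => Finset.mem_insert_of_mem (hg x hx)⟩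
    · rw [hc2 x hx]
  obtain ⟨h, hhG, hh⟩ := hgen (insert e Γ) hs (c.subtypePerm hcs)
  have hh1 : ∀ x ∈ Γ, h x = g x := by
    intro x hx
    have h5 : h x = c x := hh ⟨x, Finset.mem_insert_of_mem hx⟩
    exact h5.trans (hc1 x hx)
  have hh2 : h e = e := by
    have h5 : h e = c e := hh ⟨e, Finset.mem_insert_self e Γ⟩
    exact h5.trans (hc2 e he)
  refine ⟨g * h⁻¹, G.mul_mem hgG (G.inv_mem hhG), fun x hx => ?_, ?_⟩
  · rw [Perm.mul_apply]
    have h3 : h (g⁻¹ x) = x := by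
      rw [hh1 _ (hginv x hx), perm_apply_inv]
    have h4 : h⁻¹ x = g⁻¹ x := by
      rw [Perm.inv_eq_iff_eq]; exact h3.symm
    rw [h4, perm_apply_inv]
  · rw [Perm.mul_apply]
    have h4 : h⁻¹ e = e := by
      rw [Perm.inv_eq_iff_eq]; exact hh2.symm
    rw [h4]

/-- Neumann-type theorem: in a generously `k`-transitive group, the pointwise stabilizer of a
`k`-set has fewer than `p` orbits of length prime to `p` on the remaining points (`p ≤ k`). -/
theorem gen_orbits (G : Subgroup (Perm α)) {k : ℕ}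
    (hgen : ∀ s : Finset α, s.card = k + 1 → ∀ σ : Perm ↥s, ∃ g ∈ G, ∀ x : ↥s, g (x : α) = σ x)
    {p : ℕ} (hp : p.Prime) (hpk : p ≤ k) (Γ : Finset α) (hΓ : Γ.card = k) (f : Fin p → α)
    (hf : ∀ i, f i ∉ Γ)
    (hdist : ∀ i j, i ≠ j → ¬ ∃ t ∈ G, (∀ x ∈ Γ, t x = x) ∧ t (f i) = f j)
    (hcard : ∀ i, ¬ p ∣ Nat.card {b : α // ∃ t ∈ G, (∀ x ∈ Γ, t x = x) ∧ t (f i) = b}) :
    False := by
  haveI : Fact p.Prime := ⟨hp⟩
  obtain ⟨D, hDΓ, hD⟩ := Finset.exists_subset_card_eq (s := Γ) (n := p) (by rw [hΓ]; exact hpk)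
  have hdvd : p ∣ Fintype.card (Perm {x // x ∈ D}) := by
    rw [Fintype.card_perm, Fintype.card_coe, hD]
    exact Nat.dvd_factorial hp.pos le_rfl
  obtain ⟨c₁, hc₁⟩ := exists_prime_orderOf_dvd_card p hdvd
  obtain ⟨c₀, hc₀⟩ : ∃ c₀ : Perm α, c₀ = Perm.ofSubtype c₁ := ⟨_, rfl⟩
  have hc₀D : ∀ x ∈ D, c₀ x ∈ D := by
    intro x hx
    rw [hc₀, Perm.ofSubtype_apply_of_mem _ hx]
    exact (c₁ ⟨x, hx⟩).2
  have hc₀n : ∀ x, x ∉ D → c₀ x = x := fun x hx => by
    rw [hc₀]; exact Perm.ofSubtype_apply_of_not_mem _ hx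
  have hc₀Γ : ∀ x ∈ Γ, c₀ x ∈ Γ := by
    intro x hx
    by_cases hxD : x ∈ D
    · exact hDΓ (hc₀D x hxD)
    · rw [hc₀n x hxD]; exact hx
  have hc₁p : c₁ ^ p = 1 := by
    rw [← hc₁]; exact pow_orderOf_eq_one c₁
  have hc₀p : c₀ ^ p = 1 := by
    rw [hc₀, ← map_pow, hc₁p, map_one]
  have hc₀ne : ∃ x ∈ D, c₀ x ≠ x := by
    by_contra hcon
    push_neg at hcon
    have h1 : c₁ = 1 := Equiv.ext fun y => Subtype.ext (by
      have h := hcon y.1 y.2
      rw [hc₀, Perm.ofSubtype_apply_coe] at h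
      exact h)
    rw [h1, orderOf_one] at hc₁
    exact hp.one_lt.ne hc₁
  have hs₀ : (insert (f ⟨0, hp.pos⟩) Γ).card = k + 1 := by
    rw [Finset.card_insert_of_notMem (hf _), hΓ]
  have hc₀s : ∀ x, c₀ x ∈ insert (f ⟨0, hp.pos⟩) Γ ↔ x ∈ insert (f ⟨0, hp.pos⟩) Γ := by
    intro x
    by_cases hxD : x ∈ D
    · exact ⟨fun _ => Finset.mem_insert_of_mem (hDΓ hxD),
        fun _ => Finset.mem_insert_of_mem (hDΓ (hc₀D x hxD))⟩
    · rw [hc₀n x hxD]
  obtain ⟨g₀, hg₀G, hg₀⟩ := hgen _ hs₀ (c₀.subtypePerm hc₀s)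
  have hg₀c : ∀ x ∈ Γ, g₀ x = c₀ x := fun x hx => hg₀ ⟨x, Finset.mem_insert_of_mem hx⟩
  have hg₀pow : ∀ (j : ℕ), ∀ x ∈ Γ, (g₀ ^ j) x = (c₀ ^ j) x ∧ (c₀ ^ j) x ∈ Γ := by
    intro j
    induction j with
    | zero =>
      intro x hx
      rw [pow_zero, pow_zero]
      exact ⟨rfl, hx⟩
    | succ j ih =>
      intro x hx
      obtain ⟨h1, h2⟩ := ih x hx
      rw [pow_succ', pow_succ', Perm.mul_apply, Perm.mul_apply, h1, hg₀c _ h2]
      exact ⟨rfl, hc₀Γ _ h2⟩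
  obtain ⟨T, hT⟩ : ∃ T : Subgroup (Perm α), T = G ⊓ ptStab Γ := ⟨_, rfl⟩
  obtain ⟨S₁, hS₁⟩ : ∃ S₁ : Subgroup (Perm α), S₁ = G ⊓ setStab Γ ⊓ ptStab (Γ \ D) :=
    ⟨_, rfl⟩
  have hmemT : ∀ g, g ∈ T ↔ g ∈ G ∧ ∀ x ∈ Γ, g x = x := by
    intro g; rw [hT, Subgroup.mem_inf]; rfl
  have hmemS : ∀ g, g ∈ S₁ ↔ g ∈ G ∧ (∀ x ∈ Γ, g x ∈ Γ) ∧ ∀ x ∈ Γ \ D, g x = x := by
    intro g; rw [hS₁, Subgroup.mem_inf, Subgroup.mem_inf, and_assoc]; rfl
  have hTS : T ≤ S₁ := by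
    intro g hg
    rw [hmemT] at hg
    rw [hmemS]
    exact ⟨hg.1, fun x hx => by rw [hg.2 x hx]; exact hx,
      fun x hx => hg.2 x (Finset.mem_sdiff.1 hx).1⟩
  haveI hnorm : (T.subgroupOf S₁).Normal := by
    refine ⟨fun n hn g => ?_⟩
    rw [Subgroup.mem_subgroupOf] at hn ⊢
    rw [hmemT] at hn ⊢
    have hg := (hmemS _).1 g.2
    refine ⟨G.mul_mem (G.mul_mem hg.1 hn.1) (G.inv_mem hg.1), fun x hx => ?_⟩
    have h1 : (g : Perm α)⁻¹ x ∈ Γ := inv_mem_of_maps _ Γ hg.2.1 x hx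
    show ((g : Perm α) * (n : Perm α) * (g : Perm α)⁻¹) x = x
    rw [Perm.mul_apply, Perm.mul_apply, hn.2 _ h1, perm_apply_inv]
  have hg₀S : g₀ ∈ S₁ := by
    rw [hmemS]
    refine ⟨hg₀G, fun x hx => by rw [hg₀c x hx]; exact hc₀Γ x hx, fun x hx => ?_⟩
    rw [Finset.mem_sdiff] at hx
    rw [hg₀c x hx.1, hc₀n x hx.2]
  have hg₀T : g₀ ∉ T := by
    intro h
    rw [hmemT] at h
    obtain ⟨x, hxD, hx⟩ := hc₀ne
    exact hx (by rw [← hg₀c x (hDΓ hxD)]; exact h.2 x (hDΓ hxD))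
  have hg₀pT : g₀ ^ p ∈ T := by
    rw [hmemT]
    refine ⟨G.pow_mem hg₀G p, fun x hx => ?_⟩
    rw [(hg₀pow p x hx).1, hc₀p]; rfl
  have hidx : p ∣ (T.subgroupOf S₁).index := by
    rw [Subgroup.index_eq_card]
    have hq : orderOf (QuotientGroup.mk (s := T.subgroupOf S₁) (⟨g₀, hg₀S⟩ : ↥S₁)) = p := by
      apply orderOf_eq_prime
      · rw [← QuotientGroup.mk_pow, QuotientGroup.eq_one_iff, Subgroup.mem_subgroupOf]
        exact hg₀pT
      · rw [Ne, QuotientGroup.eq_one_iff, Subgroup.mem_subgroupOf]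
        exact hg₀T
    rw [← hq]
    exact orderOf_dvd_natCard _
  obtain ⟨R⟩ : Nonempty (Sylow p ↥S₁) := inferInstance
  have hRcard : Nat.card (R : Subgroup ↥S₁) = p ^ (Nat.card ↥S₁).factorization p :=
    R.card_eq_multiplicity
  have hstab : ∀ (r : Perm α), r ∈ S₁ → ∀ i b,
      (∃ t ∈ G, (∀ x ∈ Γ, t x = x) ∧ t (f i) = b) →
      ∃ t ∈ G, (∀ x ∈ Γ, t x = x) ∧ t (f i) = r b := by
    intro r hr i b hb
    obtain ⟨t, htG, ht, rfl⟩ := hb
    have hr' := (hmemS r).1 hr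
    obtain ⟨t', ht'G, ht', ht'e⟩ := stepA G hgen Γ hΓ r hr'.1 hr'.2.1 (f i) (hf i)
    refine ⟨r * t * r⁻¹ * t',
      G.mul_mem (G.mul_mem (G.mul_mem hr'.1 htG) (G.inv_mem hr'.1)) ht'G, fun x hx => ?_, ?_⟩
    · simp only [Perm.mul_apply]
      rw [ht' x hx, ht _ (inv_mem_of_maps r Γ hr'.2.1 x hx), perm_apply_inv]
    · simp only [Perm.mul_apply]
      rw [ht'e, perm_inv_apply]
  have hfix : ∀ i, ∃ b, (∃ t ∈ G, (∀ x ∈ Γ, t x = x) ∧ t (f i) = b) ∧
      ∀ r : ↥S₁, r ∈ (R : Subgroup ↥S₁) → (r : Perm α) b = b := by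
    intro i
    let O : SubMulAction ↥(R : Subgroup ↥S₁) α :=
      { carrier := {b | ∃ t ∈ G, (∀ x ∈ Γ, t x = x) ∧ t (f i) = b}
        smul_mem' := by
          intro r b hb
          exact hstab _ (r : ↥S₁).2 i b hb }
    have hO : ¬ p ∣ Nat.card ↥O := hcard i
    obtain ⟨⟨b, hb⟩, hfixb⟩ := R.isPGroup'.nonempty_fixed_point_of_prime_not_dvd_card ↥O hO
    refine ⟨b, hb, fun r hr => ?_⟩
    have h1 := hfixb ⟨r, hr⟩
    exact congrArg Subtype.val h1
  choose e' he'O he'fix using hfix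
  have he'Γ : ∀ i, e' i ∉ Γ := by
    intro i hi
    obtain ⟨t, htG, ht, hte⟩ := he'O i
    have h1 : t (e' i) = e' i := ht _ hi
    have h2 : f i = e' i := t.injective (hte.trans h1.symm)
    exact hf i (h2 ▸ hi)
  have he'inj : Function.Injective e' := by
    intro i j hij
    by_contra hne
    obtain ⟨t, htG, ht, hte⟩ := he'O i
    obtain ⟨u, huG, hu, hue⟩ := he'O j
    apply hdist i j hne
    refine ⟨u⁻¹ * t, G.mul_mem (G.inv_mem huG) htG, fun x hx => ?_, ?_⟩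
    · rw [Perm.mul_apply, ht x hx, Perm.inv_eq_iff_eq]; exact (hu x hx).symm
    · rw [Perm.mul_apply, hte, hij, Perm.inv_eq_iff_eq]; exact hue.symm
  obtain ⟨Γ', hΓ'def⟩ : ∃ Γ' : Finset α, Γ' = (Γ \ D) ∪ Finset.univ.image e' := ⟨_, rfl⟩
  have hdisj : Disjoint (Γ \ D) (Finset.univ.image e') := by
    rw [Finset.disjoint_left]
    intro x hx hx'
    obtain ⟨i, _, rfl⟩ := Finset.mem_image.1 hx'
    exact he'Γ i (Finset.mem_sdiff.1 hx).1
  have hΓ'card : Γ'.card = k := by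
    rw [hΓ'def, Finset.card_union_of_disjoint hdisj, Finset.card_sdiff_of_subset hDΓ,
      Finset.card_image_of_injective _ he'inj, Finset.card_univ, Fintype.card_fin, hΓ, hD]
    omega
  obtain ⟨g, hgG, hg⟩ := homog G hgen (Γ' \ Γ).card Γ Γ' hΓ hΓ'card le_rfl
  have hRfix : ∀ r : ↥S₁, r ∈ (R : Subgroup ↥S₁) → ∀ x ∈ Γ', (r : Perm α) x = x := by
    intro r hr x hx
    rw [hΓ'def, Finset.mem_union] at hx
    rcases hx with hx | hx
    · exact ((hmemS _).1 r.2).2.2 x hx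
    · obtain ⟨i, _, rfl⟩ := Finset.mem_image.1 hx
      exact he'fix i r hr
  have hR₂ : ((R : Subgroup ↥S₁).map S₁.subtype).map (MulAut.conj g⁻¹).toMonoidHom ≤ T := by
    rintro _ ⟨_, ⟨r, hr, rfl⟩, rfl⟩
    rw [hmemT]
    have hrG := ((hmemS _).1 r.2).1
    refine ⟨?_, fun x hx => ?_⟩
    · show g⁻¹ * (r : Perm α) * g⁻¹⁻¹ ∈ G
      exact G.mul_mem (G.mul_mem (G.inv_mem hgG) hrG) (G.inv_mem (G.inv_mem hgG))
    · show (g⁻¹ * (r : Perm α) * g⁻¹⁻¹) x = x
      rw [inv_inv, Perm.mul_apply, Perm.mul_apply, hRfix r hr _ (hg x hx), perm_inv_apply]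
  have hdvd2 : Nat.card (R : Subgroup ↥S₁) ∣ Nat.card T := by
    have h1 := Subgroup.card_dvd_of_le hR₂
    rw [Subgroup.card_map_of_injective (MulAut.conj g⁻¹).injective,
      Subgroup.card_map_of_injective S₁.subtype_injective] at h1
    exact h1
  have hcardS : Nat.card (T.subgroupOf S₁) * (T.subgroupOf S₁).index = Nat.card ↥S₁ :=
    Subgroup.card_mul_index _
  have hcardT : Nat.card (T.subgroupOf S₁) = Nat.card T :=
    Nat.card_congr (Subgroup.subgroupOfEquivOfLe hTS).toEquiv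
  have hfin : p ^ ((Nat.card ↥S₁).factorization p + 1) ∣ Nat.card ↥S₁ := by
    have h1 : p ^ (Nat.card ↥S₁).factorization p ∣ Nat.card T := by
      rw [← hRcard]; exact hdvd2
    have h2 := Nat.mul_dvd_mul h1 hidx
    rw [← hcardT, hcardS, ← pow_succ] at h2
    exact h2
  exact Nat.pow_succ_factorization_not_dvd Nat.card_pos.ne' hp hfin

end Cfsg.Agent.Lib.helper3.GenTrans
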