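import Mathlib
import Cfsg.Agent.Lib.helper3.Supersolvable
import Cfsg.Agent.Lib.helper3.SupersolvablePrime
import Cfsg.Agent.Lib.helper3.Subnormal
import Cfsg.Agent.Lib.helper3.Conj
import Cfsg.Agent.Lib.helper3.Normalizer
import Cfsg.Agent.Lib.helper3.Primitive

set_option autoImplicit false
set_option linter.style.haveILetI false

namespace Cfsg.Agent.Lib.helper3

universe u

/-- A chain of `M`-invariant subgroups starting from `⊥` with steps of index at most `p`. -/
inductive PChain {G : Type u} [Group G] (M : Subgroup G) (p : ℕ) : Subgroup G → Prop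
  | bot : PChain M p ⊥
  | step (X Y : Subgroup G) : PChain M p X → X ≤ Y → M ≤ Subgroup.normalizer (Y : Set G) →
      X.relIndex Y ≤ p → PChain M p Y

theorem relIndex_inf_le_relIndex {G : Type u} [Group G] [Finite G] (N : Subgroup G)
    {X Y : Subgroup G} (hXY : X ≤ Y) : (N ⊓ X).relIndex (N ⊓ Y) ≤ X.relIndex Y := by
  have h1 : N ⊓ X = X ⊓ (N ⊓ Y) := by
    rw [inf_comm X, inf_assoc, inf_eq_right.mpr hXY]
  rw [h1, Subgroup.inf_relIndex_right]
  apply Subgroup.relIndex_le_of_le_right inf_le_right
  intro h0
  have := card_mul_relIndex_of_le hXY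
  rw [h0, mul_zero] at this
  exact (Nat.card_pos (α := Y)).ne this

theorem relIndex_map_le {G G' : Type u} [Group G] [Group G'] [Finite G] (f : G →* G')
    {X Y : Subgroup G} (hXY : X ≤ Y) : (X.map f).relIndex (Y.map f) ≤ X.relIndex Y := by
  have hsurj : Function.Surjective (f.subgroupMap Y) := f.subgroupMap_surjective Y
  have hmap : (X.subgroupOf Y).map (f.subgroupMap Y) = (X.map f).subgroupOf (Y.map f) := by
    ext ⟨z, hz⟩
    constructor
    · rintro ⟨y, hy, hyz⟩
      have hy' : (y : G) ∈ X := Subgroup.mem_subgroupOf.mp hy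
      have : f (y : G) = z := congrArg Subtype.val hyz
      exact Subgroup.mem_subgroupOf.mpr ⟨y, hy', this⟩
    · intro hzm
      obtain ⟨x, hx, hxz⟩ := Subgroup.mem_subgroupOf.mp hzm
      refine ⟨⟨x, hXY hx⟩, Subgroup.mem_subgroupOf.mpr hx, ?_⟩
      apply Subtype.ext; exact hxz
  have hdvd := Subgroup.index_map_dvd (X.subgroupOf Y) hsurj
  rw [hmap] at hdvd
  have hne : X.relIndex Y ≠ 0 := by
    intro h0
    have := card_mul_relIndex_of_le hXY
    rw [h0, mul_zero] at this
    exact (Nat.card_pos (α := Y)).ne this
  exact Nat.le_of_dvd (Nat.pos_of_ne_zero hne) hdvd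

theorem PChain.map {G : Type u} [Group G] [Finite G] {M : Subgroup G} {p : ℕ} (N : Subgroup G)
    [N.Normal] {Y : Subgroup G} (h : PChain M p Y) :
    PChain (M.map (QuotientGroup.mk' N)) p (Y.map (QuotientGroup.mk' N)) := by
  induction h with
  | bot => rw [Subgroup.map_bot]; exact PChain.bot
  | step X Y _ hXY hMY hrel ih =>
    refine PChain.step _ _ ih (Subgroup.map_mono hXY) ?_ ((relIndex_map_le _ hXY).trans hrel)
    exact (Subgroup.map_mono hMY).trans (Subgroup.le_normalizer_map _)

/-- If `G = P M` with `P` a normal `p`-subgroup having a chain of `M`-invariant subgroups with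
steps of index at most `p`, then `P` is reached by a normal series with cyclic factors. -/
theorem reach_of_pChain : ∀ (n : ℕ) (G : Type u) [Group G] [Finite G] (p : ℕ) [Fact p.Prime]
    (P M : Subgroup G), Nat.card P = n → P.Normal → IsPGroup p P → P ⊔ M = ⊤ →
    PChain M p P → Reach P := by
  intro n
  induction n using Nat.strong_induction_on with
  | _ n ih =>
    intro G _ _ p _ P M hn hPn hPp hPM hchain
    have hp : p.Prime := Fact.out
    by_cases hPb : P = ⊥
    · rw [hPb]; exact Reach.bot
    haveI := hPn
    obtain ⟨N, hN, hNP⟩ := exists_minNormal_le P hPn hPb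
    haveI hNn : N.Normal := hN.1
    have hNp : IsPGroup p N := hPp.to_le hNP
    -- P centralizes N
    have hPN : ∀ x ∈ P, ∀ a ∈ N, x * a = a * x := by
      obtain ⟨a₀, ha₀, ha₀1, hac⟩ := exists_ne_one_comm_of_pgroup P N hPp hNp hN.2.1
      have hCn : (N ⊓ Subgroup.centralizer (P : Set G)).Normal := inferInstance
      have hC : N ⊓ Subgroup.centralizer (P : Set G) = N := by
        refine (hN.2.2 _ hCn inf_le_left).resolve_left ?_
        intro hbot
        have : a₀ ∈ N ⊓ Subgroup.centralizer (P : Set G) := by
          refine ⟨ha₀, ?_⟩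
          refine Subgroup.mem_centralizer_iff.mpr ?_
          intro l hl
          exact hac l hl
        rw [hbot, Subgroup.mem_bot] at this
        exact ha₀1 this
      intro x hx a ha
      have ha' : a ∈ N ⊓ Subgroup.centralizer (P : Set G) := by rw [hC]; exact ha
      exact Subgroup.mem_centralizer_iff.mp ha'.2 x hx
    -- N ⊓ Z is normal for M-invariant Z
    have hinv : ∀ Z : Subgroup G, M ≤ Subgroup.normalizer (Z : Set G) →
        N ⊓ Z = ⊥ ∨ N ⊓ Z = N := by
      intro Z hZ
      apply hN.2.2 _ _ inf_le_left
      constructor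
      intro a ha g
      obtain ⟨x, hx, m, hm, rfl⟩ := exists_mul_of_sup_eq_top P M hPM g
      have h1 : m * a * m⁻¹ ∈ N ⊓ Z :=
        ⟨hNn.conj_mem a ha.1 m, (Subgroup.mem_normalizer_iff.mp (hZ hm) a).mp ha.2⟩
      have h2 : x * m * a * (x * m)⁻¹ = x * (m * a * m⁻¹) * x⁻¹ := by group
      rw [h2, hPN x hx _ h1.1]
      simpa using h1
    -- card N ≤ p
    have hcard : ∀ Y : Subgroup G, PChain M p Y → Nat.card (N ⊓ Y : Subgroup G) ≤ p := by
      intro Y hY
      induction hY with
      | bot =>
        rw [inf_bot_eq, Subgroup.card_bot]; exact hp.one_lt.le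
      | step X Y hX hXY hMY hrel ihX =>
        have hMX : M ≤ Subgroup.normalizer (X : Set G) := by
          cases hX with
          | bot =>
            intro m _
            rw [Subgroup.mem_normalizer_iff]
            intro a
            simp
          | step _ _ _ _ h _ => exact h
        rcases hinv X hMX with h0 | h0
        · have h3 := relIndex_inf_le_relIndex N hXY
          rw [h0, Subgroup.relIndex_bot_left] at h3
          exact h3.trans hrel
        · have h3 : N ⊓ Y = N := by
            apply le_antisymm inf_le_left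
            have hNX : N ≤ X := by
              have : N ⊓ X ≤ X := inf_le_right
              rwa [h0] at this
            exact le_inf le_rfl (hNX.trans hXY)
          rw [h3]
          rw [h0] at ihX
          exact ihX
    have hNcard : Nat.card N = p := by
      have h1 := hcard P hchain
      rw [inf_eq_left.mpr hNP] at h1
      obtain ⟨k, hk⟩ := IsPGroup.iff_card.mp hNp
      have hk0 : k ≠ 0 := by
        rintro rfl
        rw [pow_zero] at hk
        exact hN.2.1 (Subgroup.eq_bot_of_card_eq N hk)
      rw [hk] at h1 ⊢
      have hk1 : k = 1 := by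
        by_contra hne
        have hk2 : 2 ≤ k := by omega
        have : p ^ 2 ≤ p ^ k := Nat.pow_le_pow_right hp.pos hk2
        have h2 : p < p ^ 2 := by
          have := hp.one_lt
          nlinarith
        omega
      rw [hk1, pow_one]
    haveI hNcyc : IsCyclic N := isCyclic_of_prime_card hNcard
    -- quotient
    set π := QuotientGroup.mk' N with hπ
    have hsurj : Function.Surjective π := QuotientGroup.mk'_surjective N
    have hker : π.ker = N := QuotientGroup.ker_mk' N
    have hcomap : (P.map π).comap π = P := by
      apply Subgroup.comap_map_eq_self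
      rw [hker]; exact hNP
    have hcardq : Nat.card (P.map π) * Nat.card N = Nat.card P := by
      rw [← card_comap_mk' N (P.map π), hcomap]
    have hlt : Nat.card (P.map π) < n := by
      rw [← hn, ← hcardq, hNcard]
      have := Nat.card_pos (α := P.map π)
      have := hp.one_lt
      nlinarith
    have hreach : Reach (P.map π) := by
      apply ih (Nat.card (P.map π)) hlt (G ⧸ N) p (P.map π) (M.map π) rfl
        (hPn.map π hsurj) (hPp.map π)
      · rw [← Subgroup.map_sup, hPM, Subgroup.map_top_of_surjective π hsurj]
      · exact hchain.map N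
    have hkerR : Reach π.ker := by
      rw [hker]; exact reach_of_isCyclic_normal N
    have := Reach.comap_of_ker π hkerR hreach
    rwa [hcomap] at this

end Cfsg.Agent.Lib.helper3
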