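import Mathlib
import Cfsg.Agent.Lib.helper3.PChain
import Cfsg.Agent.Lib.helper3.Basic
import Cfsg.Agent.S0529
import Cfsg.Agent.S0532

set_option autoImplicit false
set_option linter.style.haveILetI false

namespace Cfsg.Agent.Lib.helper3

universe u

theorem le_of_normal_sylow {G : Type u} [Group G] [Finite G] {p : ℕ} [Fact p.Prime]
    (P : Sylow p G) (hP : (P : Subgroup G).Normal) {Q : Subgroup G} (hQ : IsPGroup p Q) :
    Q ≤ P := by
  obtain ⟨Q', hQ'⟩ := hQ.exists_le_sylow
  haveI := Sylow.unique_of_normal P hP
  rw [Subsingleton.elim P Q']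
  exact hQ'

theorem hered_clt_quot {G : Type u} [Group G] [Finite G] (p : ℕ) [Fact p.Prime] (P : Sylow p G)
    [hPn : (P : Subgroup G).Normal]
    (h : ∀ H : Subgroup G, Cfsg.HasSubgroupOfEveryOrder H) :
    ∀ L : Subgroup (G ⧸ (P : Subgroup G)), Cfsg.HasSubgroupOfEveryOrder L := by
  intro L d hd
  set π := QuotientGroup.mk' (P : Subgroup G) with hπ
  have hker : π.ker = (P : Subgroup G) := QuotientGroup.ker_mk' _
  have hL' : Nat.card (L.comap π) = Nat.card L * Nat.card (P : Subgroup G) :=
    card_comap_mk' _ L
  obtain ⟨X', hX'⟩ := h (L.comap π) (d * Nat.card (P : Subgroup G))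
    (by rw [hL']; exact Nat.mul_dvd_mul_right hd _)
  set X := X'.map (L.comap π).subtype with hX
  have hXcard : Nat.card X = d * Nat.card (P : Subgroup G) := by
    rw [hX, Subgroup.card_map_of_injective (Subgroup.subtype_injective _), hX']
  have hXL : X ≤ L.comap π := by
    rw [hX]; exact Subgroup.map_subtype_le _
  have hPX : (P : Subgroup G) ≤ X := by
    have hdvd : p ^ (Nat.card G).factorization p ∣ Nat.card X := by
      rw [hXcard, ← Sylow.card_eq_multiplicity]; exact dvd_mul_left _ _
    obtain ⟨K, hK⟩ := Sylow.exists_subgroup_card_pow_prime p hdvd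
    have hKp : IsPGroup p (K.map X.subtype) := by
      apply IsPGroup.of_card (n := (Nat.card G).factorization p)
      rw [Subgroup.card_map_of_injective (Subgroup.subtype_injective _), hK]
    have hle := le_of_normal_sylow P hPn hKp
    have heq : K.map X.subtype = P := by
      apply Subgroup.eq_of_le_of_card_ge hle
      rw [Subgroup.card_map_of_injective (Subgroup.subtype_injective _), hK,
        Sylow.card_eq_multiplicity]
    rw [← heq]
    exact Subgroup.map_subtype_le _
  have hcomap : (X.map π).comap π = X := by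
    apply Subgroup.comap_map_eq_self
    rw [hker]; exact hPX
  have hcard2 : Nat.card (X.map π) * Nat.card (P : Subgroup G) = Nat.card X := by
    rw [← card_comap_mk' _ (X.map π), hcomap]
  have hXbar : Nat.card (X.map π) = d := by
    rw [hXcard] at hcard2
    exact Nat.eq_of_mul_eq_mul_right Nat.card_pos hcard2
  have hle : X.map π ≤ L := by
    rw [Subgroup.map_le_iff_le_comap]; exact hXL
  refine ⟨(X.map π).subgroupOf L, ?_⟩
  rw [Nat.card_congr (Subgroup.subgroupOfEquivOfLe hle).toEquiv, hXbar]

theorem hered_clt_sub {G : Type u} [Group G] [Finite G] (M : Subgroup G)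
    (h : ∀ H : Subgroup G, Cfsg.HasSubgroupOfEveryOrder H) :
    ∀ H : Subgroup M, Cfsg.HasSubgroupOfEveryOrder H := by
  intro H
  exact Cfsg.Agent.S0532.hasSub_of_equiv
    (H.equivMapOfInjective M.subtype M.subtype_injective) (h (H.map M.subtype))

theorem relIndex_inf_dvd_relIndex {G : Type u} [Group G] [Finite G] (N : Subgroup G)
    {X Y : Subgroup G} (hXY : X ≤ Y) (hnorm : Y ≤ Subgroup.normalizer (X : Set G)) :
    (N ⊓ X).relIndex (N ⊓ Y) ∣ X.relIndex Y := by
  have h1 : N ⊓ X = X ⊓ (N ⊓ Y) := by
    rw [inf_comm X, inf_assoc, inf_eq_right.mpr hXY]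
  rw [h1, Subgroup.inf_relIndex_right]
  haveI : (X.subgroupOf Y).Normal := (Subgroup.normal_subgroupOf_iff_le_normalizer hXY).mpr hnorm
  have := Subgroup.relIndex_dvd_index_of_normal (X.subgroupOf Y) ((N ⊓ Y).subgroupOf Y)
  rwa [Subgroup.relIndex_subgroupOf inf_le_right] at this

theorem hered_clt_aux : ∀ (n : ℕ) (G : Type u) [Group G] [Finite G], Nat.card G = n →
    (∀ H : Subgroup G, Cfsg.HasSubgroupOfEveryOrder H) → Cfsg.IsSupersolvable G := by
  intro n
  induction n using Nat.strong_induction_on with
  | _ n ih =>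
    intro G _ _ hn h
    rcases subsingleton_or_nontrivial G with hs | hnt
    · rw [isSupersolvable_iff_reach]
      have : (⊤ : Subgroup G) = ⊥ := Subsingleton.elim _ _
      rw [this]; exact Reach.bot
    have h1 : 1 < Nat.card G := Finite.one_lt_card
    obtain ⟨p, hp, hpd, hmax⟩ := exists_maximal_prime h1
    haveI : Fact p.Prime := ⟨hp⟩
    obtain ⟨P⟩ : Nonempty (Sylow p G) := inferInstance
    have hPn : (P : Subgroup G).Normal := Cfsg.Agent.S0532.aux _ G rfl h p hmax P
    haveI := hPn
    have hPp : IsPGroup p (P : Subgroup G) := P.isPGroup'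
    have hPcard : Nat.card (P : Subgroup G) = p ^ (Nat.card G).factorization p :=
      Sylow.card_eq_multiplicity P
    have hk0 : 0 < (Nat.card G).factorization p :=
      hp.factorization_pos_of_dvd Nat.card_pos.ne' hpd
    have hPbot : (P : Subgroup G) ≠ ⊥ := by
      intro hb
      rw [hb, Subgroup.card_bot] at hPcard
      have : 1 < p ^ (Nat.card G).factorization p := Nat.one_lt_pow hk0.ne' hp.one_lt
      omega
    -- the quotient is supersolvable
    have hQ : Cfsg.IsSupersolvable (G ⧸ (P : Subgroup G)) := by
      apply ih (Nat.card (G ⧸ (P : Subgroup G))) (hn ▸ card_quotient_lt _ hPbot) _ rfl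
      exact hered_clt_quot p P h
    -- a subgroup of index p
    have hGclt : Cfsg.HasSubgroupOfEveryOrder G :=
      Cfsg.Agent.S0532.hasSub_of_equiv Subgroup.topEquiv.symm (h ⊤)
    obtain ⟨M, hM⟩ := hGclt (Nat.card G / p) (Nat.div_dvd_of_dvd hpd)
    have hMcard : Nat.card M * p = Nat.card G := by rw [hM]; exact Nat.div_mul_cancel hpd
    have hMidx : M.index = p := by
      have := M.card_mul_index
      rw [← hMcard] at this
      exact Nat.eq_of_mul_eq_mul_left Nat.card_pos this
    have hPM : (P : Subgroup G) ⊔ M = ⊤ := by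
      have hnle : ¬ (P : Subgroup G) ≤ M := by
        intro hle
        have hd1 : Nat.card (P : Subgroup G) ∣ Nat.card M := Subgroup.card_dvd_of_le hle
        have hd2 : p ^ ((Nat.card G).factorization p + 1) ∣ Nat.card G := by
          rw [pow_succ, ← hPcard]
          have := Nat.mul_dvd_mul_right hd1 p
          rwa [hMcard] at this
        have := (hp.pow_dvd_iff_le_factorization Nat.card_pos.ne').mp hd2
        omega
      have hidx : ((P : Subgroup G) ⊔ M).index ∣ p := by
        have := Subgroup.index_dvd_of_le (le_sup_right : M ≤ (P : Subgroup G) ⊔ M)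
        rwa [hMidx] at this
      rcases (Nat.dvd_prime hp).mp hidx with h1 | h1
      · exact Subgroup.index_eq_one.mp h1
      · exfalso
        have h2 := Subgroup.relIndex_mul_index (le_sup_right : M ≤ (P : Subgroup G) ⊔ M)
        rw [h1, hMidx] at h2
        have h3 : M.relIndex ((P : Subgroup G) ⊔ M) = 1 := by
          have := hp.pos; nlinarith
        have h4 := Subgroup.relIndex_eq_one.mp h3
        exact hnle (le_sup_left.trans h4)
    have hMlt : Nat.card M < n := by
      rw [← hn, ← hMcard]
      have := Nat.card_pos (α := M)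
      have := hp.one_lt
      nlinarith
    have hMss : Cfsg.IsSupersolvable M := ih (Nat.card M) hMlt M rfl (hered_clt_sub M h)
    obtain ⟨m, H, h0, hlast, hnorm, hstep, -⟩ := Cfsg.Agent.S0529.key _ M rfl hMss
    set X : Fin (m + 1) → Subgroup G := fun i => (H i).map M.subtype with hXdef
    have hXnorm : ∀ i, M ≤ Subgroup.normalizer ((X i : Subgroup G) : Set G) := by
      intro i
      apply le_normalizer_of_conj_mem
      rintro g hg a ⟨b, hb, rfl⟩
      refine ⟨⟨g, hg⟩ * b * ⟨g, hg⟩⁻¹, (hnorm i).conj_mem b hb ⟨g, hg⟩, ?_⟩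
      simp
    have hXM : ∀ i, X i ≤ M := fun i => Subgroup.map_subtype_le _
    have hPnorm : ∀ Z : Subgroup G, M ≤ Subgroup.normalizer (Z : Set G) →
        M ≤ Subgroup.normalizer (((P : Subgroup G) ⊓ Z : Subgroup G) : Set G) := by
      intro Z hZ
      apply le_normalizer_of_conj_mem
      intro g hg a ha
      exact ⟨hPn.conj_mem a ha.1 g, (Subgroup.mem_normalizer_iff.mp (hZ hg) a).mp ha.2⟩
    have hchain : ∀ i : Fin (m + 1), PChain M p ((P : Subgroup G) ⊓ X i) := by
      intro i
      induction i using Fin.induction with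
      | zero =>
        have : X 0 = ⊥ := by rw [hXdef]; simp only; rw [h0, Subgroup.map_bot]
        rw [this, inf_bot_eq]; exact PChain.bot
      | succ i ih' =>
        have hle : X i.castSucc ≤ X i.succ := Subgroup.map_mono (hstep i).1
        have hrel : (X i.castSucc).relIndex (X i.succ) =
            (H i.castSucc).relIndex (H i.succ) :=
          Subgroup.relIndex_map_map_of_injective _ _ M.subtype_injective
        have hq := (hstep i).2
        rw [← hrel] at hq
        refine PChain.step _ _ ih' (inf_le_inf_left _ hle) (hPnorm _ (hXnorm _)) ?_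
        have hdvd := relIndex_inf_dvd_relIndex (P : Subgroup G) hle
          ((hXM _).trans (hXnorm _))
        rcases (Nat.dvd_prime hq).mp hdvd with h1 | h1
        · rw [h1]; exact hp.one_lt.le
        · have hd2 : ((P : Subgroup G) ⊓ X i.castSucc).relIndex ((P : Subgroup G) ⊓ X i.succ) ∣
              Nat.card (P : Subgroup G) :=
            (Subgroup.relIndex_dvd_card _ _).trans (Subgroup.card_dvd_of_le inf_le_left)
          rw [hPcard] at hd2
          rw [h1] at hd2 ⊢
          have hqp : (X i.castSucc).relIndex (X i.succ) ∣ p := hq.dvd_of_dvd_pow hd2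
          exact Nat.le_of_dvd hp.pos hqp
    have hXlast : X (Fin.last m) = M := by
      rw [hXdef]; simp only; rw [hlast]
      ext x; simp
    have hfinal : PChain M p (P : Subgroup G) := by
      refine PChain.step _ _ (hchain (Fin.last m)) inf_le_left ?_ ?_
      · intro g _
        rw [Subgroup.mem_normalizer_iff]
        intro a
        exact ⟨fun ha => hPn.conj_mem a ha g, fun ha => by
          have := hPn.conj_mem _ ha g⁻¹
          simpa [mul_assoc] using this⟩
      · rw [hXlast, inf_comm, Subgroup.inf_relIndex_right]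
        have h2 : M.relIndex (P : Subgroup G) ≤ M.relIndex ⊤ := by
          apply Subgroup.relIndex_le_of_le_right le_top
          rw [Subgroup.relIndex_top_right, hMidx]; exact hp.pos.ne'
        rw [Subgroup.relIndex_top_right, hMidx] at h2
        exact h2
    have hreach : Reach (P : Subgroup G) :=
      reach_of_pChain _ G p P M rfl hPn hPp hPM hfinal
    exact isSupersolvable_of_extension (P : Subgroup G) hreach hQ

end Cfsg.Agent.Lib.helper3
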