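import Mathlib
import Cfsg.Agent.S0006
import Cfsg.Agent.Lib.helper1.Hall
import Cfsg.Agent.Lib.helper3.Subnormal

set_option autoImplicit false
set_option linter.style.haveILetI false

namespace Cfsg.Agent.Lib.helper3

universe u

/-- The hereditary prime-power-index hypothesis. -/
def HeredPP (G : Type u) [Group G] : Prop :=
  ∀ H : Subgroup G, H ≠ ⊥ → ∀ p : ℕ, p.Prime → p ∣ Nat.card H →
    ∃ K : Subgroup H, K ≠ ⊤ ∧ ∃ k : ℕ, K.index = p ^ k

theorem HeredPP.subgroup {G : Type u} [Group G] (h : HeredPP G) (L : Subgroup G) :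
    HeredPP L := by
  intro H' hH' p hp hdvd
  have hinj : Function.Injective L.subtype := Subgroup.subtype_injective L
  have hne : H'.map L.subtype ≠ ⊥ := by
    intro h0
    rw [Subgroup.map_eq_bot_iff_of_injective _ hinj] at h0
    exact hH' h0
  have hcard : Nat.card (H'.map L.subtype) = Nat.card H' := Subgroup.card_map_of_injective hinj
  obtain ⟨K, hK, k, hk⟩ := h (H'.map L.subtype) hne p hp (by rw [hcard]; exact hdvd)
  let e : H' ≃* H'.map L.subtype := H'.equivMapOfInjective L.subtype hinj
  have hidx : (K.comap e.toMonoidHom).index = K.index :=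
    Subgroup.index_comap_of_surjective K e.surjective
  refine ⟨K.comap e.toMonoidHom, ?_, k, by rw [hidx, hk]⟩
  intro htop
  rw [htop, Subgroup.index_top] at hidx
  exact hK (Subgroup.index_eq_one.mp hidx.symm)

theorem solvable_of_heredPP_aux : ∀ (n : ℕ) (G : Type u) [Group G] [Finite G],
    Nat.card G = n → HeredPP G → Group.IsSolvable G := by
  intro n
  induction n using Nat.strong_induction_on with
  | _ n ih =>
    intro G _ _ hn h
    apply Cfsg.Agent.S0006.result
    intro p hp
    by_cases hdvd : p ∣ Nat.card G
    · have htop : (⊤ : Subgroup G) ≠ ⊥ := by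
        intro h0
        have h1 : Nat.card (⊤ : Subgroup G) = 1 := by rw [h0]; exact Subgroup.card_bot
        rw [Subgroup.card_top] at h1
        rw [h1] at hdvd
        exact hp.one_lt.ne' (Nat.dvd_one.mp hdvd)
      obtain ⟨K, hK, k, hk⟩ := h ⊤ htop p hp (by rw [Subgroup.card_top]; exact hdvd)
      set K₀ : Subgroup G := K.map (⊤ : Subgroup G).subtype with hK₀
      have hidx : K₀.index = p ^ k := by
        rw [hK₀, Subgroup.index_map_subtype, hk, Subgroup.index_top, mul_one]
      have hk0 : k ≠ 0 := by
        rintro rfl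
        rw [pow_zero] at hk
        exact hK (Subgroup.index_eq_one.mp hk)
      have hKlt : K₀ < ⊤ := by
        rw [lt_top_iff_ne_top]
        intro h0
        rw [h0, Subgroup.index_top] at hidx
        exact (Nat.one_lt_pow hk0 hp.one_lt).ne hidx
      have hlt : Nat.card K₀ < n := by rw [← hn]; exact card_lt_of_lt_top hKlt
      haveI : Group.IsSolvable K₀ := ih _ hlt K₀ rfl (h.subgroup K₀)
      have hGm : Nat.card G =
          p ^ (Nat.card G).factorization p * (Nat.card G / p ^ (Nat.card G).factorization p) :=
        (Nat.ordProj_mul_ordCompl_eq_self (Nat.card G) p).symm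
      have hcop : p.Coprime (Nat.card G / p ^ (Nat.card G).factorization p) :=
        Nat.coprime_ordCompl hp Nat.card_pos.ne'
      set a := (Nat.card G).factorization p with ha
      set m := Nat.card G / p ^ a with hm
      have hK₀c : Nat.card K₀ * p ^ k = Nat.card G := by rw [← hidx]; exact K₀.card_mul_index
      have hka : k ≤ a :=
        (hp.pow_dvd_iff_le_factorization Nat.card_pos.ne').mp (Dvd.intro_left _ hK₀c)
      have hK₀m : Nat.card K₀ = m * p ^ (a - k) := by
        have h1 : Nat.card K₀ * p ^ k = (m * p ^ (a - k)) * p ^ k := by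
          rw [hK₀c, mul_assoc, ← pow_add, Nat.sub_add_cancel hka, mul_comm]
          exact hGm
        exact Nat.eq_of_mul_eq_mul_right (pow_pos hp.pos k) h1
      obtain ⟨L, hL⟩ := Cfsg.Agent.Lib.helper1.hall_exists m (p ^ (a - k)) hK₀m
        (Nat.Coprime.pow_right _ hcop.symm)
      refine ⟨L.map K₀.subtype, ?_⟩
      have hLc : Nat.card (L.map K₀.subtype) = m := by
        rw [Subgroup.card_map_of_injective (Subgroup.subtype_injective _), hL]
      have h2 := (L.map K₀.subtype).card_mul_index
      rw [hLc] at h2
      have hmpos : 0 < m := by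
        rcases Nat.eq_zero_or_pos m with h0 | h0
        · rw [h0, mul_zero] at hGm
          exact absurd hGm Nat.card_pos.ne'
        · exact h0
      have h3 : m * (L.map K₀.subtype).index = m * p ^ a := by
        rw [h2, mul_comm]; exact hGm
      exact Nat.eq_of_mul_eq_mul_left hmpos h3
    · refine ⟨⊤, ?_⟩
      rw [Subgroup.index_top, Nat.factorization_eq_zero_of_not_dvd hdvd, pow_zero]

end Cfsg.Agent.Lib.helper3
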