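import Mathlib
import Cfsg.Prelude.Def_SolvableStructure
import Cfsg.Agent.Lib.helper3.Supersolvable
import Cfsg.Agent.Lib.helper3.SupersolvablePrime
import Cfsg.Agent.Lib.helper3.Basic
import Cfsg.Agent.Lib.helper3.Maximal
import Cfsg.Agent.Lib.helper3.Normalizer
import Cfsg.Agent.Lib.helper8.CoprimeAction
import Cfsg.Agent.Lib.helper15.HSup
import Cfsg.Agent.S0012

set_option autoImplicit false
set_option linter.style.haveILetI false

namespace Cfsg.Agent.Lib.helper3

open scoped commutatorElement
open Cfsg.Agent.Lib.helper15 (hsCent hsCent_normal hs_sec_triv HsQC hs_reach_of_qc)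

universe u

/-- If all maximal subgroups have prime index, `G = P T` with `P` a normal `p`-subgroup and `T`
of coprime order, then every proper `G`-normal subgroup of `P` lies in a `G`-normal subgroup of
index `p` in `P`. -/
theorem huppert_index_p {G : Type u} [Group G] [Finite G] {p : ℕ} [Fact p.Prime]
    (h : ∀ M : Subgroup G, IsCoatom M → M.index.Prime)
    (P T : Subgroup G) [hPn : P.Normal] (hP : IsPGroup p P) (hPT : P ⊔ T = ⊤)
    (hcop : (Nat.card T).Coprime (Nat.card P))
    (W : Subgroup G) [hWn : W.Normal] (hWP : W ≤ P) (hne : W ≠ P) :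
    ∃ U : Subgroup G, U.Normal ∧ W ≤ U ∧ U ≤ P ∧ Nat.card P = p * Nat.card U := by
  classical
  have hp : p.Prime := Fact.out
  have hTPbot : T ⊓ P = ⊥ := Subgroup.inf_eq_bot_of_coprime hcop
  have hcardG : Nat.card G = Nat.card T * Nat.card P := by
    have h1 := card_sup_mul_card_inf_of_normal T P
    rw [hTPbot, Subgroup.card_bot, mul_one, sup_comm, hPT, Subgroup.card_top] at h1
    exact h1
  have hWlt : Nat.card W < Nat.card P := by
    by_contra hge
    push Not at hge
    exact hne (Subgroup.eq_of_le_of_card_ge hWP hge)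
  have hWT : W ⊔ T ≠ ⊤ := by
    intro htop
    have h1 := card_sup_mul_card_inf_of_normal T W
    rw [sup_comm, htop, Subgroup.card_top] at h1
    have h2 : 0 < Nat.card (T ⊓ W : Subgroup G) := Nat.card_pos
    have h3 : 0 < Nat.card T := Nat.card_pos
    have h4 : Nat.card G ≤ Nat.card T * Nat.card W := by
      rw [← h1]; exact Nat.le_mul_of_pos_right _ h2
    have h5 : Nat.card T * Nat.card W < Nat.card T * Nat.card P :=
      Nat.mul_lt_mul_of_pos_left hWlt h3
    omega
  obtain ⟨M, hMco, hMle⟩ := (eq_top_or_exists_le_coatom _).resolve_left hWT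
  have hr := h M hMco
  have hMP : M ⊔ P = ⊤ := by
    rw [eq_top_iff, ← hPT]
    exact sup_le le_sup_right ((le_sup_right.trans hMle).trans le_sup_left)
  have h1 := card_sup_mul_card_inf_of_normal M P
  have h2 : Nat.card M * M.index = Nat.card G := Subgroup.card_mul_index M
  have h3 : M.index * Nat.card (M ⊓ P : Subgroup G) = Nat.card P := by
    rw [hMP, Subgroup.card_top, ← h2] at h1
    have hM0 : 0 < Nat.card M := Nat.card_pos
    apply Nat.eq_of_mul_eq_mul_left hM0
    rw [← h1]; ring
  obtain ⟨k, hk⟩ := IsPGroup.iff_card.mp hP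
  have hrp : M.index = p := by
    have : M.index ∣ p ^ k := by rw [← hk, ← h3]; exact dvd_mul_right _ _
    exact (Nat.prime_dvd_prime_iff_eq hr hp).mp (hr.dvd_of_dvd_pow this)
  have hk0 : k ≠ 0 := by
    rintro rfl
    rw [pow_zero] at hk
    have := Nat.card_pos (α := W)
    omega
  refine ⟨M ⊓ P, ?_, le_inf (le_sup_left.trans hMle) hWP, inf_le_right, by rw [← h3, hrp]⟩
  have hMn : M ≤ Subgroup.normalizer ((M ⊓ P : Subgroup G) : Set G) := by
    apply le_normalizer_of_conj_mem
    intro a ha x hx
    exact ⟨M.mul_mem (M.mul_mem ha hx.1) (M.inv_mem ha), hPn.conj_mem x hx.2 a⟩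
  have hPn' : P ≤ Subgroup.normalizer ((M ⊓ P : Subgroup G) : Set G) := by
    rw [← Subgroup.normal_subgroupOf_iff_le_normalizer inf_le_right]
    apply Subgroup.normal_of_index_eq_minFac_card
    rw [hk, hp.pow_minFac hk0]
    have h5 := card_mul_relIndex_of_le (inf_le_right : M ⊓ P ≤ P)
    rw [← h3, hrp] at h5
    have h6 : 0 < Nat.card (M ⊓ P : Subgroup G) := Nat.card_pos
    have h7 : (M ⊓ P).relIndex P = p := by
      apply Nat.eq_of_mul_eq_mul_left h6
      rw [h5]; ring
    exact h7
  have hN : Subgroup.normalizer ((M ⊓ P : Subgroup G) : Set G) = ⊤ := by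
    rw [eq_top_iff, ← hMP]; exact sup_le hMn hPn'
  exact Subgroup.normalizer_eq_top_iff.mp hN

/-- Under the hypotheses of Huppert's theorem, the elements of a complement `T` of the normal
Sylow `p`-subgroup `P` that act trivially on all `G`-chief factors of order `p` inside `P`
centralize `P`. -/
theorem huppert_centralize {G : Type u} [Group G] [Finite G] {p : ℕ} [Fact p.Prime]
    (h : ∀ M : Subgroup G, IsCoatom M → M.index.Prime)
    (P T : Subgroup G) [hPn : P.Normal] (hP : IsPGroup p P) (hPT : P ⊔ T = ⊤)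
    (hcop : (Nat.card T).Coprime (Nat.card P)) :
    T ⊓ hsCent p P ≤ Subgroup.centralizer (P : Set G) := by
  classical
  have hp : p.Prime := Fact.out
  obtain ⟨K, hK⟩ : ∃ K : Subgroup G, K = T ⊓ hsCent p P := ⟨_, rfl⟩
  rw [← hK]
  have hKT : K ≤ T := by rw [hK]; exact inf_le_left
  have hKC : K ≤ hsCent p P := by rw [hK]; exact inf_le_right
  have hKnP : K ≤ Subgroup.normalizer (P : Set G) := by
    rw [Subgroup.normalizer_eq_top]; exact le_top
  have hcopK : (Nat.card K).Coprime (Nat.card P) :=
    Nat.Coprime.coprime_dvd_left (Subgroup.card_dvd_of_le hKT) hcop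
  have hsolv : Group.IsSolvable K ∨ Group.IsSolvable P :=
    Or.inr (by haveI := hP.isNilpotent; infer_instance)
  have hsup := Cfsg.Agent.Lib.helper8.commutator_sup_fixed K P hKnP hcopK hsolv
  obtain ⟨F, hF⟩ : ∃ F : Subgroup G, F = P ⊓ Subgroup.centralizer (K : Set G) := ⟨_, rfl⟩
  rw [← hF] at hsup
  by_contra hcon
  have hFP : F ≤ P := by rw [hF]; exact inf_le_left
  have hFK : F ≤ Subgroup.centralizer (K : Set G) := by rw [hF]; exact inf_le_right
  have hFne : ¬ P ≤ F := by
    intro hle
    apply hcon
    exact Subgroup.le_centralizer_iff.mp (hle.trans hFK)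
  obtain ⟨Φ, hΦ⟩ : ∃ Φ : Subgroup G, Φ = (frattini ↥P).map P.subtype := ⟨_, rfl⟩
  have hΦP : Φ ≤ P := by rw [hΦ]; exact Subgroup.map_subtype_le _
  have hΦn : Φ.Normal := by
    rw [hΦ]; exact ConjAct.normal_of_characteristic_of_normal
  have hcommΦ : ∀ x ∈ P, ∀ y ∈ P, ⁅x, y⁆ ∈ Φ := by
    intro x hx y hy
    have h1 := (Cfsg.Agent.S0012.result p (G := ↥P) hP).1
    have h2 : ⁅(⟨x, hx⟩ : ↥P), ⟨y, hy⟩⁆ ∈ commutator ↥P :=
      Subgroup.commutator_mem_commutator (Subgroup.mem_top _) (Subgroup.mem_top _)
    rw [hΦ]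
    exact ⟨_, h1 h2, rfl⟩
  obtain ⟨W, hW⟩ : ∃ W : Subgroup G, W = F ⊔ Φ := ⟨_, rfl⟩
  have hFW : F ≤ W := by rw [hW]; exact le_sup_left
  have hΦW : Φ ≤ W := by rw [hW]; exact le_sup_right
  have hWP : W ≤ P := by rw [hW]; exact sup_le hFP hΦP
  have hWne : W ≠ P := by
    intro heq
    apply hFne
    have h1 : F.subgroupOf P ⊔ frattini ↥P = ⊤ := by
      have h2 : (F ⊔ Φ).subgroupOf P = F.subgroupOf P ⊔ Φ.subgroupOf P :=
        Subgroup.subgroupOf_sup hFP hΦP
      have h3 : Φ.subgroupOf P = frattini ↥P := by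
        rw [hΦ]; exact Subgroup.comap_map_eq_self_of_injective P.subtype_injective _
      rw [← h3, ← h2, ← hW, heq]; exact Subgroup.subgroupOf_self P
    have h4 := frattini_nongenerating h1
    exact Subgroup.subgroupOf_eq_top.mp h4
  have hCn : (hsCent p P).Normal := hsCent_normal p P
  have hWn : W.Normal := by
    have hT : T ≤ Subgroup.normalizer (W : Set G) := by
      apply le_normalizer_of_conj_mem
      intro t ht w hw
      have h1 : W ≤ W.comap (MulAut.conj t).toMonoidHom := by
        rw [hW]
        apply sup_le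
        · intro x hx
          rw [Subgroup.mem_comap]
          apply Subgroup.mem_sup_left
          rw [hF]
          refine ⟨hPn.conj_mem x (hFP hx) t, ?_⟩
          refine Subgroup.mem_centralizer_iff.mpr ?_
          intro k hk
          have hk' : t⁻¹ * k * t ∈ K := by
            rw [hK]
            refine ⟨T.mul_mem (T.mul_mem (T.inv_mem ht) (hKT hk)) ht, ?_⟩
            have := hCn.conj_mem k (hKC hk) t⁻¹
            rwa [inv_inv] at this
          have h2 := (Subgroup.mem_centralizer_iff.mp (hFK hx)) _ hk'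
          show k * (t * x * t⁻¹) = t * x * t⁻¹ * k
          calc k * (t * x * t⁻¹) = t * ((t⁻¹ * k * t) * x) * t⁻¹ := by group
            _ = t * (x * (t⁻¹ * k * t)) * t⁻¹ := by rw [h2]
            _ = t * x * t⁻¹ * k := by group
        · intro x hx
          rw [Subgroup.mem_comap]
          apply Subgroup.mem_sup_right
          exact hΦn.conj_mem x hx t
      exact h1 hw
    have hP' : P ≤ Subgroup.normalizer (W : Set G) := by
      apply le_normalizer_of_conj_mem
      intro x hx w hw
      have e : x * w * x⁻¹ = ⁅x, w⁆ * w := by rw [commutatorElement_def]; group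
      rw [e]
      exact W.mul_mem (hΦW (hcommΦ x hx w (hWP hw))) hw
    have hN : Subgroup.normalizer (W : Set G) = ⊤ := by
      rw [eq_top_iff, ← hPT]; exact sup_le hP' hT
    exact Subgroup.normalizer_eq_top_iff.mp hN
  obtain ⟨U, hUn, hWU, hUP, hcard⟩ := huppert_index_p h P T hP hPT hcop W hWP hWne
  have hDU : ⁅P, K⁆ ≤ U := by
    rw [Subgroup.commutator_le]
    intro x hx k hk
    have h1 := hKC hk U P hUn hPn hUP le_rfl hcard x⁻¹ (P.inv_mem hx)
    have e : ⁅x, k⁆ = x⁻¹⁻¹ * (k * x⁻¹ * k⁻¹) := by rw [commutatorElement_def]; group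
    rw [e]; exact h1
  have hPU : P ≤ U := by
    calc P = ⁅P, K⁆ ⊔ F := hsup.symm
      _ ≤ U := sup_le hDU (hFW.trans hWU)
  have h8 := Subgroup.card_le_of_le hPU
  have hU0 : 0 < Nat.card U := Nat.card_pos
  have h9 := hp.two_le
  nlinarith

/-- Huppert: a finite group all of whose maximal subgroups have prime index is supersolvable. -/
theorem huppert_aux : ∀ (m : ℕ) (G : Type u) [Group G] [Finite G], Nat.card G = m →
    (∀ M : Subgroup G, IsCoatom M → M.index.Prime) → Cfsg.IsSupersolvable G := by
  intro m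
  induction m using Nat.strong_induction_on with
  | _ m ih =>
    intro G _ _ hm h
    by_cases h1 : Nat.card G = 1
    · haveI : Subsingleton G := (Nat.card_eq_one_iff_unique.mp h1).1
      exact isSupersolvable_of_isCyclic
    obtain ⟨p, hp, hpdvd, hpmax⟩ := exists_maximal_prime (n := Nat.card G)
      (by have := Nat.card_pos (α := G); omega)
    haveI : Fact p.Prime := ⟨hp⟩
    obtain ⟨P⟩ : Nonempty (Sylow p G) := inferInstance
    have hPn : (P : Subgroup G).Normal := by
      by_contra hnn
      have hne : Subgroup.normalizer (P : Set G) ≠ ⊤ := by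
        intro ht; exact hnn (Subgroup.normalizer_eq_top_iff.mp ht)
      obtain ⟨M, hMco, hMle⟩ := (eq_top_or_exists_le_coatom _).resolve_left hne
      have hq := h M hMco
      have hmod := index_modEq_one_of_normalizer_le P M hMle
      have hle : M.index ≤ p := hpmax _ hq (Subgroup.index_dvd_card M)
      have h2 := hq.two_le
      have h3 : M.index % p = 1 := by
        have := hmod; unfold Nat.ModEq at this; rwa [Nat.mod_eq_of_lt hp.one_lt] at this
      rcases hle.lt_or_eq with hlt | heq
      · rw [Nat.mod_eq_of_lt hlt] at h3; omega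
      · rw [heq, Nat.mod_self] at h3; omega
    haveI := hPn
    have hPne : (P : Subgroup G) ≠ ⊥ := by
      intro hb
      have h3 := P.card_eq_multiplicity
      rw [hb, Subgroup.card_bot] at h3
      have hf : 0 < (Nat.card G).factorization p :=
        hp.factorization_pos_of_dvd Nat.card_pos.ne' hpdvd
      have : 1 < p ^ (Nat.card G).factorization p := Nat.one_lt_pow hf.ne' hp.one_lt
      omega
    have hlt := card_quotient_lt (P : Subgroup G) hPne
    have hq : Cfsg.IsSupersolvable (G ⧸ (P : Subgroup G)) := by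
      apply ih _ (hm ▸ hlt) _ rfl
      intro M hM
      have hco : IsCoatom (M.comap (QuotientGroup.mk' (P : Subgroup G))) :=
        isCoatom_comap_of_surjective _ (QuotientGroup.mk'_surjective _) hM
      have := h _ hco
      rwa [Subgroup.index_comap_of_surjective _ (QuotientGroup.mk'_surjective _)] at this
    obtain ⟨T, hT⟩ := Subgroup.exists_right_complement'_of_coprime P.card_coprime_index
    have hPT : (P : Subgroup G) ⊔ T = ⊤ := hT.sup_eq_top
    have hcop : (Nat.card T).Coprime (Nat.card (P : Subgroup G)) := by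
      have h2 := hT.symm.index_eq_card
      rw [← h2]; exact P.card_coprime_index.symm
    have hcent := huppert_centralize h (P : Subgroup G) T P.isPGroup' hPT hcop
    have hPle : (P : Subgroup G) ≤ hsCent p (P : Subgroup G) := by
      intro x hx M X hM hX hMX hXQ hc y hy
      obtain ⟨k, hk⟩ := (IsPGroup.iff_orderOf.mp P.isPGroup') ⟨x, hx⟩
      haveI := hM; haveI := hX
      have hx1 : x ^ (p ^ k) = 1 := by
        have h5 : (⟨x, hx⟩ : ↥(P : Subgroup G)) ^ (p ^ k) = 1 := by
          rw [← hk]; exact pow_orderOf_eq_one _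
        exact congrArg Subtype.val h5
      exact (hs_sec_triv M X hMX hc).2.2 x k hx1 y hy
    have hQC : HsQC p (P : Subgroup G) := by
      refine ⟨hsCent p (P : Subgroup G), hsCent_normal p _, hPle, ?_, ?_, ?_⟩
      · intro g g' M X hM hX hMX hXQ hc y hy
        haveI := hM; haveI := hX
        exact (hs_sec_triv M X hMX hc).1 g g' y hy
      · intro g M X hM hX hMX hXQ hc y hy
        haveI := hM; haveI := hX
        exact (hs_sec_triv M X hMX hc).2.1 g y hy
      · intro y hy
        have hyG : y ∈ (P : Subgroup G) ⊔ T := by rw [hPT]; exact Subgroup.mem_top y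
        have hTn : T ≤ Subgroup.normalizer ((P : Subgroup G) : Set G) := by
          rw [Subgroup.normalizer_eq_top]; exact le_top
        obtain ⟨x, hx, t, ht, rfl⟩ :=
          (Cfsg.Agent.Lib.helper8.mem_sup_iff_of_le_normalizer hTn y).mp hyG
        have htC : t ∈ hsCent p (P : Subgroup G) := by
          have h5 := (hsCent p (P : Subgroup G)).mul_mem
            ((hsCent p (P : Subgroup G)).inv_mem (hPle hx)) hy
          simpa using h5
        have htcent : t ∈ Subgroup.centralizer ((P : Subgroup G) : Set G) := hcent ⟨ht, htC⟩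
        obtain ⟨k, hk⟩ := IsPGroup.iff_card.mp P.isPGroup'
        refine ⟨k, ?_⟩
        intro z hz
        have hcomm : Commute x t := (Subgroup.mem_centralizer_iff.mp htcent) x hx
        rw [hcomm.mul_pow]
        have hx1 : x ^ (p ^ k) = 1 := by
          have h5 : (⟨x, hx⟩ : ↥(P : Subgroup G)) ^ (p ^ k) = 1 := by
            rw [← hk]; exact pow_card_eq_one'
          exact congrArg Subtype.val h5
        rw [hx1, one_mul]
        have h6 : t ^ (p ^ k) ∈ Subgroup.centralizer ((P : Subgroup G) : Set G) :=
          Subgroup.pow_mem _ htcent _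
        have h7 := (Subgroup.mem_centralizer_iff.mp h6) z hz
        rw [← h7]; group
    have hreach : Reach (P : Subgroup G) :=
      hs_reach_of_qc _ G (P : Subgroup G) le_rfl P.isPGroup' hQC
    exact isSupersolvable_of_extension (P : Subgroup G) hreach hq

end Cfsg.Agent.Lib.helper3
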