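import Mathlib
import Cfsg.Agent.Lib.helper3.Basic
import Cfsg.Agent.Lib.helper3.Conj
import Cfsg.Agent.Lib.helper3.Subnormal
import Cfsg.Agent.Lib.helper3.ProdFormula

set_option autoImplicit false
set_option linter.style.haveILetI false

namespace Cfsg.Agent.Lib.helper3

open scoped commutatorElement

universe u

/-- For a normal subgroup `M`, the relative index of `C` in `M` divides the index of `C`. -/
theorem relIndex_dvd_index_of_normal_right {G : Type u} [Group G] [Finite G] (C M : Subgroup G)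
    [M.Normal] : C.relIndex M ∣ C.index := by
  have h0 : C.relIndex (C ⊔ M) ∣ C.index := Subgroup.relIndex_dvd_index_of_le le_sup_left
  have h1 : Nat.card C * C.relIndex (C ⊔ M) = Nat.card (C ⊔ M : Subgroup G) :=
    card_mul_relIndex_of_le le_sup_left
  have h2 : Nat.card (C ⊓ M : Subgroup G) * (C ⊓ M).relIndex M = Nat.card M :=
    card_mul_relIndex_of_le inf_le_right
  rw [Subgroup.inf_relIndex_right] at h2
  have h3 := card_sup_mul_card_inf_of_normal C M
  have h4 : C.relIndex (C ⊔ M) = C.relIndex M := by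
    have : Nat.card C * Nat.card (C ⊓ M : Subgroup G) * C.relIndex (C ⊔ M) =
        Nat.card C * Nat.card (C ⊓ M : Subgroup G) * C.relIndex M := by
      calc Nat.card C * Nat.card (C ⊓ M : Subgroup G) * C.relIndex (C ⊔ M)
          = (Nat.card C * C.relIndex (C ⊔ M)) * Nat.card (C ⊓ M : Subgroup G) := by ring
        _ = Nat.card C * Nat.card M := by rw [h1, h3]
        _ = Nat.card C * Nat.card (C ⊓ M : Subgroup G) * C.relIndex M := by rw [← h2]; ring
    exact Nat.eq_of_mul_eq_mul_left (Nat.mul_pos Nat.card_pos Nat.card_pos) this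
  rwa [h4] at h0

/-- In a product of two abelian subgroups none of which contains a nontrivial normal
subgroup, an element centralizing both factors is trivial. -/
theorem ito_center_trivial {G : Type u} [Group G] (A B : Subgroup G)
    (hA : ∀ x ∈ A, ∀ y ∈ A, x * y = y * x) (hB : ∀ x ∈ B, ∀ y ∈ B, x * y = y * x)
    (hAB : ∀ g : G, ∃ a ∈ A, ∃ b ∈ B, g = a * b)
    (hcon : ∀ N : Subgroup G, N.Normal → N ≠ ⊥ → ¬ N ≤ A ∧ ¬ N ≤ B)
    (x : G) (hxA : ∀ a ∈ A, a * x = x * a) (hxB : ∀ b ∈ B, b * x = x * b) : x = 1 := by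
  have hcent : ∀ g : G, g * x = x * g := by
    intro g
    obtain ⟨a, ha, b, hb, rfl⟩ := hAB g
    rw [mul_assoc, hxB b hb, ← mul_assoc, hxA a ha, mul_assoc]
  have hnorm : ∀ z : G, (∀ g : G, g * z = z * g) → (Subgroup.zpowers z).Normal := by
    intro z hz
    constructor
    intro y hy g
    obtain ⟨k, rfl⟩ := Subgroup.mem_zpowers_iff.mp hy
    have : Commute g (z ^ k) := (show Commute g z from hz g).zpow_right k
    rw [this.eq, mul_inv_cancel_right]
    exact Subgroup.zpow_mem_zpowers z k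
  obtain ⟨a, ha, b, hb, hx⟩ := hAB x
  have hb1 : b = 1 := by
    have hbc : ∀ g : G, g * b = b * g := by
      intro g
      obtain ⟨a', ha', b', hb', rfl⟩ := hAB g
      have e : b = a⁻¹ * x := by rw [hx]; group
      have h1 : a' * b = b * a' := by
        rw [e, ← mul_assoc, hA a' ha' a⁻¹ (inv_mem ha), mul_assoc, hxA a' ha', mul_assoc]
      have h2 : b' * b = b * b' := hB b' hb' b hb
      rw [mul_assoc, h2, ← mul_assoc, h1, mul_assoc]
    by_contra hne
    have hN := hnorm b hbc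
    have := (hcon (Subgroup.zpowers b) hN (by
      rw [Ne, Subgroup.zpowers_eq_bot]; exact hne)).2
    exact this (by rw [Subgroup.zpowers_le]; exact hb)
  rw [hb1, mul_one] at hx
  by_contra hne
  have hN := hnorm x hcent
  have := (hcon (Subgroup.zpowers x) hN (by rw [Ne, Subgroup.zpowers_eq_bot]; exact hne)).1
  exact this (by rw [Subgroup.zpowers_le, hx]; exact ha)

/-- Itô: a nontrivial finite product of two abelian subgroups has a nontrivial normal
subgroup contained in one of the factors. -/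
theorem ito_normal_aux {G : Type u} [Group G] [Finite G] [Nontrivial G] (A B : Subgroup G)
    (hA : ∀ x ∈ A, ∀ y ∈ A, x * y = y * x) (hB : ∀ x ∈ B, ∀ y ∈ B, x * y = y * x)
    (hAB : ∀ g : G, ∃ a ∈ A, ∃ b ∈ B, g = a * b)
    (hM : ∀ x ∈ commutator G, ∀ y ∈ commutator G, x * y = y * x) :
    ∃ N : Subgroup G, N.Normal ∧ N ≠ ⊥ ∧ (N ≤ A ∨ N ≤ B) := by
  by_contra hcon0
  have hcon : ∀ N : Subgroup G, N.Normal → N ≠ ⊥ → ¬ N ≤ A ∧ ¬ N ≤ B := by
    intro N hN hNb
    constructor
    · intro h; exact hcon0 ⟨N, hN, hNb, Or.inl h⟩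
    · intro h; exact hcon0 ⟨N, hN, hNb, Or.inr h⟩
  have hZ := ito_center_trivial A B hA hB hAB hcon
  have hcomm_mem : ∀ x y : G, x⁻¹ * y⁻¹ * x * y ∈ commutator G := by
    intro x y
    have : ⁅x⁻¹, y⁻¹⁆ = x⁻¹ * y⁻¹ * x * y := by simp [commutatorElement_def]
    rw [← this, commutator_def]
    exact Subgroup.commutator_mem_commutator (Subgroup.mem_top _) (Subgroup.mem_top _)
  have hMbot : commutator G ≠ ⊥ := by
    intro hb
    obtain ⟨z, hz⟩ := exists_ne (1 : G)
    apply hz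
    apply hZ z
    · intro a _
      have := hcomm_mem a z
      rw [hb, Subgroup.mem_bot] at this
      calc a * z = z * a * (a⁻¹ * z⁻¹ * a * z) := by group
        _ = z * a := by rw [this, mul_one]
    · intro b _
      have := hcomm_mem b z
      rw [hb, Subgroup.mem_bot] at this
      calc b * z = z * b * (b⁻¹ * z⁻¹ * b * z) := by group
        _ = z * b := by rw [this, mul_one]
  obtain ⟨N, hNmin, hNM⟩ := exists_minNormal_le (commutator G) inferInstance hMbot
  have hNn : N.Normal := hNmin.1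
  haveI := hNn
  have hNbot : N ≠ ⊥ := hNmin.2.1
  have hMN : ∀ c ∈ commutator G, ∀ n ∈ N, c * n = n * c :=
    fun c hc n hn => hM c hc n (hNM hn)
  -- invariance of centralizers in `N`
  have hinv : ∀ S : Set G, (N ⊓ Subgroup.centralizer S).Normal := by
    intro S
    constructor
    intro n hn g
    refine ⟨hNn.conj_mem n hn.1 g, ?_⟩
    refine Subgroup.mem_centralizer_iff.mpr ?_
    intro s hs
    have hsn : s * n = n * s := Subgroup.mem_centralizer_iff.mp hn.2 s hs
    have e1 := hMN _ (hcomm_mem s g) n hn.1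
    calc s * (g * n * g⁻¹) = g * s * ((s⁻¹ * g⁻¹ * s * g) * n) * g⁻¹ := by group
      _ = g * s * (n * (s⁻¹ * g⁻¹ * s * g)) * g⁻¹ := by rw [e1]
      _ = g * (s * n) * (s⁻¹ * g⁻¹ * s * g) * g⁻¹ := by group
      _ = g * (n * s) * (s⁻¹ * g⁻¹ * s * g) * g⁻¹ := by rw [hsn]
      _ = g * n * g⁻¹ * s := by group
  have hmin : ∀ S : Set G, (∃ n ∈ N, n ≠ 1 ∧ ∀ s ∈ S, s * n = n * s) →
      ∀ n ∈ N, ∀ s ∈ S, s * n = n * s := by
    rintro S ⟨n₀, hn₀, hne, hc⟩ n hn s hs
    rcases hNmin.2.2 _ (hinv S) inf_le_left with hK | hK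
    · exfalso
      have : n₀ ∈ N ⊓ Subgroup.centralizer S := ⟨hn₀, Subgroup.mem_centralizer_iff.mpr hc⟩
      rw [hK, Subgroup.mem_bot] at this
      exact hne this
    · have : n ∈ N ⊓ Subgroup.centralizer S := by rw [hK]; exact hn
      exact Subgroup.mem_centralizer_iff.mp this.2 s hs
  -- the prime `p` and the exponent of `N`
  have hcard1 : 1 < Nat.card N := (Subgroup.one_lt_card_iff_ne_bot N).mpr hNbot
  obtain ⟨p, hp_def⟩ : ∃ p, p = (Nat.card N).minFac := ⟨_, rfl⟩
  have hp : p.Prime := hp_def ▸ Nat.minFac_prime hcard1.ne'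
  haveI : Fact p.Prime := ⟨hp⟩
  have hpd : p ∣ Nat.card N := hp_def ▸ Nat.minFac_dvd _
  have hNab : ∀ x ∈ N, ∀ y ∈ N, x * y = y * x := fun x hx y hy => hM x (hNM hx) y (hNM hy)
  have hexp : ∀ n ∈ N, n ^ p = 1 := by
    let Ω : Subgroup G :=
      { carrier := {x | x ∈ N ∧ x ^ p = 1}
        mul_mem' := by
          rintro x y ⟨hx, hx1⟩ ⟨hy, hy1⟩
          refine ⟨mul_mem hx hy, ?_⟩
          rw [(show Commute x y from hNab x hx y hy).mul_pow, hx1, hy1, one_mul]
        one_mem' := ⟨one_mem _, one_pow _⟩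
        inv_mem' := by
          rintro x ⟨hx, hx1⟩
          exact ⟨inv_mem hx, by rw [inv_pow, hx1, inv_one]⟩ }
    have hΩn : Ω.Normal := by
      constructor
      rintro x ⟨hx, hx1⟩ g
      refine ⟨hNn.conj_mem x hx g, ?_⟩
      rw [conj_pow, hx1]; simp
    have hΩle : Ω ≤ N := fun x hx => hx.1
    rcases hNmin.2.2 Ω hΩn hΩle with h | h
    · exfalso
      obtain ⟨x, hx⟩ := exists_prime_orderOf_dvd_card' (G := N) p hpd
      have hxΩ : (x : G) ∈ Ω := by
        refine ⟨x.2, ?_⟩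
        have : x ^ p = 1 := by rw [← hx]; exact pow_orderOf_eq_one x
        have := congrArg Subtype.val this
        simpa using this
      rw [h, Subgroup.mem_bot] at hxΩ
      have : x = 1 := Subtype.ext hxΩ
      rw [this, orderOf_one] at hx
      exact hp.one_lt.ne hx
    · intro n hn
      have : n ∈ Ω := by rw [h]; exact hn
      exact this.2
  have hNp : IsPGroup p N := by
    intro x
    refine ⟨1, ?_⟩
    apply Subtype.ext
    rw [pow_one]
    simpa using hexp x x.2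
  -- `p`-elements centralize `N`
  have hpel : ∀ y : G, ∀ k : ℕ, y ^ (p ^ k) = 1 → ∀ n ∈ N, y * n = n * y := by
    intro y k hy
    have hPp : IsPGroup p (Subgroup.zpowers y) := by
      rintro ⟨z, hz⟩
      obtain ⟨j, rfl⟩ := Subgroup.mem_zpowers_iff.mp hz
      refine ⟨k, ?_⟩
      apply Subtype.ext
      show (y ^ j) ^ (p ^ k) = 1
      rw [← zpow_natCast, ← zpow_mul, mul_comm, zpow_mul, zpow_natCast, hy, one_zpow]
    obtain ⟨a₀, ha₀, hne, hc⟩ :=
      exists_ne_one_comm_of_pgroup (Subgroup.zpowers y) N hPp hNp hNbot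
    intro n hn
    exact hmin {y} ⟨a₀, ha₀, hne, fun s hs => by
      rw [Set.mem_singleton_iff] at hs; rw [hs]; exact hc y (Subgroup.mem_zpowers y)⟩ n hn y rfl
  -- neither factor centralizes `N`
  have hAN : ¬ ∀ a ∈ A, ∀ n ∈ N, a * n = n * a := by
    intro hcen
    apply (hcon N hNn hNbot).1
    intro n hn
    obtain ⟨a, ha, b, hb, hnab⟩ := hAB n
    have hb1 : b = 1 := by
      apply hZ b
      · intro a' ha'
        have e : b = a⁻¹ * n := by rw [hnab]; group
        rw [e, ← mul_assoc, hA a' ha' a⁻¹ (inv_mem ha), mul_assoc, hcen a' ha' n hn, mul_assoc]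
      · intro b' hb'; exact hB b' hb' b hb
    rw [hnab, hb1, mul_one]; exact ha
  have hBN : ¬ ∀ b ∈ B, ∀ n ∈ N, b * n = n * b := by
    intro hcen
    apply (hcon N hNn hNbot).2
    intro n hn
    obtain ⟨a, ha, b, hb, hnab⟩ := hAB n
    have ha1 : a = 1 := by
      apply hZ a
      · intro a' ha'; exact hA a' ha' a ha
      · intro b' hb'
        have e : a = n * b⁻¹ := by rw [hnab]; group
        rw [e, ← mul_assoc, hcen b' hb' n hn, mul_assoc, hB b' hb' b⁻¹ (inv_mem hb), mul_assoc]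
    rw [hnab, ha1, one_mul]; exact hb
  have hCA : ∀ n ∈ N, (∀ a ∈ A, a * n = n * a) → n = 1 := by
    intro n hn hc
    by_contra hne
    exact hAN (fun a ha n' hn' => hmin (A : Set G) ⟨n, hn, hne, hc⟩ n' hn' a ha)
  push Not at hBN
  obtain ⟨b₂, hb₂, n, hn, hnb⟩ := hBN
  obtain ⟨v, hv, b₁, hb₁, hnv⟩ := hAB n
  have hvn : v = n * b₁⁻¹ := by rw [hnv]; group
  have hbv : ∀ b ∈ B, b * v * b⁻¹ = (b * n * b⁻¹ * n⁻¹) * v := by
    intro b hb
    have h1 : b₁⁻¹ * b⁻¹ = b⁻¹ * b₁⁻¹ := hB _ (inv_mem hb₁) _ (inv_mem hb)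
    rw [hvn]
    calc b * (n * b₁⁻¹) * b⁻¹ = b * n * (b₁⁻¹ * b⁻¹) := by group
      _ = b * n * (b⁻¹ * b₁⁻¹) := by rw [h1]
      _ = b * n * b⁻¹ * n⁻¹ * (n * b₁⁻¹) := by group
  -- the centralizer of `v`
  obtain ⟨C, hC⟩ : ∃ C : Subgroup G, C = Subgroup.centralizer ({v} : Set G) := ⟨_, rfl⟩
  have hmemC : ∀ g : G, g ∈ C ↔ g * v = v * g := by
    intro g
    rw [hC, Subgroup.mem_centralizer_iff]
    constructor
    · intro h; exact (h v rfl).symm
    · intro h s hs; rw [Set.mem_singleton_iff] at hs; rw [hs]; exact h.symm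
  have hAC : A ≤ C := fun a ha => (hmemC a).mpr (hA a ha v hv)
  have hfac : ∀ g : G, ∃ c ∈ C, ∃ b ∈ B, g = c * b := by
    intro g
    obtain ⟨a, ha, b, hb, h⟩ := hAB g
    exact ⟨a, hAC ha, b, hb, h⟩
  have hcard := card_mul_card_inf_of_factorization C B hfac
  obtain ⟨S⟩ : Nonempty (Sylow p B) := inferInstance
  have hS'le : (S : Subgroup B).map B.subtype ≤ C ⊓ B := by
    rintro y ⟨⟨y', hy'B⟩, hy'S, rfl⟩
    refine ⟨?_, hy'B⟩
    refine (hmemC _).mpr ?_
    obtain ⟨k, hk⟩ := S.isPGroup' ⟨⟨y', hy'B⟩, hy'S⟩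
    have hk' : y' ^ (p ^ k) = 1 := by
      have := congrArg (fun z : (S : Subgroup B) => ((z : B) : G)) hk
      simpa using this
    have h1 := hpel y' k hk' n hn
    have h2 : y' * b₁⁻¹ = b₁⁻¹ * y' := hB y' hy'B b₁⁻¹ (inv_mem hb₁)
    show y' * v = v * y'
    rw [hvn, ← mul_assoc, h1, mul_assoc, h2, mul_assoc]
  have hScard : Nat.card ((S : Subgroup B).map B.subtype) = p ^ (Nat.card B).factorization p := by
    rw [Subgroup.card_map_of_injective B.subtype_injective, Sylow.card_eq_multiplicity]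
  have hpC : ¬ p ∣ C.index := by
    intro hdvd
    have h1 : Nat.card C * C.index = Nat.card G := C.card_mul_index
    have h2 : C.index * Nat.card (C ⊓ B : Subgroup G) = Nat.card B := by
      have : Nat.card C * (C.index * Nat.card (C ⊓ B : Subgroup G)) =
          Nat.card C * Nat.card B := by
        rw [← mul_assoc, h1, hcard]
      exact Nat.eq_of_mul_eq_mul_left Nat.card_pos this
    have h3 : p ^ (Nat.card B).factorization p ∣ Nat.card (C ⊓ B : Subgroup G) := by
      rw [← hScard]; exact Subgroup.card_dvd_of_le hS'le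
    have h4 : p ^ ((Nat.card B).factorization p + 1) ∣ Nat.card B := by
      have h5 := Nat.mul_dvd_mul hdvd h3
      rw [h2] at h5
      rw [pow_succ, mul_comm]
      exact h5
    have := (hp.pow_dvd_iff_le_factorization Nat.card_pos.ne').mp h4
    omega
  -- conjugates of `v`
  have hconj : ∀ g : G, ∃ m ∈ N, g * v * g⁻¹ = m * v := by
    intro g
    obtain ⟨a, ha, b, hb, rfl⟩ := hAB g
    refine ⟨a * (b * n * b⁻¹ * n⁻¹) * a⁻¹,
      hNn.conj_mem _ (mul_mem (hNn.conj_mem n hn b) (inv_mem hn)) a, ?_⟩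
    have h2 : a * v = v * a := hA a ha v hv
    calc a * b * v * (a * b)⁻¹ = a * (b * v * b⁻¹) * a⁻¹ := by group
      _ = a * (b * n * b⁻¹ * n⁻¹ * v) * a⁻¹ := by rw [hbv b hb]
      _ = a * (b * n * b⁻¹ * n⁻¹) * a⁻¹ * (a * v) * a⁻¹ := by group
      _ = a * (b * n * b⁻¹ * n⁻¹) * a⁻¹ * (v * a) * a⁻¹ := by rw [h2]
      _ = a * (b * n * b⁻¹ * n⁻¹) * a⁻¹ * v := by group
  have hpow : ∀ c ∈ commutator G, c ^ p ∈ C := by
    intro c hc
    obtain ⟨m, hm, hcv⟩ := hconj c
    have hcm : c * m = m * c := hMN c hc m hm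
    have key : ∀ j : ℕ, c ^ j * v * (c ^ j)⁻¹ = m ^ j * v := by
      intro j
      induction j with
      | zero => simp
      | succ j ih =>
        have hcmj : c * m ^ j = m ^ j * c := (show Commute c m from hcm).pow_right j
        calc c ^ (j + 1) * v * (c ^ (j + 1))⁻¹ = c * (c ^ j * v * (c ^ j)⁻¹) * c⁻¹ := by
              rw [pow_succ']; group
          _ = c * (m ^ j * v) * c⁻¹ := by rw [ih]
          _ = (c * m ^ j) * c⁻¹ * (c * v * c⁻¹) := by group
          _ = m ^ j * c * c⁻¹ * (m * v) := by rw [hcmj, hcv]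
          _ = m ^ (j + 1) * v := by rw [pow_succ]; group
    rw [hmemC]
    have := key p
    rw [hexp m hm, one_mul] at this
    calc c ^ p * v = c ^ p * v * (c ^ p)⁻¹ * c ^ p := by group
      _ = v * c ^ p := by rw [this]
  have hMC : commutator G ≤ C := by
    haveI hMcomm : IsMulCommutative (commutator G) :=
      ⟨⟨fun x y => Subtype.ext (hM x x.2 y y.2)⟩⟩
    obtain ⟨K', hK'⟩ : ∃ K' : Subgroup (commutator G), K' = C.subgroupOf (commutator G) :=
      ⟨_, rfl⟩
    haveI : K'.Normal := inferInstance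
    have hQ : IsPGroup p (commutator G ⧸ K') := by
      intro x
      induction x using QuotientGroup.induction_on with
      | H c =>
        refine ⟨1, ?_⟩
        rw [pow_one, ← QuotientGroup.mk_pow, QuotientGroup.eq_one_iff, hK',
          Subgroup.mem_subgroupOf]
        simpa using hpow c c.2
    obtain ⟨j, hj⟩ := IsPGroup.iff_card.mp hQ
    have hrel : C.relIndex (commutator G) = p ^ j := by
      rw [← hj, Subgroup.relIndex, ← hK']; exact Subgroup.index_eq_card K'
    have hdvd := relIndex_dvd_index_of_normal_right C (commutator G)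
    rw [hrel] at hdvd
    have hj0 : j = 0 := by
      by_contra h0
      exact hpC ((dvd_pow_self p h0).trans hdvd)
    rw [hj0, pow_zero] at hrel
    exact Subgroup.relIndex_eq_one.mp hrel
  -- final contradiction
  apply hnb
  have hw : b₂ * n * b₂⁻¹ * n⁻¹ = 1 := by
    apply hCA _ (mul_mem (hNn.conj_mem n hn b₂) (inv_mem hn))
    intro a ha
    have hc := (hmemC _).mp (hMC (hcomm_mem a b₂))
    have hav : a * v = v * a := hA a ha v hv
    have hw_comm : a * (b₂ * v * b₂⁻¹) = (b₂ * v * b₂⁻¹) * a := by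
      calc a * (b₂ * v * b₂⁻¹) = b₂ * a * ((a⁻¹ * b₂⁻¹ * a * b₂) * v) * b₂⁻¹ := by group
        _ = b₂ * a * (v * (a⁻¹ * b₂⁻¹ * a * b₂)) * b₂⁻¹ := by rw [hc]
        _ = b₂ * (a * v) * (a⁻¹ * b₂⁻¹ * a * b₂) * b₂⁻¹ := by group
        _ = b₂ * (v * a) * (a⁻¹ * b₂⁻¹ * a * b₂) * b₂⁻¹ := by rw [hav]
        _ = (b₂ * v * b₂⁻¹) * a := by group
    rw [hbv b₂ hb₂] at hw_comm
    calc a * (b₂ * n * b₂⁻¹ * n⁻¹) = a * (b₂ * n * b₂⁻¹ * n⁻¹ * v) * v⁻¹ := by group
      _ = b₂ * n * b₂⁻¹ * n⁻¹ * v * a * v⁻¹ := by rw [hw_comm]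
      _ = b₂ * n * b₂⁻¹ * n⁻¹ * (v * a) * v⁻¹ := by group
      _ = b₂ * n * b₂⁻¹ * n⁻¹ * (a * v) * v⁻¹ := by rw [hav]
      _ = b₂ * n * b₂⁻¹ * n⁻¹ * a := by group
  calc b₂ * n = (b₂ * n * b₂⁻¹ * n⁻¹) * n * b₂ := by group
    _ = n * b₂ := by rw [hw, one_mul]

end Cfsg.Agent.Lib.helper3
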