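import Mathlib
import Cfsg.Prelude.Def_JComponents
import Cfsg.Prelude.Def_Involutions
import Cfsg.Agent.Lib.helper3.Normalizer
import Cfsg.Agent.Lib.helper3.Conj
import Cfsg.Agent.Lib.helper3.ThompsonFact

set_option autoImplicit false
set_option linter.style.haveILetI false

namespace Cfsg.Agent.Lib.helper3

universe u

open scoped commutatorElement

/-- `J` normalizes `⁅H, J⁆`. -/
theorem conj_mem_commutator_right {G : Type u} [Group G] {H J : Subgroup G} {j : G} (hj : j ∈ J)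
    {x : G} (hx : x ∈ ⁅H, J⁆) : j * x * j⁻¹ ∈ ⁅H, J⁆ := by
  have hle : ⁅H, J⁆ ≤ (⁅H, J⁆).comap (MulAut.conj j).toMonoidHom := by
    rw [Subgroup.commutator_le]
    intro k hk j' hj'
    rw [Subgroup.mem_comap]
    have e : (MulAut.conj j).toMonoidHom ⁅k, j'⁆ = ⁅k, j⁆⁻¹ * ⁅k, j * j'⁆ := by
      simp only [MulEquiv.coe_toMonoidHom, MulAut.conj_apply, commutatorElement_def]
      group
    rw [e]
    exact Subgroup.mul_mem _ (Subgroup.inv_mem _ (Subgroup.commutator_mem_commutator hk hj))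
      (Subgroup.commutator_mem_commutator hk (J.mul_mem hj hj'))
  have := hle hx
  simpa using this

/-- If the `p`-group `J` normalizes `K`, the `p'`-elements of `K ⊔ J` lie in `K`. -/
theorem mem_of_coprime_of_sup {G : Type u} [Group G] {p : ℕ} {K J : Subgroup G}
    (hJK : J ≤ Subgroup.normalizer (K : Set G)) (hJ : IsPGroup p J) {x : G} (hx : x ∈ K ⊔ J)
    (hord : (orderOf x).Coprime p) : x ∈ K := by
  obtain ⟨N, hN⟩ : ∃ N : Subgroup G, N = Subgroup.normalizer (K : Set G) := ⟨_, rfl⟩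
  have hKN : K ≤ N := hN ▸ Subgroup.le_normalizer
  have hJN : J ≤ N := hN ▸ hJK
  haveI : (K.subgroupOf N).Normal := by
    subst hN; exact Subgroup.normal_in_normalizer
  have hxN : x ∈ N := (sup_le hKN hJN) hx
  have h1 : (⟨x, hxN⟩ : N) ∈ (K ⊔ J).subgroupOf N := by
    rw [Subgroup.mem_subgroupOf]; exact hx
  rw [Subgroup.subgroupOf_sup hKN hJN] at h1
  have h2 : QuotientGroup.mk' (K.subgroupOf N) ⟨x, hxN⟩ ∈
      (K.subgroupOf N ⊔ J.subgroupOf N).map (QuotientGroup.mk' (K.subgroupOf N)) :=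
    Subgroup.mem_map_of_mem _ h1
  rw [Subgroup.map_sup, QuotientGroup.map_mk'_self, bot_sup_eq] at h2
  have h3 : IsPGroup p ((J.subgroupOf N).map (QuotientGroup.mk' (K.subgroupOf N))) :=
    (hJ.comap_subtype).map _
  obtain ⟨k, hk⟩ := h3 ⟨_, h2⟩
  have h4 : (QuotientGroup.mk' (K.subgroupOf N) ⟨x, hxN⟩) ^ (p ^ k) = 1 :=
    congrArg Subtype.val hk
  have h5 : (QuotientGroup.mk' (K.subgroupOf N) ⟨x, hxN⟩) ^ (orderOf x) = 1 := by
    rw [← map_pow]
    have : (⟨x, hxN⟩ : N) ^ orderOf x = 1 := Subtype.ext (by simp [pow_orderOf_eq_one])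
    rw [this, map_one]
  have h6 : QuotientGroup.mk' (K.subgroupOf N) ⟨x, hxN⟩ = 1 := by
    have d1 := orderOf_dvd_of_pow_eq_one h4
    have d2 := orderOf_dvd_of_pow_eq_one h5
    have hg : Nat.gcd (orderOf x) (p ^ k) = 1 := Nat.Coprime.pow_right k hord
    have : orderOf (QuotientGroup.mk' (K.subgroupOf N) ⟨x, hxN⟩) = 1 :=
      Nat.dvd_one.mp (hg ▸ Nat.dvd_gcd d2 d1)
    exact orderOf_eq_one_iff.mp this
  have h7 : (⟨x, hxN⟩ : N) ∈ K.subgroupOf N := by
    rw [← QuotientGroup.ker_mk' (K.subgroupOf N)]; exact MonoidHom.mem_ker.mpr h6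
  exact Subgroup.mem_subgroupOf.mp h7

/-- S2941 core: if `K = ⁅K, J⁆` is generated by its elements of odd order, `J` is a `2`-group,
`⟨K, J⟩` normalizes `Q` and `Q` normalizes `J`, then `Q` normalizes `K`. -/
theorem jcomp_normalized {G : Type u} [Group G] {K J Q : Subgroup G} (hJ2 : IsPGroup 2 J)
    (hKodd : Subgroup.closure {g : G | g ∈ K ∧ Odd (orderOf g)} = K) (hKJ : ⁅K, J⁆ = K)
    (hQ1 : K ⊔ J ≤ Subgroup.normalizer (Q : Set G))
    (hQ2 : Q ≤ Subgroup.normalizer (J : Set G)) :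
    Q ≤ Subgroup.normalizer (K : Set G) := by
  have hJK : J ≤ Subgroup.normalizer (K : Set G) := by
    apply le_normalizer_of_conj_mem
    intro j hj a ha
    have ha' : a ∈ ⁅K, J⁆ := hKJ.symm ▸ ha
    have := conj_mem_commutator_right hj ha'
    exact hKJ ▸ this
  apply le_normalizer_of_conj_mem
  intro q hq
  have hqJ : ∀ j ∈ J, q * j * q⁻¹ ∈ J := fun j hj =>
    (Subgroup.mem_normalizer_iff.mp (hQ2 hq) j).mp hj
  have hKQ : ∀ k ∈ K, ∀ q' ∈ Q, k⁻¹ * q' * k ∈ Q := by
    intro k hk q' hq'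
    have := (Subgroup.mem_normalizer_iff.mp
      (hQ1 (Subgroup.mem_sup_left (K.inv_mem hk))) q').mp hq'
    simpa using this
  have step1 : K ⊔ J ≤ (K ⊔ J).comap (MulAut.conj q).toMonoidHom := by
    have hJle : J ≤ (K ⊔ J).comap (MulAut.conj q).toMonoidHom := by
      intro j hj
      rw [Subgroup.mem_comap]
      exact Subgroup.mem_sup_right (by simpa using hqJ j hj)
    refine sup_le ?_ hJle
    have hcomm : ⁅K, J⁆ ≤ (K ⊔ J).comap (MulAut.conj q).toMonoidHom := by
      rw [Subgroup.commutator_le]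
      intro k hk j hj
      rw [Subgroup.mem_comap]
      have e : (MulAut.conj q).toMonoidHom ⁅k, j⁆ =
          k * ((k⁻¹ * q * k) * j * (k⁻¹ * q * k)⁻¹) * k⁻¹ * (q * j⁻¹ * q⁻¹) := by
        simp only [MulEquiv.coe_toMonoidHom, MulAut.conj_apply, commutatorElement_def]
        group
      rw [e]
      have hq' := hKQ k hk q hq
      have h1 : (k⁻¹ * q * k) * j * (k⁻¹ * q * k)⁻¹ ∈ J :=
        (Subgroup.mem_normalizer_iff.mp (hQ2 hq') j).mp hj
      exact Subgroup.mul_mem _ (Subgroup.mul_mem _ (Subgroup.mul_mem _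
        (Subgroup.mem_sup_left hk) (Subgroup.mem_sup_right h1))
        (Subgroup.mem_sup_left (K.inv_mem hk))) (Subgroup.mem_sup_right (hqJ _ (J.inv_mem hj)))
    exact (le_of_eq hKJ.symm).trans hcomm
  have step2 : Subgroup.closure {g : G | g ∈ K ∧ Odd (orderOf g)} ≤
      K.comap (MulAut.conj q).toMonoidHom := by
    rw [Subgroup.closure_le]
    rintro g ⟨hgK, hgodd⟩
    show (MulAut.conj q).toMonoidHom g ∈ K
    have h1 : (MulAut.conj q).toMonoidHom g ∈ K ⊔ J := step1 (Subgroup.mem_sup_left hgK)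
    apply mem_of_coprime_of_sup hJK hJ2 h1
    have : orderOf ((MulAut.conj q).toMonoidHom g) = orderOf g := (MulAut.conj q).orderOf_eq g
    rw [this]
    exact Nat.coprime_two_right.mpr hgodd
  intro a ha
  have := step2 (hKodd.symm ▸ ha)
  simpa using this

/-- `N_G(S) ≤ N_G(J(S))`. -/
theorem normalizer_le_normalizer_thompsonOf {G : Type u} [Group G] (p : ℕ) (S : Subgroup G) :
    Subgroup.normalizer (S : Set G) ≤
      Subgroup.normalizer (Cfsg.thompsonSubgroupOf p S : Set G) := by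
  apply le_normalizer_of_conj_mem
  intro n hn a ha
  have hmap : S.map (MulAut.conj n).toMonoidHom = S := by
    ext x
    rw [Subgroup.mem_map]
    constructor
    · rintro ⟨s, hs, rfl⟩
      exact (Subgroup.mem_normalizer_iff.mp hn s).mp hs
    · intro hx
      refine ⟨n⁻¹ * x * n, ?_, by simp [mul_assoc]⟩
      have := (Subgroup.mem_normalizer_iff.mp (Subgroup.inv_mem _ hn) x).mp hx
      simpa using this
  have hker : S ⊓ (MulAut.conj n).toMonoidHom.ker = ⊥ := by
    rw [(MonoidHom.ker_eq_bot_iff _).mpr (MulAut.conj n).injective, inf_bot_eq]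
  have h1 := thompsonSubgroupOf_map p (MulAut.conj n).toMonoidHom S hker
  rw [hmap] at h1
  rw [h1]
  exact ⟨a, ha, by simp⟩

/-- A single element conjugating a finite subgroup into itself normalizes it. -/
theorem mem_normalizer_of_conj_mem_h3 {G : Type u} [Group G] [Finite G] {S : Subgroup G} {x : G}
    (h : ∀ s ∈ S, x * s * x⁻¹ ∈ S) : x ∈ Subgroup.normalizer (S : Set G) := by
  have hle : S.map (MulAut.conj x).toMonoidHom ≤ S := by
    rintro _ ⟨s, hs, rfl⟩; exact h s hs
  have hcard : Nat.card (S.map (MulAut.conj x).toMonoidHom) = Nat.card S :=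
    Subgroup.card_map_of_injective (MulAut.conj x).injective
  have heq : S.map (MulAut.conj x).toMonoidHom = S :=
    Subgroup.eq_of_le_of_card_ge hle (le_of_eq hcard.symm)
  rw [Subgroup.mem_normalizer_iff]
  intro s
  constructor
  · exact h s
  · intro hs
    rw [← heq] at hs
    obtain ⟨s', hs', he⟩ := hs
    have : s' = s := by simpa using he
    exact this ▸ hs'

/-- In a `p`-group `R`, a subgroup `R₀` with `N_R(R₀) ≤ R₀` is all of `R`. -/
theorem pgroup_eq_of_normalizer {G : Type u} [Group G] [Finite G] {p : ℕ} [Fact p.Prime]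
    {R R₀ : Subgroup G} (hR : IsPGroup p R) (h0 : R₀ ≤ R)
    (hN : R ⊓ Subgroup.normalizer (R₀ : Set G) ≤ R₀) : R₀ = R := by
  by_contra hne
  haveI : Group.IsNilpotent R := hR.isNilpotent
  have hlt : R₀.subgroupOf R < ⊤ := by
    rw [lt_top_iff_ne_top]
    intro h
    rw [Subgroup.subgroupOf_eq_top] at h
    exact hne (le_antisymm h0 h)
  have h1 := normalizerCondition_of_isNilpotent (G := R) (R₀.subgroupOf R) hlt
  obtain ⟨x, hxN, hxR⟩ := SetLike.exists_of_lt h1
  apply hxR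
  rw [Subgroup.mem_subgroupOf]
  apply hN
  refine ⟨x.2, ?_⟩
  show (x : G) ∈ Subgroup.normalizer (R₀ : Set G)
  rw [Subgroup.mem_normalizer_iff]
  intro a
  rw [Subgroup.mem_normalizer_iff] at hxN
  constructor
  · intro ha
    have := (hxN ⟨a, h0 ha⟩).mp (Subgroup.mem_subgroupOf.mpr ha)
    exact Subgroup.mem_subgroupOf.mp this
  · intro ha
    have haR : a ∈ R := by
      have : (x : G)⁻¹ * ((x : G) * a * (x : G)⁻¹) * (x : G) ∈ R :=
        R.mul_mem (R.mul_mem (R.inv_mem x.2) (h0 ha)) x.2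
      simpa [mul_assoc] using this
    have := (hxN ⟨a, haR⟩).mpr (Subgroup.mem_subgroupOf.mpr ha)
    exact Subgroup.mem_subgroupOf.mp this

/-- If `M` meets its conjugates `M^g` (`g ∉ M`) in odd order, then `M` contains the normalizer
of each of its nontrivial `2`-subgroups. -/
theorem strEmb_normalizer_le {G : Type u} [Group G] [Finite G] {M : Subgroup G}
    (hM : ∀ g : G, g ∉ M → Odd (Nat.card ↥(M ⊓ M.map (MulAut.conj g).toMonoidHom)))
    {T : Subgroup G} (hT : IsPGroup 2 T) (hT1 : T ≠ ⊥) (hTM : T ≤ M) :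
    Subgroup.normalizer (T : Set G) ≤ M := by
  intro g hg
  by_contra hgM
  have hodd := hM g hgM
  have hle : T ≤ M ⊓ M.map (MulAut.conj g).toMonoidHom := by
    refine le_inf hTM ?_
    intro t ht
    refine ⟨g⁻¹ * t * g, hTM ?_, ?_⟩
    · have := (Subgroup.mem_normalizer_iff.mp (Subgroup.inv_mem _ hg) t).mp ht
      simpa using this
    · simp [mul_assoc]
  have hdvd : Nat.card T ∣ Nat.card ↥(M ⊓ M.map (MulAut.conj g).toMonoidHom) :=
    Subgroup.card_dvd_of_le hle
  obtain ⟨n, hn⟩ := hT.exists_card_eq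
  have hTodd : Odd (Nat.card T) := Odd.of_dvd_nat hodd hdvd
  have hn0 : n = 0 := by
    by_contra h0
    rw [hn] at hTodd
    exact (Nat.not_even_iff_odd.mpr hTodd) (Nat.even_pow.mpr ⟨even_two, h0⟩)
  rw [hn0, pow_zero] at hn
  exact hT1 (Subgroup.card_eq_one.mp hn)

/-- S2947 core. -/
theorem strEmb_iff_straddling {G : Type u} [Group G] [Finite G] (hO : Cfsg.pCore 2 G = ⊥)
    (S : Sylow 2 G) (M : Subgroup G) (hM : Cfsg.IsTwoLocal M)
    (hMJ : Subgroup.normalizer (Cfsg.thompsonSubgroupOf 2 (S : Subgroup G) : Set G) ≤ M) :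
    Cfsg.IsStronglyEmbedded M ↔ Cfsg.straddlingTwoSubgroups M = ∅ := by
  constructor
  · rintro ⟨-, -, hodd⟩
    rw [Set.eq_empty_iff_forall_notMem]
    rintro T ⟨hT2, hT1, hTM, L, ⟨Q, hQ2, hQ1, rfl⟩, hTL, hLM⟩
    apply hLM
    have hR : IsPGroup 2 ↥(T ⊔ Q) := IsPGroup.to_sup_of_normal_right' hT2 hQ2 hTL
    have hR0 : IsPGroup 2 ↥((T ⊔ Q) ⊓ M) := hR.to_le inf_le_left
    have hR0ne : (T ⊔ Q) ⊓ M ≠ ⊥ := by
      intro h
      apply hT1
      rw [eq_bot_iff, ← h]
      exact le_inf le_sup_left hTM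
    have hN0 := strEmb_normalizer_le hodd hR0 hR0ne inf_le_right
    have hEq : (T ⊔ Q) ⊓ M = T ⊔ Q := pgroup_eq_of_normalizer hR inf_le_left
      (le_inf inf_le_left (inf_le_right.trans hN0))
    have hQM : Q ≤ M := by
      have : T ⊔ Q ≤ M := by rw [← hEq]; exact inf_le_right
      exact le_sup_right.trans this
    exact strEmb_normalizer_le hodd hQ2 hQ1 hQM
  · intro hemp
    obtain ⟨Q₁, hQ₁2, hQ₁ne, hMeq⟩ := hM
    have hQ₁M : Q₁ ≤ M := hMeq ▸ Subgroup.le_normalizer
    refine ⟨?_, ?_, ?_⟩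
    · intro htop
      apply hQ₁ne
      have hnorm : Q₁.Normal := by
        rw [← Subgroup.normalizer_eq_top_iff, ← hMeq]; exact htop
      rw [eq_bot_iff, ← hO]
      exact le_sSup ⟨hnorm, hQ₁2⟩
    · obtain ⟨n, hn⟩ := hQ₁2.exists_card_eq
      have hn0 : n ≠ 0 := by
        rintro rfl
        rw [pow_zero] at hn
        exact hQ₁ne (Subgroup.card_eq_one.mp hn)
      have h2 : 2 ∣ Nat.card Q₁ := by rw [hn]; exact dvd_pow_self 2 hn0
      exact even_iff_two_dvd.mpr (h2.trans (Subgroup.card_dvd_of_le hQ₁M))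
    · intro g hg
      by_contra hnodd
      have heven : 2 ∣ Nat.card ↥(M ⊓ M.map (MulAut.conj g).toMonoidHom) :=
        even_iff_two_dvd.mp (Nat.not_odd_iff_even.mp hnodd)
      obtain ⟨t, ht⟩ := exists_prime_orderOf_dvd_card' 2 heven
      have htM : (t : G) ∈ M := t.2.1
      have htMg : (t : G) ∈ M.map (MulAut.conj g).toMonoidHom := t.2.2
      have hto : orderOf (t : G) = 2 := by rw [Subgroup.orderOf_coe]; exact ht
      have hT2 : IsPGroup 2 ↥(Subgroup.zpowers (t : G)) := by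
        apply IsPGroup.of_card (n := 1)
        rw [Nat.card_zpowers, hto, pow_one]
      have hT1 : Subgroup.zpowers (t : G) ≠ ⊥ := by
        intro h
        rw [Subgroup.zpowers_eq_bot] at h
        rw [h, orderOf_one] at hto
        omega
      have hL : Cfsg.IsTwoLocal (M.map (MulAut.conj g).toMonoidHom) := by
        refine ⟨Q₁.map (MulAut.conj g).toMonoidHom, hQ₁2.map _, ?_, ?_⟩
        · intro h
          rw [Subgroup.map_eq_bot_iff_of_injective _ (MulAut.conj g).injective] at h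
          exact hQ₁ne h
        · rw [hMeq]
          exact Subgroup.map_equiv_normalizer_eq Q₁ (MulAut.conj g)
      have hLM : M.map (MulAut.conj g).toMonoidHom ≤ M := by
        by_contra hLM
        have hmem : Subgroup.zpowers (t : G) ∈ Cfsg.straddlingTwoSubgroups M :=
          ⟨hT2, hT1, (Subgroup.zpowers_le).mpr htM, _, hL, (Subgroup.zpowers_le).mpr htMg, hLM⟩
        rw [hemp] at hmem
        exact hmem
      have hSM : (S : Subgroup G) ≤ M :=
        (Subgroup.le_normalizer.trans (normalizer_le_normalizer_thompsonOf 2 (S : Subgroup G))).trans hMJ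
      have hSgM : ∀ s ∈ (S : Subgroup G), g * s * g⁻¹ ∈ M := fun s hs =>
        hLM ⟨s, hSM hs, by simp⟩
      have hP2 : IsPGroup 2 (((S : Subgroup G).map (MulAut.conj g).toMonoidHom).subgroupOf M) :=
        (S.isPGroup'.map _).comap_subtype
      obtain ⟨Q', hQ'⟩ := hP2.exists_le_sylow
      obtain ⟨y, hy⟩ := MulAction.exists_smul_eq M (S.subtype hSM) Q'
      apply hg
      have hyg : (y : G)⁻¹ * g ∈ Subgroup.normalizer ((S : Subgroup G) : Set G) := by
        apply mem_normalizer_of_conj_mem_h3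
        intro s hs
        have h1 : (⟨g * s * g⁻¹, hSgM s hs⟩ : M) ∈ Q' := by
          apply hQ'
          rw [Subgroup.mem_subgroupOf]
          exact ⟨s, hs, by simp⟩
        have h2 : y⁻¹ * (⟨g * s * g⁻¹, hSgM s hs⟩ : M) * y ∈ S.subtype hSM := by
          rw [sylow_smul_mem_iff hy]
          have : y * (y⁻¹ * (⟨g * s * g⁻¹, hSgM s hs⟩ : M) * y) * y⁻¹ = ⟨g * s * g⁻¹, hSgM s hs⟩ := by
            group
          rw [this]; exact h1
        have h3 : ((y⁻¹ * (⟨g * s * g⁻¹, hSgM s hs⟩ : M) * y : M) : G) ∈ (S : Subgroup G) := by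
          have : y⁻¹ * (⟨g * s * g⁻¹, hSgM s hs⟩ : M) * y ∈ (S : Subgroup G).subgroupOf M := h2
          rw [Subgroup.mem_subgroupOf] at this
          exact this
        have h4 : ((y⁻¹ * (⟨g * s * g⁻¹, hSgM s hs⟩ : M) * y : M) : G) =
            (y : G)⁻¹ * g * s * ((y : G)⁻¹ * g)⁻¹ := by
          simp only [Subgroup.coe_mul, Subgroup.coe_inv]
          group
        rw [h4] at h3
        exact h3
      have h5 : (y : G)⁻¹ * g ∈ M :=
        hMJ (normalizer_le_normalizer_thompsonOf 2 (S : Subgroup G) hyg)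
      have h6 : (y : G) * ((y : G)⁻¹ * g) ∈ M := M.mul_mem y.2 h5
      simpa using h6

end Cfsg.Agent.Lib.helper3
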