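import Mathlib
import Cfsg.Agent.Lib.helper3.Conj
import Cfsg.Agent.Lib.helper3.Normalizer
import Cfsg.Agent.Lib.helper20.ZipperFamily

set_option autoImplicit false
set_option linter.style.haveILetI false

namespace Cfsg.Agent.Lib.helper3

universe u

open Pointwise

theorem conj_mul_smul3 {G : Type u} [Group G] (a g : G) (H : Subgroup G) :
    MulAut.conj (a * g) • H = MulAut.conj a • MulAut.conj g • H := by
  rw [map_mul, mul_smul]

theorem matsuyama {G : Type u} [Group G] [Finite G] (p : ℕ) [Fact p.Prime] (Z Y : Subgroup G)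
    (h : ∀ g : G, IsPGroup p ↥(⨆ y ∈ Y, MulAut.conj (y * g) • Z)) :
    ∃ P : Sylow p G, Y ≤ Subgroup.normalizer
      ((⨆ g ∈ {g : G | MulAut.conj g • Z ≤ (P : Subgroup G)}, MulAut.conj g • Z : Subgroup G) :
        Set G) := by
  classical
  let Sg : Sylow p G → Set (Subgroup G) :=
    fun P => {B | (∃ g : G, B = MulAut.conj g • Z) ∧ B ≤ (P : Subgroup G)}
  let SY : Sylow p G → Set (Subgroup G) :=
    fun P => {B | (∃ g : G, B = MulAut.conj g • Z) ∧ ∀ y ∈ Y, MulAut.conj y • B ≤ (P : Subgroup G)}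
  have hsub : ∀ P, SY P ⊆ Sg P := by
    rintro P B ⟨hB1, hB2⟩
    refine ⟨hB1, ?_⟩
    have := hB2 1 Y.one_mem
    simpa using this
  -- Y permutes SY P
  have hYperm : ∀ P, ∀ B ∈ SY P, ∀ y ∈ Y, MulAut.conj y • B ∈ SY P := by
    rintro P B ⟨⟨g, rfl⟩, hB2⟩ y hy
    refine ⟨⟨y * g, (conj_mul_smul3 y g Z).symm⟩, fun y' hy' => ?_⟩
    rw [← conj_mul_smul3]
    exact hB2 (y' * y) (Y.mul_mem hy' hy)
  obtain ⟨P, hPmax⟩ := Finite.exists_max (fun P : Sylow p G => (SY P).ncard)
  have heq : SY P = Sg P := by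
    by_contra hne
    have hss : SY P ⊂ Sg P := Set.ssubset_iff_subset_ne.mpr ⟨hsub P, hne⟩
    haveI : Group.IsNilpotent (P : Subgroup G) := P.isPGroup'.isNilpotent
    obtain ⟨X, hXS, hXS₀, hXN⟩ := Cfsg.Agent.Lib.helper20.exists_normalizes_sSup_rel
      (P : Subgroup G) (Sg P) (SY P)
      (fun U hU => ⟨hU.2, Cfsg.Agent.Lib.helper20.subnormal_of_isNilpotent _⟩)
      (by
        rintro U ⟨⟨g₀, rfl⟩, hU2⟩ g hg
        refine ⟨⟨g * g₀, (conj_mul_smul3 g g₀ Z).symm⟩, ?_⟩
        rw [Cfsg.Agent.Lib.helper20.conj_smul_le_iff]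
        intro s hs
        exact Subgroup.mul_mem _ (Subgroup.mul_mem _ hg (hU2 hs)) (Subgroup.inv_mem _ hg))
      hss
    set P₀ := sSup (SY P) with hP₀
    have hP₀P : P₀ ≤ (P : Subgroup G) := sSup_le (fun B hB => (hsub P hB).2)
    have hYN : Y ≤ Subgroup.normalizer (P₀ : Set G) := by
      apply le_normalizer_of_conj_mem
      intro y hy a ha
      have hle : P₀ ≤ P₀.comap (MulAut.conj y).toMonoidHom := by
        apply sSup_le
        intro B hB b hb
        rw [Subgroup.mem_comap]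
        simp only [MulEquiv.coe_toMonoidHom, MulAut.conj_apply]
        exact (le_sSup (hYperm P B hB y hy)) (conj_mem_conj_smul.mpr hb)
      have := hle ha
      rw [Subgroup.mem_comap] at this
      simpa using this
    obtain ⟨⟨g₁, hXg₁⟩, hXP⟩ := hXS
    set R := ⨆ y ∈ Y, MulAut.conj y • X with hR
    have hRp : IsPGroup p R := by
      have e : R = ⨆ y ∈ Y, MulAut.conj (y * g₁) • Z := by
        rw [hR]
        congr 1
        funext y
        congr 1
        funext _
        rw [hXg₁, conj_mul_smul3]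
      rw [e]
      exact h g₁
    have hRN : R ≤ Subgroup.normalizer (P₀ : Set G) := by
      apply iSup₂_le
      intro y hy
      rw [Cfsg.Agent.Lib.helper20.conj_smul_le_iff]
      intro s hs
      exact Subgroup.mul_mem _ (Subgroup.mul_mem _ (hYN hy) (hXN hs)) (Subgroup.inv_mem _ (hYN hy))
    have hP₀p : IsPGroup p P₀ := P.isPGroup'.to_le hP₀P
    have hsupp : IsPGroup p (P₀ ⊔ R : Subgroup G) := IsPGroup.to_sup_of_normal_left' hP₀p hRp hRN
    obtain ⟨Q, hQ⟩ := hsupp.exists_le_sylow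
    have hsubQ : SY P ⊆ SY Q := by
      rintro B hB
      refine ⟨hB.1, fun y hy => ?_⟩
      exact (le_sSup (hYperm P B hB y hy)).trans (le_sup_left.trans hQ)
    have hXQ : X ∈ SY Q := by
      refine ⟨⟨g₁, hXg₁⟩, fun y hy => ?_⟩
      exact (le_iSup₂ (f := fun y (_ : y ∈ Y) => MulAut.conj y • X) y hy).trans
        (le_sup_right.trans hQ)
    have hssQ : SY P ⊂ SY Q := by
      refine ⟨hsubQ, fun hrev => hXS₀ (hrev hXQ)⟩
    have := Set.ncard_lt_ncard hssQ (Set.toFinite _)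
    exact absurd (hPmax Q) (not_le.mpr this)
  refine ⟨P, ?_⟩
  apply le_normalizer_of_conj_mem
  intro y hy a ha
  have hle : (⨆ g ∈ {g : G | MulAut.conj g • Z ≤ (P : Subgroup G)}, MulAut.conj g • Z) ≤
      (⨆ g ∈ {g : G | MulAut.conj g • Z ≤ (P : Subgroup G)}, MulAut.conj g • Z).comap
        (MulAut.conj y).toMonoidHom := by
    apply iSup₂_le
    intro g hg b hb
    rw [Subgroup.mem_comap]
    simp only [MulEquiv.coe_toMonoidHom, MulAut.conj_apply]
    have hmem : MulAut.conj g • Z ∈ SY P := by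
      rw [heq]; exact ⟨⟨g, rfl⟩, hg⟩
    have hyg : MulAut.conj (y * g) • Z ≤ (P : Subgroup G) := by
      rw [conj_mul_smul3]; exact hmem.2 y hy
    have hb' : y * b * y⁻¹ ∈ MulAut.conj (y * g) • Z := by
      rw [conj_mul_smul3]; exact conj_mem_conj_smul.mpr hb
    exact (le_iSup₂ (f := fun g (_ : g ∈ {g : G | MulAut.conj g • Z ≤ (P : Subgroup G)}) =>
      MulAut.conj g • Z) (y * g) hyg) hb'
  have := hle ha
  rw [Subgroup.mem_comap] at this
  simpa using this

end Cfsg.Agent.Lib.helper3
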