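import Mathlib
import Cfsg.Agent.Lib.helper3.KTransSupport
import Cfsg.Agent.Lib.helper3.Conj

/-!
# Tools for Miller's theorem on `(r + 1)`-transitive groups of degree `k p + r` (S4220)
-/

set_option autoImplicit false
set_option linter.style.haveILetI false

namespace Cfsg.Agent.Lib.helper3.Miller

open Equiv Equiv.Perm

universe u

section Tools

variable {α : Type u} [Fintype α] [DecidableEq α]

/-- `g` induces the permutation `σ` on `F`. -/
def Ind (F : Finset α) (g : Perm α) (σ : Perm F) : Prop := ∀ a : F, g a = σ a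

theorem Ind.mul {F : Finset α} {g h : Perm α} {σ τ : Perm F} (hg : Ind F g σ) (hh : Ind F h τ) :
    Ind F (g * h) (σ * τ) := by
  intro a
  rw [Perm.mul_apply, Perm.mul_apply, hh a, hg (τ a)]

theorem Ind.inv {F : Finset α} {g : Perm α} {σ : Perm F} (hg : Ind F g σ) : Ind F g⁻¹ σ⁻¹ := by
  intro a
  have h := hg (σ⁻¹ a)
  rw [perm_apply_inv] at h
  exact Perm.inv_eq_iff_eq.mpr h.symm

theorem Ind.one (F : Finset α) : Ind F (1 : Perm α) (1 : Perm F) := fun _ => rfl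

theorem Ind.pow {F : Finset α} {g : Perm α} {σ : Perm F} (hg : Ind F g σ) (n : ℕ) :
    Ind F (g ^ n) (σ ^ n) := by
  induction n with
  | zero => rw [pow_zero, pow_zero]; exact Ind.one F
  | succ n ih => rw [pow_succ, pow_succ]; exact ih.mul hg

theorem Ind.unique {F : Finset α} {g : Perm α} {σ τ : Perm F} (hσ : Ind F g σ)
    (hτ : Ind F g τ) : σ = τ := by
  apply Equiv.ext
  intro a
  apply Subtype.ext
  exact (hσ a).symm.trans (hτ a)

theorem exists_ind {F : Finset α} {g : Perm α} (hg : ∀ a, g a ∈ F ↔ a ∈ F) :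
    ∃ σ : Perm F, Ind F g σ :=
  ⟨g.subtypePerm hg, fun _ => rfl⟩

/-- Pointwise stabilizer in `G` of a finite set. -/
def fixG (G : Subgroup (Perm α)) (S : Finset α) : Subgroup (Perm α) where
  carrier := {g | g ∈ G ∧ ∀ a ∈ S, g a = a}
  one_mem' := ⟨G.one_mem, fun _ _ => rfl⟩
  mul_mem' := by
    rintro g h ⟨hg, hg'⟩ ⟨hh, hh'⟩
    exact ⟨G.mul_mem hg hh, fun a ha => by rw [Perm.mul_apply, hh' a ha, hg' a ha]⟩
  inv_mem' := by
    rintro g ⟨hg, hg'⟩
    exact ⟨G.inv_mem hg, fun a ha => Perm.inv_eq_iff_eq.mpr (hg' a ha).symm⟩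

theorem mem_fixG {G : Subgroup (Perm α)} {S : Finset α} {g : Perm α} :
    g ∈ fixG G S ↔ g ∈ G ∧ ∀ a ∈ S, g a = a := Iff.rfl

theorem fixG_le (G : Subgroup (Perm α)) (S : Finset α) : fixG G S ≤ G := fun _ h => h.1

/-! ### The kernel of the action on cycles -/

/-- Elements of the centralizer of `x` fixing every cycle of `x`. -/
def Kx (x : Perm α) : Subgroup (Perm α) := (OnCycleFactors.kerParam x).range

theorem Kx_pow_apply {x : Perm α} {p : ℕ} (hx : orderOf x = p) {g : Perm α}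
    (hg : g ∈ Kx x) {a : α} (ha : x a ≠ a) : (g ^ p) a = a := by
  obtain ⟨⟨u, v⟩, rfl⟩ := hg
  rw [← map_pow, Prod.pow_mk]
  have hv : v ^ p = 1 := by
    funext c
    apply Subtype.ext
    show ((v c : Perm α)) ^ p = 1
    obtain ⟨i, hi⟩ := Subgroup.mem_zpowers_iff.mp (v c).2
    have hc : (c : Perm α) ^ p = 1 := by
      have hcyc := (Perm.mem_cycleFactorsFinset_iff.mp c.2).1
      have hdvd : orderOf (c : Perm α) ∣ p := by
        rw [← hx, hcyc.orderOf]
        exact Perm.dvd_of_mem_cycleType (by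
          rw [Perm.cycleType_def]; exact Multiset.mem_map_of_mem _ c.2)
      exact orderOf_dvd_iff_pow_eq_one.mp hdvd
    rw [← hi, ← zpow_natCast, zpow_comm, zpow_natCast, hc, one_zpow]
  rw [hv, OnCycleFactors.kerParam_apply]
  have hmem : x.cycleOf a ∈ x.cycleFactorsFinset := by
    rw [Perm.cycleOf_mem_cycleFactorsFinset_iff, Perm.mem_support]; exact ha
  rw [dif_pos hmem]
  rfl

open Classical in
/-- The cycle-permutation map, extended by `1` outside the centralizer. -/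
noncomputable def fx (x : Perm α) (g : Perm α) : Perm x.cycleFactorsFinset :=
  if h : g ∈ Subgroup.centralizer {x} then OnCycleFactors.toPermHom x ⟨g, h⟩ else 1

theorem fx_eq {x : Perm α} {a b : Perm α} (ha : a ∈ Subgroup.centralizer {x})
    (hb : b ∈ Subgroup.centralizer {x}) (h : fx x a = fx x b) : a⁻¹ * b ∈ Kx x := by
  rw [fx, fx, dif_pos ha, dif_pos hb] at h
  rw [Kx, OnCycleFactors.kerParam_range_eq, Subgroup.mem_map]
  refine ⟨⟨a, ha⟩⁻¹ * ⟨b, hb⟩, ?_, rfl⟩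
  rw [MonoidHom.mem_ker, map_mul, map_inv, h, inv_mul_cancel]

theorem card_fx_le {x : Perm α} {p : ℕ} (hp : p.Prime) (hx : orderOf x = p) {m : ℕ}
    (hm : x.support.card ≤ m * p) :
    Fintype.card (Perm x.cycleFactorsFinset) ≤ m.factorial := by
  rw [Fintype.card_perm, Fintype.card_coe]
  apply Nat.factorial_le
  obtain ⟨j, hj⟩ := Perm.cycleType_prime_order (σ := x) (by rw [hx]; exact hp)
  rw [hx] at hj
  have h0 : Multiset.card x.cycleType = x.cycleFactorsFinset.card := by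
    rw [Perm.cycleType_def, Multiset.card_map]; rfl
  have h1 : x.cycleFactorsFinset.card = j + 1 := by
    rw [← h0, hj, Multiset.card_replicate]
  have h2 : x.support.card = (j + 1) * p := by
    rw [← Perm.sum_cycleType, hj, Multiset.sum_replicate, smul_eq_mul]
  rw [h1]
  rw [h2] at hm
  exact Nat.le_of_mul_le_mul_right hm hp.pos

theorem Kx_conj {x : Perm α} {g l : Perm α} (hg : g ∈ Subgroup.centralizer {x})
    (hl : l ∈ Kx x) : g * l * g⁻¹ ∈ Kx x := by
  rw [Kx, OnCycleFactors.kerParam_range_eq, Subgroup.mem_map] at hl ⊢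
  obtain ⟨l', hl', rfl⟩ := hl
  refine ⟨⟨g, hg⟩ * l' * ⟨g, hg⟩⁻¹, ?_, rfl⟩
  exact (MonoidHom.normal_ker _).conj_mem l' hl' ⟨g, hg⟩

/-! ### Pigeonhole and simplicity -/

theorem pigeon (F : Finset α) (J L : Subgroup (Perm α)) {Z : Type*} [Fintype Z]
    (f : Perm α → Z) (hf : ∀ a ∈ J, ∀ b ∈ J, f a = f b → a⁻¹ * b ∈ L)
    (hA : ∀ σ ∈ alternatingGroup F, ∃ g ∈ J, Ind F g σ)
    (hcard : Fintype.card Z < Nat.card (alternatingGroup F)) :
    ∃ g ∈ J ⊓ L, ∃ σ ∈ alternatingGroup F, σ ≠ 1 ∧ Ind F g σ := by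
  classical
  choose! lift hliftJ hliftInd using hA
  have hlt : Fintype.card Z < Fintype.card (alternatingGroup F) := by
    rwa [Nat.card_eq_fintype_card] at hcard
  obtain ⟨σ, τ, hne, heq⟩ := Fintype.exists_ne_map_eq_of_card_lt
    (fun σ : alternatingGroup F => f (lift σ)) hlt
  refine ⟨(lift σ)⁻¹ * lift τ, ⟨J.mul_mem (J.inv_mem (hliftJ σ σ.2)) (hliftJ τ τ.2),
    hf _ (hliftJ σ σ.2) _ (hliftJ τ τ.2) heq⟩, (σ : Perm F)⁻¹ * τ, ?_, ?_, ?_⟩
  · exact (alternatingGroup F).mul_mem ((alternatingGroup F).inv_mem σ.2) τ.2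
  · intro h
    apply hne
    apply Subtype.ext
    exact inv_mul_eq_one.mp h
  · exact (hliftInd σ σ.2).inv.mul (hliftInd τ τ.2)

theorem simple_normal (F : Finset α) (hF : 5 ≤ F.card) (J₀ J₁ : Subgroup (Perm α))
    (hnorm : ∀ g ∈ J₀, ∀ l ∈ J₁, g * l * g⁻¹ ∈ J₁)
    (hA : ∀ σ ∈ alternatingGroup F, ∃ g ∈ J₀, Ind F g σ)
    (hne : ∃ g ∈ J₁, ∃ σ ∈ alternatingGroup F, σ ≠ 1 ∧ Ind F g σ) :
    ∀ σ ∈ alternatingGroup F, ∃ g ∈ J₁, Ind F g σ := by
  haveI : IsSimpleGroup (alternatingGroup F) := alternatingGroup.isSimpleGroup (by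
    rw [Nat.card_eq_fintype_card, Fintype.card_coe]; exact hF)
  let M : Subgroup (alternatingGroup F) :=
    { carrier := {σ | ∃ g ∈ J₁, Ind F g (σ : Perm F)}
      one_mem' := ⟨1, Subgroup.one_mem _, Ind.one F⟩
      mul_mem' := by
        rintro σ τ ⟨g, hg, hgi⟩ ⟨h, hh, hhi⟩
        exact ⟨g * h, Subgroup.mul_mem _ hg hh, hgi.mul hhi⟩
      inv_mem' := by
        rintro σ ⟨g, hg, hgi⟩
        exact ⟨g⁻¹, Subgroup.inv_mem _ hg, hgi.inv⟩ }
  have hMn : M.Normal := by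
    constructor
    rintro σ ⟨l, hl, hli⟩ τ
    obtain ⟨g, hg, hgi⟩ := hA τ τ.2
    exact ⟨g * l * g⁻¹, hnorm g hg l hl, (hgi.mul hli).mul hgi.inv⟩
  have hMne : M ≠ ⊥ := by
    obtain ⟨g, hg, σ, hσ, hσ1, hgi⟩ := hne
    intro hbot
    have hmem : (⟨σ, hσ⟩ : alternatingGroup F) ∈ M := ⟨g, hg, hgi⟩
    rw [hbot, Subgroup.mem_bot] at hmem
    exact hσ1 (congrArg Subtype.val hmem)
  have hMtop : M = ⊤ := (hMn.eq_bot_or_eq_top).resolve_left hMne
  intro σ hσ
  have hmem : (⟨σ, hσ⟩ : alternatingGroup F) ∈ M := by rw [hMtop]; exact Subgroup.mem_top _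
  exact hmem

theorem simple_step (F : Finset α) (hF : 5 ≤ F.card) (J L : Subgroup (Perm α)) {Z : Type*}
    [Fintype Z] (f : Perm α → Z) (hf : ∀ a ∈ J, ∀ b ∈ J, f a = f b → a⁻¹ * b ∈ L)
    (hnorm : ∀ g ∈ J, ∀ l ∈ L, g * l * g⁻¹ ∈ L)
    (hA : ∀ σ ∈ alternatingGroup F, ∃ g ∈ J, Ind F g σ)
    (hcard : Fintype.card Z < Nat.card (alternatingGroup F)) :
    ∀ σ ∈ alternatingGroup F, ∃ g ∈ J ⊓ L, Ind F g σ :=
  simple_normal F hF J (J ⊓ L)
    (fun g hg l hl => ⟨J.mul_mem (J.mul_mem hg hl.1) (J.inv_mem hg), hnorm g hg l hl.2⟩) hA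
    (pigeon F J L f hf hA hcard)

theorem iterate_step (F : Finset α) (hF : 5 ≤ F.card) (p : ℕ) (hp : p.Prime) (m : ℕ)
    (hm : m.factorial < Nat.card (alternatingGroup F)) (X : Finset (Perm α)) :
    ∀ J : Subgroup (Perm α),
    (∀ x ∈ X, orderOf x = p ∧ x.support.card ≤ m * p ∧ J ≤ Subgroup.centralizer {x}) →
    (∀ σ ∈ alternatingGroup F, ∃ g ∈ J, Ind F g σ) →
    ∀ σ ∈ alternatingGroup F, ∃ g ∈ J, (∀ x ∈ X, g ∈ Kx x) ∧ Ind F g σ := by
  classical
  induction X using Finset.induction_on with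
  | empty =>
    intro J _ hA σ hσ
    obtain ⟨g, hg, hgi⟩ := hA σ hσ
    exact ⟨g, hg, fun x hx => by simp at hx, hgi⟩
  | insert y X hy ih =>
    intro J hX hA σ hσ
    obtain ⟨hyo, hys, hyc⟩ := hX y (Finset.mem_insert_self y X)
    have hA' : ∀ σ ∈ alternatingGroup F, ∃ g ∈ J ⊓ Kx y, Ind F g σ :=
      simple_step F hF J (Kx y) (fx y)
        (fun a ha b hb h => fx_eq (hyc ha) (hyc hb) h)
        (fun g hg l hl => Kx_conj (hyc hg) hl)
        hA (lt_of_le_of_lt (card_fx_le hp hyo hys) hm)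
    obtain ⟨g, hg, hgK, hgi⟩ := ih (J ⊓ Kx y)
      (fun x hx => ⟨(hX x (Finset.mem_insert_of_mem hx)).1,
        (hX x (Finset.mem_insert_of_mem hx)).2.1,
        inf_le_left.trans (hX x (Finset.mem_insert_of_mem hx)).2.2⟩) hA' σ hσ
    refine ⟨g, hg.1, ?_, hgi⟩
    intro x hx
    rcases Finset.mem_insert.mp hx with rfl | hx'
    · exact hg.2
    · exact hgK x hx'

/-! ### Finishing -/

theorem finish_support (F : Finset α) {g : Perm α} {σ : Perm F}
    (hfix : ∀ a, a ∉ F → g a = a) (hgi : Ind F g σ) : g.support.card ≤ σ.support.card := by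
  have hsub : g.support ⊆ σ.support.map (Function.Embedding.subtype _) := by
    intro a ha
    rw [Perm.mem_support] at ha
    by_cases haF : a ∈ F
    · rw [Finset.mem_map]
      refine ⟨⟨a, haF⟩, ?_, rfl⟩
      rw [Perm.mem_support]
      intro h
      apply ha
      have h2 := hgi ⟨a, haF⟩
      rw [h] at h2
      exact h2
    · exact absurd (hfix a haF) ha
  calc g.support.card ≤ (σ.support.map (Function.Embedding.subtype _)).card :=
        Finset.card_le_card hsub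
    _ = σ.support.card := Finset.card_map _

theorem finish (G : Subgroup (Perm α)) {r : ℕ} (hr3 : 3 ≤ r) (hcard : r + 1 ≤ Fintype.card α)
    (hG : MulAction.IsMultiplyPretransitive G α (r + 1)) (F : Finset α) (g : Perm α)
    (hg : g ∈ G) (σ : Perm F) (hfix : ∀ a, a ∉ F → g a = a) (hgi : Ind F g σ) (hσ1 : σ ≠ 1)
    (hσc : σ.support.card < 2 * r) : alternatingGroup α ≤ G := by
  have hg1 : g ≠ 1 := by
    rintro rfl
    exact hσ1 (Ind.unique hgi (Ind.one F))
  have hs := finish_support F hfix hgi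
  exact (ktrans_alternating_le G (k := r + 1) (by omega) hcard hG g hg hg1 (by omega)).2

theorem exists_dt (F : Finset α) (hF : 4 ≤ F.card) {p : ℕ} (hp : Odd p) :
    ∃ σ : Perm F, σ ∈ alternatingGroup F ∧ σ ^ p ≠ 1 ∧ (σ ^ p).support.card ≤ 4 := by
  have hcard : Fintype.card (Fin 4) ≤ Fintype.card F := by
    rw [Fintype.card_fin, Fintype.card_coe]; exact hF
  obtain ⟨e⟩ := Function.Embedding.nonempty_of_card_le hcard
  have hne : ∀ i j : Fin 4, i ≠ j → e i ≠ e j := fun i j hij h => hij (e.injective h)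
  obtain ⟨a, ha⟩ : ∃ a, a = e 0 := ⟨_, rfl⟩
  obtain ⟨b, hb⟩ : ∃ b, b = e 1 := ⟨_, rfl⟩
  obtain ⟨c, hc⟩ : ∃ c, c = e 2 := ⟨_, rfl⟩
  obtain ⟨d, hd⟩ : ∃ d, d = e 3 := ⟨_, rfl⟩
  have hab : a ≠ b := by rw [ha, hb]; exact hne 0 1 (by decide)
  have hac : a ≠ c := by rw [ha, hc]; exact hne 0 2 (by decide)
  have had : a ≠ d := by rw [ha, hd]; exact hne 0 3 (by decide)
  have hbc : b ≠ c := by rw [hb, hc]; exact hne 1 2 (by decide)
  have hbd : b ≠ d := by rw [hb, hd]; exact hne 1 3 (by decide)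
  have hcd : c ≠ d := by rw [hc, hd]; exact hne 2 3 (by decide)
  refine ⟨swap a b * swap c d, ?_, ?_, ?_⟩
  · rw [Perm.mem_alternatingGroup, map_mul, Perm.sign_swap hab, Perm.sign_swap hcd]
    decide
  · have h1 : (swap a b * swap c d) a = b := by
      rw [Perm.mul_apply, swap_apply_of_ne_of_ne hac had, swap_apply_left]
    have h2 : (swap a b * swap c d) b = a := by
      rw [Perm.mul_apply, swap_apply_of_ne_of_ne hbc hbd, swap_apply_right]
    have h3 : ∀ j : ℕ, ((swap a b * swap c d) ^ (2 * j)) a = a := by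
      intro j
      induction j with
      | zero => simp
      | succ j ih =>
        have e2 : 2 * (j + 1) = 2 * j + 1 + 1 := by ring
        rw [e2, pow_succ, pow_succ, Perm.mul_apply, Perm.mul_apply, h1, h2, ih]
    obtain ⟨j, rfl⟩ := hp
    intro h
    have h4 : ((swap a b * swap c d) ^ (2 * j + 1)) a = b := by
      rw [pow_succ', Perm.mul_apply, h3 j, h1]
    rw [h, Perm.one_apply] at h4
    exact hab h4
  · calc ((swap a b * swap c d) ^ p).support.card ≤ (swap a b * swap c d).support.card :=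
          Finset.card_le_card (Perm.support_pow_le _ _)
      _ ≤ ((swap a b).support ∪ (swap c d).support).card :=
          Finset.card_le_card (Perm.support_mul_le _ _)
      _ ≤ (swap a b).support.card + (swap c d).support.card := Finset.card_union_le _ _
      _ = 4 := by
          rw [Perm.support_swap hab, Perm.support_swap hcd, Finset.card_pair hab,
            Finset.card_pair hcd]

/-! ### `p`-elements with small support -/

theorem order_eq_prime {p : ℕ} (hp : p.Prime) {x : Perm α} (hx1 : x ≠ 1) {j : ℕ}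
    (hj : orderOf x = p ^ j) (hs : x.support.card < p ^ 2) : orderOf x = p := by
  have hdvd : orderOf x ∣ p := by
    rw [← Perm.lcm_cycleType]
    apply Multiset.lcm_dvd.mpr
    intro c hc
    have h1 : c ∣ p ^ j := by rw [← hj]; exact Perm.dvd_of_mem_cycleType hc
    obtain ⟨i, hi, rfl⟩ := (Nat.dvd_prime_pow hp).mp h1
    have h2 : p ^ i ≤ x.support.card := Perm.le_card_support_of_mem_cycleType hc
    have h3 : i < 2 := by
      by_contra h
      push Not at h
      have := Nat.pow_le_pow_right hp.pos h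
      omega
    interval_cases i
    · simp
    · simp
  rcases (Nat.dvd_prime hp).mp hdvd with h | h
  · exact absurd (orderOf_eq_one_iff.mp h) hx1
  · exact h

theorem prime_card_comm {H : Type*} [Group H] {q : ℕ} [Fact q.Prime] (hc : Nat.card H = q)
    (a b : H) : a * b = b * a := by
  haveI : IsCyclic H := isCyclic_of_prime_card hc
  obtain ⟨g, hg⟩ := IsCyclic.exists_generator (α := H)
  obtain ⟨i, rfl⟩ := Subgroup.mem_zpowers_iff.mp (hg a)
  obtain ⟨j, rfl⟩ := Subgroup.mem_zpowers_iff.mp (hg b)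
  rw [← zpow_add, ← zpow_add, add_comm]

theorem pgroup_comm {q : ℕ} [Fact q.Prime] (S : Subgroup (Perm α)) (hS : IsPGroup q S)
    (horb : ∀ j : α, (MulAction.orbit S j).ncard < q ^ 2) (s t : Perm α)
    (hs : s ∈ S) (ht : t ∈ S) : s * t = t * s := by
  have hq : q.Prime := Fact.out
  have key : ∀ j : α, (s * t * s⁻¹ * t⁻¹) j = j := by
    intro j
    obtain ⟨H, hH⟩ : ∃ H : Subgroup S, H = MulAction.stabilizer S j := ⟨_, rfl⟩
    have hmem : (⟨s, hs⟩ * ⟨t, ht⟩ * ⟨s, hs⟩⁻¹ * ⟨t, ht⟩⁻¹ : S) ∈ H := by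
      obtain ⟨k, hk⟩ := hS.index H
      have hle : H.index < q ^ 2 := by
        rw [hH, MulAction.index_stabilizer]
        exact horb j
      have hk1 : k ≤ 1 := by
        by_contra hk2
        push Not at hk2
        have h2 : q ^ 2 ≤ q ^ k := Nat.pow_le_pow_right hq.pos hk2
        rw [hk] at hle
        exact absurd (lt_of_le_of_lt h2 hle) (lt_irrefl _)
      interval_cases k
      · rw [pow_zero] at hk
        rw [Subgroup.index_eq_one.mp hk]
        exact Subgroup.mem_top _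
      · rw [pow_one] at hk
        obtain ⟨m, hm⟩ := IsPGroup.iff_card.mp hS
        have hm0 : m ≠ 0 := by
          rintro rfl
          rw [pow_zero] at hm
          have hdvd : H.index ∣ Nat.card S := Subgroup.index_dvd_card H
          rw [hm, hk] at hdvd
          exact hq.one_lt.ne' (Nat.dvd_one.mp hdvd)
        haveI : H.Normal := Subgroup.normal_of_index_eq_minFac_card (by
          rw [hk, hm, Nat.pow_minFac hm0, hq.minFac_eq])
        have hc : Nat.card (S ⧸ H) = q := hk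
        have e := prime_card_comm hc (QuotientGroup.mk (⟨s, hs⟩ : S) : S ⧸ H)
          (QuotientGroup.mk (⟨t, ht⟩ : S) : S ⧸ H)
        rw [← QuotientGroup.eq_one_iff]
        simp only [QuotientGroup.mk_mul, QuotientGroup.mk_inv]
        rw [mul_inv_eq_one, mul_inv_eq_iff_eq_mul]
        exact e
    rw [hH] at hmem
    exact MulAction.mem_stabilizer_iff.mp hmem
  have h1 : s * t * s⁻¹ * t⁻¹ = 1 := Equiv.ext key
  calc s * t = (s * t * s⁻¹ * t⁻¹) * (t * s) := by group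
    _ = t * s := by rw [h1, one_mul]

/-! ### Sylow conjugacy and Witt's lemma -/

theorem sylow_conj (T : Subgroup (Perm α)) (p : ℕ) [Fact p.Prime] (n : ℕ)
    (hT : ∀ P : Sylow p T, Nat.card (P : Subgroup T) = p ^ n)
    (Q Q' : Subgroup (Perm α)) (hQ : Q ≤ T) (hQ' : Q' ≤ T) (hc : Nat.card Q = p ^ n)
    (hc' : Nat.card Q' = p ^ n) : ∃ s ∈ T, ∀ q ∈ Q', s * q * s⁻¹ ∈ Q := by
  have e1 : Nat.card (Q.subgroupOf T) = p ^ n := by
    rw [Nat.card_congr (Subgroup.subgroupOfEquivOfLe hQ).toEquiv, hc]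
  have e2 : Nat.card (Q'.subgroupOf T) = p ^ n := by
    rw [Nat.card_congr (Subgroup.subgroupOfEquivOfLe hQ').toEquiv, hc']
  obtain ⟨P, hP⟩ : ∃ P : Sylow p T, (P : Subgroup T) = Q.subgroupOf T := by
    obtain ⟨P, hle⟩ := (IsPGroup.of_card e1).exists_le_sylow
    exact ⟨P, (Subgroup.eq_of_le_of_card_ge hle (by rw [hT, e1])).symm⟩
  obtain ⟨P', hP'⟩ : ∃ P : Sylow p T, (P : Subgroup T) = Q'.subgroupOf T := by
    obtain ⟨P, hle⟩ := (IsPGroup.of_card e2).exists_le_sylow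
    exact ⟨P, (Subgroup.eq_of_le_of_card_ge hle (by rw [hT, e2])).symm⟩
  obtain ⟨s, hs⟩ := MulAction.exists_smul_eq T P' P
  refine ⟨(s : Perm α), s.2, ?_⟩
  intro q hq
  have h1 : (⟨q, hQ' hq⟩ : T) ∈ P' := by
    show (⟨q, hQ' hq⟩ : T) ∈ (P' : Subgroup T)
    rw [hP', Subgroup.mem_subgroupOf]; exact hq
  have h2 : s * (⟨q, hQ' hq⟩ : T) * s⁻¹ ∈ P := (sylow_smul_mem_iff hs).mp h1
  have h3 : s * (⟨q, hQ' hq⟩ : T) * s⁻¹ ∈ (P : Subgroup T) := h2
  rw [hP, Subgroup.mem_subgroupOf] at h3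
  exact h3

theorem witt (G : Subgroup (Perm α)) {t : ℕ} (hG : MulAction.IsMultiplyPretransitive G α t)
    (S : Finset α) (hS : S.card = t) (Q : Subgroup (Perm α))
    (hconj : ∀ g ∈ G, (∀ q ∈ Q, ∀ a ∈ S, (g⁻¹ * q * g) a = a) →
      ∃ s ∈ G, (∀ a ∈ S, s a = a) ∧ ∀ q ∈ Q, s * (g⁻¹ * q * g) * s⁻¹ ∈ Q)
    (u : S → α) (hu : Function.Injective u) (hufix : ∀ q ∈ Q, ∀ a : S, q (u a) = u a) :
    ∃ g ∈ G, g ∈ Subgroup.normalizer (Q : Set (Perm α)) ∧ ∀ a : S, g a = u a := by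
  haveI := hG
  have e : S ≃ Fin t := Fintype.equivFinOfCardEq (by rw [Fintype.card_coe, hS])
  obtain ⟨x, hx⟩ : ∃ x : Fin t ↪ α, ∀ i, x i = ((e.symm i : S) : α) :=
    ⟨⟨fun i => ((e.symm i : S) : α), fun i j h => e.symm.injective (Subtype.ext h)⟩,
      fun _ => rfl⟩
  obtain ⟨y, hy⟩ : ∃ y : Fin t ↪ α, ∀ i, y i = u (e.symm i) :=
    ⟨⟨fun i => u (e.symm i), fun i j h => e.symm.injective (hu h)⟩, fun _ => rfl⟩
  obtain ⟨g0, hg0⟩ := MulAction.exists_smul_eq G x y
  have hg0' : ∀ a (ha : a ∈ S), (g0 : Perm α) a = u ⟨a, ha⟩ := by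
    intro a ha
    have h : (g0 : Perm α) (x (e ⟨a, ha⟩)) = y (e ⟨a, ha⟩) := DFunLike.congr_fun hg0 (e ⟨a, ha⟩)
    rw [hx, hy, e.symm_apply_apply] at h
    exact h
  have hfixS : ∀ q ∈ Q, ∀ a ∈ S, ((g0 : Perm α)⁻¹ * q * g0) a = a := by
    intro q hq a ha
    rw [Perm.mul_apply, Perm.mul_apply, hg0' a ha, hufix q hq ⟨a, ha⟩, ← hg0' a ha,
      perm_inv_apply]
  obtain ⟨s, hsG, hsS, hsQ⟩ := hconj (g0 : Perm α) g0.2 hfixS
  refine ⟨(g0 : Perm α) * s⁻¹, G.mul_mem g0.2 (G.inv_mem hsG), ?_, ?_⟩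
  · have hinv : ((g0 : Perm α) * s⁻¹)⁻¹ ∈ Subgroup.normalizer (Q : Set (Perm α)) := by
      apply Subgroup.mem_normalizer_fintype
      intro q hq
      have h := hsQ q hq
      have e2 : ((g0 : Perm α) * s⁻¹)⁻¹ * q * ((g0 : Perm α) * s⁻¹)⁻¹⁻¹ =
          s * ((g0 : Perm α)⁻¹ * q * g0) * s⁻¹ := by group
      rw [e2]; exact h
    have h := Subgroup.inv_mem _ hinv
    rwa [inv_inv] at h
  · intro a
    rw [Perm.mul_apply, Perm.inv_eq_iff_eq.mpr (hsS a a.2).symm]
    exact hg0' a a.2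

/-- Orbit–stabilizer for the pointwise stabilizer of `Γ` acting on the complement. -/
theorem card_fixG_insert (G : Subgroup (Perm α)) {r : ℕ}
    (hG : MulAction.IsMultiplyPretransitive G α (r + 1)) (Γ : Finset α) (hΓ : Γ.card = r)
    {δ : α} (hδ : δ ∉ Γ) :
    Nat.card (fixG G Γ) = Nat.card (fixG G (insert δ Γ)) * (Fintype.card α - r) := by
  have h1 := Subgroup.card_mul_index (MulAction.stabilizer (fixG G Γ) δ)
  rw [MulAction.index_stabilizer] at h1
  have h2 : (MulAction.orbit (fixG G Γ) δ) = ((Γᶜ : Finset α) : Set α) := by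
    ext a
    rw [MulAction.mem_orbit_iff, Finset.mem_coe, Finset.mem_compl]
    constructor
    · rintro ⟨t, rfl⟩ ha
      have ha' : (t : Perm α) δ ∈ Γ := ha
      have ht : (t : Perm α) ((t : Perm α) δ) = (t : Perm α) δ := (mem_fixG.mp t.2).2 _ ha'
      have h3 : (t : Perm α) δ = δ := (t : Perm α).injective ht
      rw [h3] at ha'
      exact hδ ha'
    · intro ha
      obtain ⟨t, htG, htΓ, htδ⟩ := exists_fix_map G hG Γ hΓ hδ ha
      exact ⟨⟨t, mem_fixG.mpr ⟨htG, htΓ⟩⟩, htδ⟩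
  rw [h2, Set.ncard_coe_finset, Finset.card_compl, hΓ] at h1
  rw [← h1]
  congr 1
  exact (Nat.card_congr
    { toFun := fun g => ⟨((g : fixG G Γ) : Perm α), mem_fixG.mpr ⟨(mem_fixG.mp (g : fixG G Γ).2).1,
        fun a ha => by
          rcases Finset.mem_insert.mp ha with rfl | ha'
          · exact g.2
          · exact (mem_fixG.mp (g : fixG G Γ).2).2 a ha'⟩⟩
      invFun := fun g => ⟨⟨(g : Perm α), mem_fixG.mpr ⟨(mem_fixG.mp g.2).1,
        fun a ha => (mem_fixG.mp g.2).2 a (Finset.mem_insert_of_mem ha)⟩⟩,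
        (mem_fixG.mp g.2).2 δ (Finset.mem_insert_self δ Γ)⟩
      left_inv := fun _ => rfl
      right_inv := fun _ => rfl })

end Tools

end Cfsg.Agent.Lib.helper3.Miller
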