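import Mathlib
import Cfsg.Agent.Lib.helper3.Miller1
import Cfsg.Agent.S0713

/-!
# Miller's theorem, the case of a Sylow subgroup of order `p` (S4220)
-/

set_option autoImplicit false
set_option linter.style.haveILetI false

namespace Cfsg.Agent.Lib.helper3.Miller

open Equiv Equiv.Perm

universe u

section LemmaA

variable {β : Type u} [Fintype β] [DecidableEq β]

/-- Commutators of elements normalizing `⟨x⟩` centralize `x`. -/
theorem comm_mem_centralizer (x g h : Perm β)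
    (hg : g ∈ Subgroup.normalizer ((Subgroup.zpowers x : Subgroup (Perm β)) : Set (Perm β)))
    (hh : h ∈ Subgroup.normalizer ((Subgroup.zpowers x : Subgroup (Perm β)) : Set (Perm β))) :
    g * h * g⁻¹ * h⁻¹ ∈ Subgroup.centralizer {x} := by
  have key : ∀ n : Perm β,
      n ∈ Subgroup.normalizer ((Subgroup.zpowers x : Subgroup (Perm β)) : Set (Perm β)) →
      ∃ e : ℤ, n * x * n⁻¹ = x ^ e := by
    intro n hn
    have h1 := (Subgroup.mem_normalizer_iff.mp hn x).mp (Subgroup.mem_zpowers x)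
    obtain ⟨e, he⟩ := Subgroup.mem_zpowers_iff.mp h1
    exact ⟨e, he.symm⟩
  have P : ∀ (n : Perm β) (e : ℤ), n * x * n⁻¹ = x ^ e →
      ∀ m : ℤ, n * x ^ m * n⁻¹ = x ^ (e * m) := by
    intro n e he m
    rw [← conj_zpow, he, ← zpow_mul]
  obtain ⟨e1, he1⟩ := key g hg
  obtain ⟨e2, he2⟩ := key h hh
  obtain ⟨f1, hf1⟩ := key g⁻¹ (Subgroup.inv_mem _ hg)
  obtain ⟨f2, hf2⟩ := key h⁻¹ (Subgroup.inv_mem _ hh)
  have Pg' : ∀ m : ℤ, g⁻¹ * x ^ m * g = x ^ (f1 * m) := by
    intro m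
    have h1 := P g⁻¹ f1 hf1 m
    rwa [inv_inv] at h1
  have Ph' : ∀ m : ℤ, h⁻¹ * x ^ m * h = x ^ (f2 * m) := by
    intro m
    have h1 := P h⁻¹ f2 hf2 m
    rwa [inv_inv] at h1
  rw [inv_inv] at hf1 hf2
  have hx1 : x ^ (e1 * f1) = x := by
    have h1 := P g e1 he1 f1
    rw [← h1, ← hf1]; group
  have hx2 : x ^ (e2 * f2) = x := by
    have h1 := P h e2 he2 f2
    rw [← h1, ← hf2]; group
  have hw : (g * h * g⁻¹ * h⁻¹) * x * (g * h * g⁻¹ * h⁻¹)⁻¹ = x := by
    calc (g * h * g⁻¹ * h⁻¹) * x * (g * h * g⁻¹ * h⁻¹)⁻¹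
        = g * (h * (g⁻¹ * (h⁻¹ * x * h) * g) * h⁻¹) * g⁻¹ := by group
      _ = g * (h * (g⁻¹ * x ^ f2 * g) * h⁻¹) * g⁻¹ := by rw [hf2]
      _ = g * (h * x ^ (f1 * f2) * h⁻¹) * g⁻¹ := by rw [Pg']
      _ = g * x ^ (e2 * (f1 * f2)) * g⁻¹ := by rw [P h e2 he2]
      _ = x ^ (e1 * (e2 * (f1 * f2))) := by rw [P g e1 he1]
      _ = x := by
        have e3 : e1 * (e2 * (f1 * f2)) = (e1 * f1) * (e2 * f2) := by ring
        rw [e3, zpow_mul, hx1, hx2]
  rw [Subgroup.mem_centralizer_iff]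
  intro y hy
  rw [Set.mem_singleton_iff] at hy
  rw [hy]
  exact (mul_inv_eq_iff_eq_mul.mp hw).symm

theorem lemmaA (G : Subgroup (Perm β)) {k p r : ℕ}
    (hp : p.Prime) (hn : Fintype.card β = k * p + r) (hk : 1 ≤ k) (hpk : k < p) (hrk : k < r)
    (hr3 : 3 ≤ r) (hex : ¬ (p = 3 ∧ r ≤ 4 ∧ 2 ≤ k))
    (hG : MulAction.IsMultiplyPretransitive G β (r + 1))
    (Γ : Finset β) (hΓ : Γ.card = r) (hT : ¬ p ^ 2 ∣ Nat.card (fixG G Γ)) :
    alternatingGroup β ≤ G := by
  classical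
  haveI : Fact p.Prime := ⟨hp⟩
  haveI := hG
  have hcardβ : r + 1 ≤ Fintype.card β := by
    rw [hn]; have := Nat.mul_pos hk hp.pos; omega
  have hcomp : Fintype.card β - r = k * p := by rw [hn]; omega
  obtain ⟨δ, hδ⟩ : ∃ δ, δ ∉ Γ := by
    by_contra hcon
    push Not at hcon
    have h1 : Γ = Finset.univ := Finset.eq_univ_iff_forall.mpr hcon
    rw [h1, Finset.card_univ] at hΓ
    omega
  have hTcard := card_fixG_insert G hG Γ hΓ hδ
  rw [hcomp] at hTcard
  have hpT : p ∣ Nat.card (fixG G Γ) := by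
    rw [hTcard]; exact Dvd.dvd.mul_left (Dvd.intro_left k rfl) _
  obtain ⟨x', hx'⟩ := exists_prime_orderOf_dvd_card' (G := fixG G Γ) p hpT
  obtain ⟨x, hxdef⟩ : ∃ x : Perm β, x = (x' : Perm β) := ⟨_, rfl⟩
  have hxo : orderOf x = p := by rw [hxdef, Subgroup.orderOf_coe, hx']
  have hxT : x ∈ fixG G Γ := by rw [hxdef]; exact x'.2
  have hxG : x ∈ G := (mem_fixG.mp hxT).1
  have hxΓ : ∀ a ∈ Γ, x a = a := (mem_fixG.mp hxT).2
  have hxfix : ∀ a, a ∉ Γ → x a ≠ a := by
    intro a ha hfix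
    have hc := card_fixG_insert G hG Γ hΓ ha
    rw [hcomp] at hc
    have hmem : x ∈ fixG G (insert a Γ) := mem_fixG.mpr ⟨hxG, fun b hb => by
      rcases Finset.mem_insert.mp hb with rfl | hb'
      · exact hfix
      · exact hxΓ b hb'⟩
    have hdvd : p ∣ Nat.card (fixG G (insert a Γ)) := by
      have h1 : orderOf (⟨x, hmem⟩ : fixG G (insert a Γ)) = p := by
        rw [← Subgroup.orderOf_coe]; exact hxo
      rw [← h1]; exact orderOf_dvd_natCard _
    apply hT
    rw [hc, pow_two]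
    exact Nat.mul_dvd_mul hdvd (Dvd.intro_left k rfl)
  have hsupp : x.support = Γᶜ := by
    ext a
    rw [Perm.mem_support, Finset.mem_compl]
    exact ⟨fun h ha => h (hxΓ a ha), hxfix a⟩
  have hsc : x.support.card = k * p := by rw [hsupp, Finset.card_compl, hΓ, hcomp]
  have h2t : MulAction.IsMultiplyPretransitive G β 2 :=
    MulAction.isMultiplyPretransitive_of_le (n := r + 1) (by omega)
      (by rw [Nat.card_eq_fintype_card]; exact hcardβ)
  have hprim : MulAction.IsPreprimitive G β :=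
    MulAction.isPreprimitive_of_is_two_pretransitive h2t
  rcases Nat.lt_or_ge k 2 with hk1 | hk2
  · have hk1' : k = 1 := by omega
    subst hk1'
    obtain ⟨j, hj⟩ := Perm.cycleType_prime_order (σ := x) (by rw [hxo]; exact hp)
    rw [hxo] at hj
    have hsum : x.support.card = (j + 1) * p := by
      rw [← Perm.sum_cycleType, hj, Multiset.sum_replicate, smul_eq_mul]
    have hj0 : j = 0 := by
      rw [hsc] at hsum
      have h5 := Nat.eq_of_mul_eq_mul_right hp.pos hsum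
      omega
    have hcyc : x.IsCycle := by
      rw [← Perm.card_cycleType_eq_one, hj, hj0, Multiset.card_replicate]
    exact Cfsg.Agent.S0713.result G hprim hp (by rw [hn]; omega) (by rw [hn]; omega) hcyc
      (by rw [hsc, one_mul]) hxG
  · have hsyl : ∀ P : Sylow p (fixG G Γ), Nat.card (P : Subgroup (fixG G Γ)) = p ^ 1 := by
      intro P
      obtain ⟨m, hm⟩ := IsPGroup.iff_card.mp P.isPGroup'
      have h1 : p ^ 1 ∣ Nat.card (P : Subgroup (fixG G Γ)) :=
        P.pow_dvd_card_of_pow_dvd_card (by rw [pow_one]; exact hpT)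
      have h2 : Nat.card (P : Subgroup (fixG G Γ)) ∣ Nat.card (fixG G Γ) :=
        Subgroup.card_subgroup_dvd_card _
      rw [hm] at h1 h2 ⊢
      have hm1 : 1 ≤ m := (Nat.pow_dvd_pow_iff_le_right hp.one_lt).mp h1
      have hm2 : m < 2 := by
        by_contra hcon
        push Not at hcon
        exact hT ((pow_dvd_pow p hcon).trans h2)
      have hm3 : m = 1 := by omega
      rw [hm3]
    have hQcard : Nat.card (Subgroup.zpowers x) = p ^ 1 := by
      rw [Nat.card_zpowers, hxo, pow_one]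
    have hQT : Subgroup.zpowers x ≤ fixG G Γ := by rw [Subgroup.zpowers_le]; exact hxT
    have hr : MulAction.IsMultiplyPretransitive G β r :=
      MulAction.isMultiplyPretransitive_of_le (n := r + 1) (by omega)
        (by rw [Nat.card_eq_fintype_card]; exact hcardβ)
    have hconj : ∀ g ∈ G, (∀ q ∈ Subgroup.zpowers x, ∀ a ∈ Γ, (g⁻¹ * q * g) a = a) →
        ∃ s ∈ G, (∀ a ∈ Γ, s a = a) ∧
          ∀ q ∈ Subgroup.zpowers x, s * (g⁻¹ * q * g) * s⁻¹ ∈ Subgroup.zpowers x := by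
      intro g hg hfix
      obtain ⟨Q', hQ'⟩ : ∃ Q' : Subgroup (Perm β),
          Q' = (Subgroup.zpowers x).map (MulAut.conj g⁻¹).toMonoidHom := ⟨_, rfl⟩
      have hmemQ' : ∀ q ∈ Subgroup.zpowers x, g⁻¹ * q * g ∈ Q' := by
        intro q hq
        rw [hQ']
        refine ⟨q, hq, ?_⟩
        show g⁻¹ * q * g⁻¹⁻¹ = g⁻¹ * q * g
        rw [inv_inv]
      have hQ'T : Q' ≤ fixG G Γ := by
        rw [hQ']
        rintro _ ⟨q, hq, rfl⟩
        have hqG : q ∈ G := (mem_fixG.mp (hQT hq)).1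
        refine mem_fixG.mpr ⟨?_, ?_⟩
        · show g⁻¹ * q * g⁻¹⁻¹ ∈ G
          exact G.mul_mem (G.mul_mem (G.inv_mem hg) hqG) (G.inv_mem (G.inv_mem hg))
        · intro a ha
          have h1 := hfix q hq a ha
          show (g⁻¹ * q * g⁻¹⁻¹) a = a
          rw [inv_inv]; exact h1
      have hQ'card : Nat.card Q' = p ^ 1 := by
        rw [hQ', ← hQcard]
        exact Nat.card_congr (Subgroup.equivMapOfInjective _ _
          (MulAut.conj g⁻¹).injective).symm.toEquiv
      obtain ⟨s, hsT, hs⟩ := sylow_conj (fixG G Γ) p 1 hsyl (Subgroup.zpowers x) Q' hQT hQ'T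
        hQcard hQ'card
      exact ⟨s, (mem_fixG.mp hsT).1, (mem_fixG.mp hsT).2, fun q hq => hs _ (hmemQ' q hq)⟩
    have hwitt : ∀ π : Perm Γ, ∃ g ∈ G,
        g ∈ Subgroup.normalizer ((Subgroup.zpowers x : Subgroup (Perm β)) : Set (Perm β)) ∧
        Ind Γ g π := by
      intro π
      obtain ⟨g, hgG, hgN, hg⟩ := witt G hr Γ hΓ (Subgroup.zpowers x) hconj
        (fun a => (π a : β)) (fun a b h => π.injective (Subtype.ext h))
        (fun q hq a => by
          obtain ⟨i, rfl⟩ := Subgroup.mem_zpowers_iff.mp hq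
          exact (mem_fixG.mp (Subgroup.zpow_mem _ hxT i)).2 _ (π a).2)
      exact ⟨g, hgG, hgN, hg⟩
    obtain ⟨J, hJ⟩ : ∃ J : Subgroup (Perm β), J = G ⊓ Subgroup.centralizer {x} := ⟨_, rfl⟩
    have hAJ : ∀ σ ∈ alternatingGroup Γ, ∃ g ∈ J, Ind Γ g σ := by
      let M : Subgroup (Perm Γ) :=
        { carrier := {σ | ∃ g ∈ J, Ind Γ g σ}
          one_mem' := ⟨1, Subgroup.one_mem _, Ind.one Γ⟩
          mul_mem' := by
            rintro σ τ ⟨g, hg, hgi⟩ ⟨h, hh, hhi⟩
            exact ⟨g * h, Subgroup.mul_mem _ hg hh, hgi.mul hhi⟩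
          inv_mem' := by
            rintro σ ⟨g, hg, hgi⟩
            exact ⟨g⁻¹, Subgroup.inv_mem _ hg, hgi.inv⟩ }
      have hMc : ∀ π₁ π₂ : Perm Γ, π₁ * π₂ * π₁⁻¹ * π₂⁻¹ ∈ M := by
        intro π₁ π₂
        obtain ⟨g₁, hg₁G, hg₁N, hg₁⟩ := hwitt π₁
        obtain ⟨g₂, hg₂G, hg₂N, hg₂⟩ := hwitt π₂
        refine ⟨g₁ * g₂ * g₁⁻¹ * g₂⁻¹, ?_, ((hg₁.mul hg₂).mul hg₁.inv).mul hg₂.inv⟩
        rw [hJ]
        exact ⟨G.mul_mem (G.mul_mem (G.mul_mem hg₁G hg₂G) (G.inv_mem hg₁G)) (G.inv_mem hg₂G),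
          comm_mem_centralizer x g₁ g₂ hg₁N hg₂N⟩
      have hM3 : ∀ σ : Perm Γ, σ.IsThreeCycle → σ ∈ M := by
        intro σ hσ
        obtain ⟨τ, hτ⟩ := isConj_iff.mp
          (Perm.isConj_iff_cycleType_eq.mpr (Perm.cycleType_inv σ).symm)
        have h3 : σ ^ 3 = 1 := by rw [← hσ.orderOf]; exact pow_orderOf_eq_one _
        have e : σ = τ * σ * τ⁻¹ * σ⁻¹ := by
          rw [hτ]
          rw [pow_succ, pow_succ, pow_one] at h3
          calc σ = σ⁻¹ * σ⁻¹ * (σ * σ * σ) := by group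
            _ = σ⁻¹ * σ⁻¹ := by rw [h3, mul_one]
        have h4 := hMc τ σ
        rw [← e] at h4
        exact h4
      have hle : alternatingGroup Γ ≤ M := by
        rw [← Perm.closure_three_cycles_eq_alternating, Subgroup.closure_le]
        intro σ hσ
        exact hM3 σ hσ
      intro σ hσ
      exact hle hσ
    have hJG : J ≤ G := by rw [hJ]; exact inf_le_left
    have hJc : J ≤ Subgroup.centralizer {x} := by rw [hJ]; exact inf_le_right
    have hAcard : Nat.card (alternatingGroup Γ) = r.factorial / 2 := by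
      haveI : Nontrivial Γ := by
        rw [← Fintype.one_lt_card_iff_nontrivial, Fintype.card_coe, hΓ]; omega
      rw [nat_card_alternatingGroup, Nat.card_eq_fintype_card, Fintype.card_coe, hΓ]
    have hkfact : k.factorial < r.factorial / 2 := by
      have h1 : (k + 1).factorial ≤ r.factorial := Nat.factorial_le (by omega)
      rw [Nat.factorial_succ] at h1
      have h2 : 2 ≤ k.factorial := by
        calc 2 = (2 : ℕ).factorial := rfl
          _ ≤ k.factorial := Nat.factorial_le hk2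
      have h3 : 3 * k.factorial ≤ (k + 1) * k.factorial := Nat.mul_le_mul_right _ (by omega)
      omega
    have hZ : Fintype.card (Perm x.cycleFactorsFinset) < Nat.card (alternatingGroup Γ) := by
      rw [hAcard]
      exact lt_of_le_of_lt (card_fx_le hp hxo (le_of_eq hsc)) hkfact
    have hpodd : Odd p := hp.odd_of_ne_two (by omega)
    have hfixpow : ∀ g ∈ Kx x, ∀ a, a ∉ Γ → (g ^ p) a = a :=
      fun g hg a ha => Kx_pow_apply hxo hg (hxfix a ha)
    rcases Nat.lt_or_ge r p with hrp | hpr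
    · obtain ⟨g, hg, σ, hσ, hσ1, hgi⟩ := pigeon Γ J (Kx x) (fx x)
        (fun a ha b hb h => fx_eq (hJc ha) (hJc hb) h) hAJ hZ
      have hσp : σ ^ p ≠ 1 := by
        intro h
        have hdvd : orderOf σ ∣ p := orderOf_dvd_of_pow_eq_one h
        rcases (Nat.dvd_prime hp).mp hdvd with h1 | h1
        · exact hσ1 (orderOf_eq_one_iff.mp h1)
        · have h2 : orderOf σ ∣ Fintype.card (Perm Γ) := orderOf_dvd_card
          rw [h1, Fintype.card_perm, Fintype.card_coe, hΓ] at h2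
          have h3 := (Nat.Prime.dvd_factorial hp).mp h2
          omega
      exact finish G hr3 hcardβ hG Γ (g ^ p) (G.pow_mem (hJG hg.1) p) (σ ^ p)
        (hfixpow g hg.2) (hgi.pow p) hσp (by
          have h1 := Finset.card_le_univ (σ ^ p).support
          rw [Fintype.card_coe, hΓ] at h1
          omega)
    · have hr5 : 5 ≤ r := by
        by_contra hcon
        push Not at hcon
        apply hex
        refine ⟨?_, by omega, hk2⟩
        have hp4 : p ≠ 4 := by
          rintro rfl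
          exact absurd hp (by norm_num)
        omega
      have hAK := simple_step Γ (by rw [hΓ]; exact hr5) J (Kx x) (fx x)
        (fun a ha b hb h => fx_eq (hJc ha) (hJc hb) h)
        (fun g hg l hl => Kx_conj (hJc hg) hl) hAJ hZ
      obtain ⟨σ, hσA, hσp, hσc⟩ := exists_dt Γ (by rw [hΓ]; omega) hpodd
      obtain ⟨g, hg, hgi⟩ := hAK σ hσA
      exact finish G hr3 hcardβ hG Γ (g ^ p) (G.pow_mem (hJG hg.1) p) (σ ^ p)
        (hfixpow g hg.2) (hgi.pow p) hσp (by omega)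

end LemmaA

end Cfsg.Agent.Lib.helper3.Miller
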