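import Mathlib
import Cfsg.Agent.Lib.helper3.Miller2
import Cfsg.Agent.Lib.helper2.Sharp4

/-!
# Miller's theorem: the induction (S4220)
-/

set_option autoImplicit false
set_option linter.style.haveILetI false

namespace Cfsg.Agent.Lib.helper3.Miller

open Equiv Equiv.Perm

universe u

section Main

variable {β : Type u} [Fintype β] [DecidableEq β]

/-- The excluded case of `lemmaA`: degree `6 + r` with `r ∈ {3, 4}`. -/
theorem sharp_case (G : Subgroup (Perm β)) {r : ℕ} (hr3 : 3 ≤ r) (hr4 : r ≤ 4)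
    (hn : Fintype.card β = 6 + r)
    (hG : MulAction.IsMultiplyPretransitive G β (r + 1)) : alternatingGroup β ≤ G := by
  classical
  haveI := hG
  have hcardβ : r + 1 ≤ Fintype.card β := by omega
  have h4 : MulAction.IsMultiplyPretransitive G β 4 :=
    MulAction.isMultiplyPretransitive_of_le (n := r + 1) (by omega)
      (by rw [Nat.card_eq_fintype_card]; exact hcardβ)
  by_cases hsharp : ∀ x : Fin 4 ↪ β, MulAction.stabilizer G x = ⊥
  · exfalso
    have hS4 := Cfsg.Agent.Lib.helper2.Sharp4.S4.of h4 hsharp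
    obtain ⟨x₀⟩ : Nonempty (Fin 4 ↪ β) :=
      Function.Embedding.nonempty_of_card_le (by rw [Fintype.card_fin]; omega)
    have hdeg := (hS4.degree x₀).2
    rw [Nat.card_eq_fintype_card, hn] at hdeg
    omega
  · push Not at hsharp
    obtain ⟨x, hx⟩ := hsharp
    obtain ⟨g, hgx, hg1⟩ : ∃ g : G, g • x = x ∧ g ≠ 1 := by
      by_contra hcon
      push Not at hcon
      apply hx
      rw [Subgroup.eq_bot_iff_forall]
      intro g hg
      exact hcon g (MulAction.mem_stabilizer_iff.mp hg)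
    have hfix : ∀ i, (g : Perm β) (x i) = x i := fun i => DFunLike.congr_fun hgx i
    have hsub : (g : Perm β).support ⊆ (Finset.univ.map x)ᶜ := by
      intro a ha
      rw [Finset.mem_compl, Finset.mem_map]
      rintro ⟨i, _, rfl⟩
      exact (Perm.mem_support.mp ha) (hfix i)
    have hc : (g : Perm β).support.card ≤ r + 2 := by
      have h1 := Finset.card_le_card hsub
      rw [Finset.card_compl, Finset.card_map, Finset.card_univ, Fintype.card_fin, hn] at h1
      omega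
    exact (ktrans_alternating_le G (k := r + 1) (by omega) hcardβ hG (g : Perm β) g.2
      (by intro h; exact hg1 (Subtype.ext h)) (by omega)).2

/-- Conjugacy hypothesis of `witt` from Sylow's theorem in the pointwise stabilizer. -/
theorem conj_of_sylow (G : Subgroup (Perm β)) (S : Finset β) (p : ℕ) [Fact p.Prime] (n : ℕ)
    (hsyl : ∀ P : Sylow p (fixG G S), Nat.card (P : Subgroup (fixG G S)) = p ^ n)
    (Q : Subgroup (Perm β)) (hQT : Q ≤ fixG G S) (hQcard : Nat.card Q = p ^ n) :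
    ∀ g ∈ G, (∀ q ∈ Q, ∀ a ∈ S, (g⁻¹ * q * g) a = a) →
      ∃ s ∈ G, (∀ a ∈ S, s a = a) ∧ ∀ q ∈ Q, s * (g⁻¹ * q * g) * s⁻¹ ∈ Q := by
  intro g hg hfix
  obtain ⟨Q', hQ'⟩ : ∃ Q' : Subgroup (Perm β),
      Q' = Q.map (MulAut.conj g⁻¹).toMonoidHom := ⟨_, rfl⟩
  have hmemQ' : ∀ q ∈ Q, g⁻¹ * q * g ∈ Q' := by
    intro q hq
    rw [hQ']
    refine ⟨q, hq, ?_⟩
    show g⁻¹ * q * g⁻¹⁻¹ = g⁻¹ * q * g
    rw [inv_inv]
  have hQ'T : Q' ≤ fixG G S := by
    rw [hQ']
    rintro _ ⟨q, hq, rfl⟩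
    have hqG : q ∈ G := (mem_fixG.mp (hQT hq)).1
    refine mem_fixG.mpr ⟨?_, ?_⟩
    · show g⁻¹ * q * g⁻¹⁻¹ ∈ G
      exact G.mul_mem (G.mul_mem (G.inv_mem hg) hqG) (G.inv_mem (G.inv_mem hg))
    · intro a ha
      have h1 := hfix q hq a ha
      show (g⁻¹ * q * g⁻¹⁻¹) a = a
      rw [inv_inv]; exact h1
  have hQ'card : Nat.card Q' = p ^ n := by
    rw [hQ', ← hQcard]
    exact Nat.card_congr (Subgroup.equivMapOfInjective _ _
      (MulAut.conj g⁻¹).injective).symm.toEquiv
  obtain ⟨s, hsT, hs⟩ := sylow_conj (fixG G S) p n hsyl Q Q' hQT hQ'T hQcard hQ'card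
  exact ⟨s, (mem_fixG.mp hsT).1, (mem_fixG.mp hsT).2, fun q hq => hs _ (hmemQ' q hq)⟩

/-- The inductive case: `p²` divides the order of the pointwise stabilizer of `Γ`. -/
theorem caseB (G : Subgroup (Perm β)) {k p r : ℕ}
    (hp : p.Prime) (hn : Fintype.card β = k * p + r) (hk : 1 ≤ k) (hpk : k < p) (hrk : k < r)
    (hr3 : 3 ≤ r)
    (hG : MulAction.IsMultiplyPretransitive G β (r + 1))
    (ih : ∀ s, s < k → 1 ≤ s → ∀ (F : Finset β) (H : Subgroup (Perm F)), F.card = s * p + r →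
        MulAction.IsMultiplyPretransitive H F (r + 1) → alternatingGroup F ≤ H)
    (Γ : Finset β) (hΓ : Γ.card = r) (hT : p ^ 2 ∣ Nat.card (fixG G Γ)) :
    alternatingGroup β ≤ G := by
  classical
  haveI : Fact p.Prime := ⟨hp⟩
  haveI := hG
  have hkp : 0 < k * p := Nat.mul_pos hk hp.pos
  have hcardβ : r + 1 ≤ Fintype.card β := by rw [hn]; omega
  have hcomp : Fintype.card β - r = k * p := by rw [hn]; omega
  obtain ⟨δ, hδ⟩ : ∃ δ, δ ∉ Γ := by
    by_contra hcon
    push Not at hcon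
    have h1 : Γ = Finset.univ := Finset.eq_univ_iff_forall.mpr hcon
    rw [h1, Finset.card_univ] at hΓ
    omega
  obtain ⟨S, hSdef⟩ : ∃ S : Finset β, S = insert δ Γ := ⟨_, rfl⟩
  have hScard : S.card = r + 1 := by rw [hSdef, Finset.card_insert_of_notMem hδ, hΓ]
  have hΓS : Γ ⊆ S := by rw [hSdef]; exact Finset.subset_insert δ Γ
  have hδS : δ ∈ S := by rw [hSdef]; exact Finset.mem_insert_self δ Γ
  have hTcard : Nat.card (fixG G Γ) = Nat.card (fixG G S) * (k * p) := by
    have h := card_fixG_insert G hG Γ hΓ hδ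
    rw [hcomp] at h
    rw [hSdef]; exact h
  have hpS : p ∣ Nat.card (fixG G S) := by
    rw [hTcard, pow_two] at hT
    have h1 : p * p ∣ (Nat.card (fixG G S) * k) * p := by rw [mul_assoc]; exact hT
    have h2 : p ∣ Nat.card (fixG G S) * k := Nat.dvd_of_mul_dvd_mul_right hp.pos h1
    rcases (Nat.Prime.dvd_mul hp).mp h2 with h3 | h3
    · exact h3
    · exact absurd (Nat.le_of_dvd (by omega) h3) (by omega)
  have hfS : fixG G S ≤ fixG G Γ := by
    intro g hg
    exact mem_fixG.mpr ⟨(mem_fixG.mp hg).1, fun a ha => (mem_fixG.mp hg).2 a (hΓS ha)⟩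
  -- a Sylow subgroup of the pointwise stabilizer of `S`
  obtain ⟨n₀, hn₀⟩ : ∃ n₀ : ℕ, n₀ = Nat.factorization (Nat.card (fixG G S)) p := ⟨_, rfl⟩
  have hsyl : ∀ P : Sylow p (fixG G S), Nat.card (P : Subgroup (fixG G S)) = p ^ n₀ := by
    intro P
    rw [hn₀]; exact Sylow.card_eq_multiplicity P
  have hn₀1 : 1 ≤ n₀ := by
    rw [hn₀]
    exact hp.factorization_pos_of_dvd Nat.card_pos.ne' hpS
  obtain ⟨Ps⟩ : Nonempty (Sylow p (fixG G S)) := inferInstance
  obtain ⟨Q, hQdef⟩ : ∃ Q : Subgroup (Perm β),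
      Q = (Ps : Subgroup (fixG G S)).map (fixG G S).subtype := ⟨_, rfl⟩
  have hQS : Q ≤ fixG G S := by
    rw [hQdef]
    rintro _ ⟨q, _, rfl⟩
    exact q.2
  have hQcard : Nat.card Q = p ^ n₀ := by
    rw [hQdef, ← hsyl Ps]
    exact Nat.card_congr (Subgroup.equivMapOfInjective _ _
      (Subgroup.subtype_injective _)).symm.toEquiv
  have hQp : IsPGroup p Q := IsPGroup.of_card hQcard
  obtain ⟨F, hF⟩ : ∃ F : Finset β, ∀ a, a ∈ F ↔ ∀ q ∈ Q, q a = a :=
    ⟨Finset.univ.filter (fun a => ∀ q ∈ Q, q a = a), fun a => by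
      rw [Finset.mem_filter]; exact ⟨fun h => h.2, fun h => ⟨Finset.mem_univ a, h⟩⟩⟩
  have hSF : S ⊆ F := by
    intro a ha
    rw [hF]
    intro q hq
    exact (mem_fixG.mp (hQS hq)).2 a ha
  have hmod : Fintype.card β ≡ F.card [MOD p] := by
    have h1 := hQp.card_modEq_card_fixedPoints β
    have h2 : Nat.card (MulAction.fixedPoints Q β) = F.card := by
      have h3 : Nat.card (MulAction.fixedPoints Q β) = Nat.card F :=
        Nat.card_congr (Equiv.subtypeEquivRight (fun a => by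
          rw [MulAction.mem_fixedPoints, hF]
          exact ⟨fun h q hq => h ⟨q, hq⟩, fun h q => h q.1 q.2⟩))
      rw [h3, Nat.card_eq_fintype_card, Fintype.card_coe]
    rw [Nat.card_eq_fintype_card, h2] at h1
    exact h1
  have hFge : r + 1 ≤ F.card := by
    rw [← hScard]; exact Finset.card_le_card hSF
  obtain ⟨q₀, hq₀Q, hq₀1⟩ : ∃ q ∈ Q, q ≠ 1 := by
    by_contra hcon
    push Not at hcon
    have hbot : Q = ⊥ := (Subgroup.eq_bot_iff_forall Q).mpr hcon
    rw [hbot, Subgroup.card_bot] at hQcard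
    have h2 : p ≤ p ^ n₀ := by
      calc p = p ^ 1 := (pow_one p).symm
        _ ≤ p ^ n₀ := Nat.pow_le_pow_right hp.pos hn₀1
    have := hp.one_lt
    omega
  have hFlt : F.card < Fintype.card β := by
    rw [← Finset.card_univ]
    apply Finset.card_lt_card
    rw [Finset.ssubset_univ_iff]
    intro hFu
    apply hq₀1
    apply Equiv.ext
    intro a
    exact (hF a).mp (by rw [hFu]; exact Finset.mem_univ a) q₀ hq₀Q
  obtain ⟨s, hs1, hsk, hFs⟩ : ∃ s, 1 ≤ s ∧ s < k ∧ F.card = s * p + r := by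
    have h1 : p ∣ Fintype.card β - F.card := (Nat.modEq_iff_dvd' hFlt.le).mp hmod.symm
    obtain ⟨t, ht⟩ := h1
    have h3 : k * p = p * k := mul_comm k p
    have ht1 : 1 ≤ t := by
      rcases Nat.eq_zero_or_pos t with h0 | h0
      · rw [h0, mul_zero] at ht; omega
      · exact h0
    have htk : t < k := by
      by_contra hcon
      push Not at hcon
      have h2 : p * k ≤ p * t := Nat.mul_le_mul_left p hcon
      omega
    have h4 : (k - t) * p = k * p - p * t := by
      rw [Nat.sub_mul, mul_comm t p]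
    have h5 : p * t ≤ p * k := Nat.mul_le_mul_left p htk.le
    refine ⟨k - t, by omega, by omega, ?_⟩
    rw [h4]
    omega
  have hp3 : 3 ≤ p := by omega
  have hpodd : Odd p := hp.odd_of_ne_two (by omega)
  have hsp : p ≤ s * p := Nat.le_mul_of_pos_left p hs1
  have hF5 : 5 ≤ F.card := by rw [hFs]; omega
  -- the normalizer of `Q` acts on `F`
  obtain ⟨N, hNdef⟩ : ∃ N : Subgroup (Perm β),
      N = G ⊓ Subgroup.normalizer (Q : Set (Perm β)) := ⟨_, rfl⟩
  have hNG : N ≤ G := by rw [hNdef]; exact inf_le_left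
  have hNn : ∀ g ∈ N, g ∈ Subgroup.normalizer (Q : Set (Perm β)) := by
    intro g hg
    rw [hNdef] at hg
    exact hg.2
  have hNconj : ∀ g ∈ N, ∀ q ∈ Q, g⁻¹ * q * g ∈ Q := by
    intro g hg q hq
    have h2 := (Subgroup.mem_normalizer_iff.mp (Subgroup.inv_mem _ (hNn g hg)) q).mp hq
    rw [inv_inv] at h2
    exact h2
  have hNF : ∀ g ∈ N, ∀ a, g a ∈ F ↔ a ∈ F := by
    have key : ∀ g ∈ N, ∀ a, a ∈ F → g a ∈ F := by
      intro g hg a ha
      rw [hF] at ha ⊢
      intro q hq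
      have h3 := ha _ (hNconj g hg q hq)
      rw [Perm.mul_apply, Perm.mul_apply] at h3
      exact Perm.inv_eq_iff_eq.mp h3
    intro g hg a
    constructor
    · intro h
      have h2 := key g⁻¹ (N.inv_mem hg) _ h
      rw [perm_inv_apply] at h2
      exact h2
    · exact key g hg a
  let H : Subgroup (Perm F) :=
    { carrier := {σ | ∃ g ∈ N, Ind F g σ}
      one_mem' := ⟨1, Subgroup.one_mem _, Ind.one F⟩
      mul_mem' := by
        rintro σ τ ⟨g, hg, hgi⟩ ⟨h, hh, hhi⟩
        exact ⟨g * h, Subgroup.mul_mem _ hg hh, hgi.mul hhi⟩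
      inv_mem' := by
        rintro σ ⟨g, hg, hgi⟩
        exact ⟨g⁻¹, Subgroup.inv_mem _ hg, hgi.inv⟩ }
  have hHmem : ∀ σ : Perm F, σ ∈ H ↔ ∃ g ∈ N, Ind F g σ := fun σ => Iff.rfl
  have hHtrans : MulAction.IsMultiplyPretransitive H F (r + 1) := by
    rw [MulAction.isMultiplyPretransitive_iff]
    intro x y
    have eS : S ≃ Fin (r + 1) := Fintype.equivFinOfCardEq (by rw [Fintype.card_coe, hScard])
    have hwx : ∀ z : Fin (r + 1) ↪ F, ∃ g ∈ N, ∀ a : S, g a = (z (eS a) : β) := by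
      intro z
      obtain ⟨g, hgG, hgN, hg⟩ := witt G hG S hScard Q
        (conj_of_sylow G S p n₀ hsyl Q hQS hQcard)
        (fun a => (z (eS a) : β))
        (fun a b h => eS.injective (z.injective (Subtype.ext h)))
        (fun q hq a => (hF _).mp (z (eS a)).2 q hq)
      exact ⟨g, by rw [hNdef]; exact ⟨hgG, hgN⟩, hg⟩
    obtain ⟨g₁, hg₁N, hg₁⟩ := hwx x
    obtain ⟨g₂, hg₂N, hg₂⟩ := hwx y
    have hgN : g₂ * g₁⁻¹ ∈ N := N.mul_mem hg₂N (N.inv_mem hg₁N)
    obtain ⟨σ, hσ⟩ := exists_ind (hNF (g₂ * g₁⁻¹) hgN)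
    refine ⟨⟨σ, (hHmem σ).mpr ⟨g₂ * g₁⁻¹, hgN, hσ⟩⟩, ?_⟩
    apply DFunLike.ext
    intro i
    apply Subtype.ext
    have h1 : ((σ (x i) : F) : β) = (g₂ * g₁⁻¹) (x i : β) := (hσ (x i)).symm
    have h2 : g₁ (eS.symm i : S) = (x i : β) := by
      have h := hg₁ (eS.symm i)
      rw [eS.apply_symm_apply] at h
      exact h
    have h3 : g₂ (eS.symm i : S) = (y i : β) := by
      have h := hg₂ (eS.symm i)
      rw [eS.apply_symm_apply] at h
      exact h
    show ((σ (x i) : F) : β) = (y i : β)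
    rw [h1, Perm.mul_apply, ← h2, perm_inv_apply, h3]
  have hHalt : alternatingGroup F ≤ H := ih s hsk hs1 F H hFs hHtrans
  have hA_N : ∀ σ ∈ alternatingGroup F, ∃ g ∈ N, Ind F g σ :=
    fun σ hσ => (hHmem σ).mp (hHalt hσ)
  -- the centralizer of `Q`
  obtain ⟨J, hJdef⟩ : ∃ J : Subgroup (Perm β),
      J = G ⊓ Subgroup.centralizer (Q : Set (Perm β)) := ⟨_, rfl⟩
  have hJG : J ≤ G := by rw [hJdef]; exact inf_le_left
  have hJc : J ≤ Subgroup.centralizer (Q : Set (Perm β)) := by rw [hJdef]; exact inf_le_right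
  have hJN : J ≤ N := by
    rw [hJdef, hNdef]
    exact inf_le_inf_left G (Subgroup.centralizer_le_normalizer _)
  have hnormJ : ∀ g ∈ N, ∀ l ∈ J, g * l * g⁻¹ ∈ J := by
    intro g hg l hl
    rw [hJdef]
    refine ⟨G.mul_mem (G.mul_mem (hNG hg) (hJG hl)) (G.inv_mem (hNG hg)), ?_⟩
    show g * l * g⁻¹ ∈ Subgroup.centralizer (Q : Set (Perm β))
    rw [Subgroup.mem_centralizer_iff]
    intro q hq
    have h1 : g⁻¹ * q * g ∈ Q := hNconj g hg q hq
    have h3 : g⁻¹ * q * g * l = l * (g⁻¹ * q * g) :=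
      (Subgroup.mem_centralizer_iff.mp (hJc hl)) _ h1
    calc q * (g * l * g⁻¹) = g * ((g⁻¹ * q * g) * l) * g⁻¹ := by group
      _ = g * (l * (g⁻¹ * q * g)) * g⁻¹ := by rw [h3]
      _ = g * l * g⁻¹ * q := by group
  -- a Sylow subgroup of the pointwise stabilizer of `Γ` containing `Q`
  have hQΓ : Q ≤ fixG G Γ := hQS.trans hfS
  have e1 : Nat.card (Q.subgroupOf (fixG G Γ)) = p ^ n₀ := by
    rw [Nat.card_congr (Subgroup.subgroupOfEquivOfLe hQΓ).toEquiv, hQcard]
  obtain ⟨Pb, hPb⟩ := (IsPGroup.of_card e1).exists_le_sylow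
  obtain ⟨P, hPdef⟩ : ∃ P : Subgroup (Perm β),
      P = (Pb : Subgroup (fixG G Γ)).map (fixG G Γ).subtype := ⟨_, rfl⟩
  have hPΓ : P ≤ fixG G Γ := by
    rw [hPdef]
    rintro _ ⟨q, _, rfl⟩
    exact q.2
  have hQP : Q ≤ P := by
    intro q hq
    rw [hPdef]
    exact ⟨⟨q, hQΓ hq⟩, hPb (Subgroup.mem_subgroupOf.mpr hq), rfl⟩
  have hPp : IsPGroup p P := by
    rw [hPdef]
    exact Pb.isPGroup'.map _
  have hp2 : k * p < p ^ 2 := by
    rw [pow_two]; exact mul_lt_mul_of_pos_right hpk hp.pos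
  have horb : ∀ j : β, (MulAction.orbit P j).ncard < p ^ 2 := by
    intro j
    by_cases hj : j ∈ Γ
    · have hsub : MulAction.orbit P j ⊆ {j} := by
        rintro _ ⟨g, rfl⟩
        exact (mem_fixG.mp (hPΓ g.2)).2 j hj
      have h1 := Set.ncard_le_ncard hsub (Set.finite_singleton j)
      rw [Set.ncard_singleton] at h1
      omega
    · have hsub : MulAction.orbit P j ⊆ ((Γᶜ : Finset β) : Set β) := by
        rintro _ ⟨g, rfl⟩
        rw [Finset.mem_coe, Finset.mem_compl]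
        intro hmem
        have hmem' : (g : Perm β) j ∈ Γ := hmem
        have h1 : (g : Perm β) ((g : Perm β) j) = (g : Perm β) j :=
          (mem_fixG.mp (hPΓ g.2)).2 _ hmem'
        have h2 : (g : Perm β) j = j := (g : Perm β).injective h1
        rw [h2] at hmem'
        exact hj hmem'
      have h1 := Set.ncard_le_ncard hsub (Finset.finite_toSet _)
      rw [Set.ncard_coe_finset, Finset.card_compl, hΓ, hcomp] at h1
      omega
  have hcomm : ∀ s t, s ∈ P → t ∈ P → s * t = t * s :=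
    fun s t hs ht => pgroup_comm P hPp horb s t hs ht
  obtain ⟨c, hcP, hcδ⟩ : ∃ c ∈ P, c δ ≠ δ := by
    by_contra hcon
    push Not at hcon
    have hPS : P ≤ fixG G S := by
      intro g hg
      refine mem_fixG.mpr ⟨(mem_fixG.mp (hPΓ hg)).1, ?_⟩
      intro a ha
      rw [hSdef] at ha
      rcases Finset.mem_insert.mp ha with h | ha'
      · rw [h]; exact hcon g hg
      · exact (mem_fixG.mp (hPΓ hg)).2 a ha'
    have hPcard : Nat.card P = Nat.card (Pb : Subgroup (fixG G Γ)) := by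
      rw [hPdef]
      exact Nat.card_congr (Subgroup.equivMapOfInjective _ _
        (Subgroup.subtype_injective _)).symm.toEquiv
    have h1 : Nat.card P ∣ Nat.card (fixG G S) := Subgroup.card_dvd_of_le hPS
    have h2 := Subgroup.card_mul_index (Pb : Subgroup (fixG G Γ))
    have h3 : ¬ p ∣ (Pb : Subgroup (fixG G Γ)).index := Pb.not_dvd_index
    apply h3
    obtain ⟨d, hd⟩ := h1
    rw [hTcard, hd, hPcard] at h2
    have hpos : 0 < Nat.card (Pb : Subgroup (fixG G Γ)) := Nat.card_pos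
    have h4 : (Pb : Subgroup (fixG G Γ)).index = d * (k * p) := by
      apply Nat.eq_of_mul_eq_mul_left hpos
      rw [h2, mul_assoc]
    rw [h4]
    exact Dvd.dvd.mul_left (Dvd.intro_left k rfl) d
  have hcJ : c ∈ J := by
    rw [hJdef]
    refine ⟨(mem_fixG.mp (hPΓ hcP)).1, ?_⟩
    show c ∈ Subgroup.centralizer (Q : Set (Perm β))
    rw [Subgroup.mem_centralizer_iff]
    intro q hq
    exact hcomm q c (hQP hq) hcP
  obtain ⟨σc, hσc⟩ := exists_ind (hNF c (hJN hcJ))
  have hσc1 : σc ≠ 1 := by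
    intro h
    rw [h] at hσc
    have h2 : c δ = δ := hσc ⟨δ, hSF hδS⟩
    exact hcδ h2
  have hσcA : σc ∈ alternatingGroup F := by
    rw [Perm.mem_alternatingGroup]
    obtain ⟨j, hj⟩ := hPp ⟨c, hcP⟩
    have hcpow : c ^ (p ^ j) = 1 := by
      have h0 := congrArg Subtype.val hj
      simpa using h0
    have hσpow : σc ^ (p ^ j) = 1 := by
      have h1 : Ind F (c ^ (p ^ j)) (σc ^ (p ^ j)) := hσc.pow _
      rw [hcpow] at h1
      exact Ind.unique h1 (Ind.one F)
    have hsign : (Perm.sign σc) ^ (p ^ j) = 1 := by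
      rw [← map_pow, hσpow, map_one]
    rcases Int.units_eq_one_or (Perm.sign σc) with h | h
    · exact h
    · rw [h] at hsign
      have hodd : Odd (p ^ j) := hpodd.pow
      rw [hodd.neg_one_pow] at hsign
      exact absurd hsign (by decide)
  have hAJ : ∀ σ ∈ alternatingGroup F, ∃ g ∈ J, Ind F g σ :=
    simple_normal F hF5 N J hnormJ hA_N ⟨c, hcJ, σc, hσcA, hσc1, hσc⟩
  -- the nonidentity elements of `Q`
  obtain ⟨m, hmdef⟩ : ∃ m, m = k - s := ⟨_, rfl⟩
  have hm1 : 1 ≤ m := by omega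
  obtain ⟨X, hX⟩ : ∃ X : Finset (Perm β), ∀ x, x ∈ X ↔ x ∈ Q ∧ x ≠ 1 :=
    ⟨Finset.univ.filter (fun x => x ∈ Q ∧ x ≠ 1), fun x => by
      rw [Finset.mem_filter]; exact ⟨fun h => h.2, fun h => ⟨Finset.mem_univ x, h⟩⟩⟩
  have hXprop : ∀ x ∈ X, orderOf x = p ∧ x.support.card ≤ m * p ∧
      J ≤ Subgroup.centralizer {x} := by
    intro x hx
    obtain ⟨hxQ, hx1⟩ := (hX x).mp hx
    have hsupp : x.support ⊆ Fᶜ := by
      intro a ha
      rw [Finset.mem_compl]
      intro haF
      exact (Perm.mem_support.mp ha) ((hF a).mp haF x hxQ)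
    have hsc : x.support.card ≤ m * p := by
      have h1 := Finset.card_le_card hsupp
      rw [Finset.card_compl, hn, hFs] at h1
      have h2 : (k - s) * p = k * p - s * p := Nat.sub_mul k s p
      rw [hmdef]
      omega
    refine ⟨?_, hsc, ?_⟩
    · obtain ⟨j, hj⟩ := hQp ⟨x, hxQ⟩
      have hxpow : x ^ (p ^ j) = 1 := by
        have h0 := congrArg Subtype.val hj
        simpa using h0
      obtain ⟨i, _, hi⟩ := (Nat.dvd_prime_pow hp).mp (orderOf_dvd_of_pow_eq_one hxpow)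
      apply order_eq_prime hp hx1 hi
      have h3 : m * p < p ^ 2 := by
        rw [pow_two]
        exact mul_lt_mul_of_pos_right (by omega) hp.pos
      omega
    · intro l hl
      have h1 := hJc hl
      rw [Subgroup.mem_centralizer_iff] at h1 ⊢
      intro y hy
      rw [Set.mem_singleton_iff] at hy
      rw [hy]
      exact h1 x hxQ
  have hm : m.factorial < Nat.card (alternatingGroup F) := by
    haveI : Nontrivial F := by
      rw [← Fintype.one_lt_card_iff_nontrivial, Fintype.card_coe]; omega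
    rw [nat_card_alternatingGroup, Nat.card_eq_fintype_card, Fintype.card_coe]
    have h1 : (m + 1 + 1).factorial ≤ F.card.factorial := Nat.factorial_le (by
      rw [hFs]; omega)
    rw [Nat.factorial_succ, Nat.factorial_succ] at h1
    have h2 : 1 ≤ m.factorial := Nat.factorial_pos _
    have h3 : 6 * m.factorial ≤ (m + 1 + 1) * ((m + 1) * m.factorial) := by
      calc 6 * m.factorial = 3 * (2 * m.factorial) := by ring
        _ ≤ (m + 1 + 1) * ((m + 1) * m.factorial) :=
          Nat.mul_le_mul (by omega) (Nat.mul_le_mul_right _ (by omega))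
    omega
  have hiter := iterate_step F hF5 p hp m hm X J hXprop hAJ
  obtain ⟨σ, hσA, hσp, hσcard⟩ := exists_dt F (by omega) hpodd
  obtain ⟨g, hgJ, hgK, hgi⟩ := hiter σ hσA
  have hfixpow : ∀ a, a ∉ F → (g ^ p) a = a := by
    intro a ha
    have hex : ∃ q ∈ Q, q a ≠ a := by
      by_contra hcon
      push Not at hcon
      exact ha ((hF a).mpr hcon)
    obtain ⟨q, hqQ, hqa⟩ := hex
    have hq1 : q ≠ 1 := by
      intro h
      rw [h] at hqa
      exact hqa rfl
    have hqX : q ∈ X := (hX q).mpr ⟨hqQ, hq1⟩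
    exact Kx_pow_apply (hXprop q hqX).1 (hgK q hqX) hqa
  exact finish G hr3 hcardβ hG F (g ^ p) (G.pow_mem (hJG hgJ) p) (σ ^ p) hfixpow (hgi.pow p)
    hσp (by omega)

end Main

/-- **Miller's theorem.** A `(r+1)`-transitive group of degree `kp + r` with `p` prime,
`1 ≤ k < p`, `k < r` and `r ≥ 3` contains the alternating group. -/
theorem miller_main (p : ℕ) (hp : p.Prime) (r : ℕ) (hr3 : 3 ≤ r) :
    ∀ (k : ℕ) {β : Type u} [Fintype β] [DecidableEq β] (G : Subgroup (Perm β)),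
      Fintype.card β = k * p + r → 1 ≤ k → k < p → k < r →
      MulAction.IsMultiplyPretransitive G β (r + 1) → alternatingGroup β ≤ G := by
  intro k
  induction k using Nat.strong_induction_on with
  | _ k IH =>
    intro β _ _ G hn hk hpk hrk hG
    by_cases hex : p = 3 ∧ r ≤ 4 ∧ 2 ≤ k
    · obtain ⟨hp3, hr4, hk2⟩ := hex
      have hk2' : k = 2 := by omega
      rw [hk2', hp3] at hn
      exact sharp_case G hr3 hr4 (hn.trans (by norm_num)) hG
    · have hcardβ : r ≤ Fintype.card β := by rw [hn]; omega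
      obtain ⟨Γ, -, hΓ⟩ := Finset.exists_subset_card_eq (s := (Finset.univ : Finset β))
        (n := r) (by rw [Finset.card_univ]; exact hcardβ)
      by_cases hT : p ^ 2 ∣ Nat.card (fixG G Γ)
      · exact caseB G hp hn hk hpk hrk hr3 hG
          (fun s hsk hs1 F H hFs hH => IH s hsk H (by rw [Fintype.card_coe]; exact hFs) hs1
            (by omega) (by omega) hH) Γ hΓ hT
      · exact lemmaA G hp hn hk hpk hrk hr3 hex hG Γ hΓ hT

end Cfsg.Agent.Lib.helper3.Miller
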