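import Mathlib
import Cfsg.Prelude.Def_RootSubgroups
import Cfsg.Agent.Lib.helper3.PLocal

set_option autoImplicit false
set_option linter.style.haveILetI false

namespace Cfsg.Agent.Lib.helper3

universe u

open scoped commutatorElement

theorem sq_one_of_mem_oddTransp {G : Type u} [Group G] {D : Set G}
    (hD : Cfsg.IsOddTranspositionSet D) {d : G} (hd : d ∈ D) : d * d = 1 := by
  have := pow_orderOf_eq_one d
  rw [hD.1.orderOf_eq d hd, pow_two] at this
  exact this

/-- Two odd transpositions whose product is a `2`-element commute. -/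
theorem odd_transp_comm_of_two_elt {G : Type u} [Group G] {D : Set G}
    (hD : Cfsg.IsOddTranspositionSet D) {x y : G} (hx : x ∈ D) (hy : y ∈ D) {m : ℕ}
    (h : (x * y) ^ (2 ^ m) = 1) : x * y = y * x := by
  rcases hD.1.pair x hx y hy with h1 | h1 | ⟨h1, -⟩
  · exact h1
  · have hdvd := orderOf_dvd_of_pow_eq_one h
    have hcop : (orderOf (x * y)).Coprime (2 ^ m) :=
      Nat.Coprime.pow_right m (Nat.coprime_two_right.mpr h1)
    have h1' : orderOf (x * y) = 1 := Nat.Coprime.eq_one_of_dvd hcop hdvd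
    have hxy : x * y = 1 := orderOf_eq_one_iff.mp h1'
    have hyx : y * x = 1 := by
      have : x = y⁻¹ := eq_inv_of_mul_eq_one_left hxy
      rw [this]; simp
    rw [hxy, hyx]
  · exact absurd h1 (hD.2 x hx y hy)

theorem odd_transp_part1 {G : Type u} [Group G] [Finite G] {D : Set G}
    (hD : Cfsg.IsOddTranspositionSet D) {a : G} (ha : a ∈ D) :
    ∀ e ∈ Cfsg.commutingMembers D a, ∀ q ∈ ⁅Cfsg.pCore 2 G, Subgroup.zpowers a⁆,
      e * q = q * e := by
  rintro e ⟨heD, hea⟩
  haveI : (Cfsg.pCore 2 G).Normal := pCore_normal3 2 G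
  have hQ : IsPGroup 2 (Cfsg.pCore 2 G) := pCore_isPGroup3 2 G
  have haa : a * a = 1 := sq_one_of_mem_oddTransp hD ha
  have hee : e * e = 1 := sq_one_of_mem_oddTransp hD heD
  have hle : ⁅Cfsg.pCore 2 G, Subgroup.zpowers a⁆ ≤ Subgroup.centralizer ({e} : Set G) := by
    rw [Subgroup.commutator_le]
    intro n hn c hc
    rw [Subgroup.mem_centralizer_singleton_iff]
    symm
    have hc' : c = 1 ∨ c = a := by
      obtain ⟨i, rfl⟩ := Subgroup.mem_zpowers_iff.mp hc
      rcases Int.even_or_odd' i with ⟨j, rfl | rfl⟩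
      · left; rw [zpow_mul, zpow_two, haa, one_zpow]
      · right; rw [zpow_add, zpow_mul, zpow_two, haa, one_zpow, one_mul, zpow_one]
    rcases hc' with rfl | rfl
    · simp [commutatorElement_def]
    · have ha' : n * c * n⁻¹ ∈ D := hD.1.conj_mem c ha n
      have key : e * (n * c * n⁻¹) = (n * c * n⁻¹) * e := by
        have hmem : (e * (n * c * n⁻¹)) ^ 2 ∈ Cfsg.pCore 2 G := by
          rw [← QuotientGroup.eq_one_iff (N := Cfsg.pCore 2 G)]
          have hn1 : ((n : G) : G ⧸ Cfsg.pCore 2 G) = 1 := (QuotientGroup.eq_one_iff n).mpr hn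
          have h2 : (((e * (n * c * n⁻¹)) ^ 2 : G) : G ⧸ Cfsg.pCore 2 G) =
              (((e * c) ^ 2 : G) : G ⧸ Cfsg.pCore 2 G) := by
            simp only [QuotientGroup.mk_pow, QuotientGroup.mk_mul, QuotientGroup.mk_inv, hn1,
              one_mul, mul_one, inv_one]
          rw [h2]
          have h3 : (e * c) ^ 2 = 1 := by
            rw [pow_two]
            calc e * c * (e * c) = e * (c * e) * c := by group
              _ = e * (e * c) * c := by rw [← hea]
              _ = (e * e) * (c * c) := by group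
              _ = 1 := by rw [hee, haa, one_mul]
          rw [h3]; rfl
        obtain ⟨k, hk⟩ := hQ ⟨_, hmem⟩
        have hk' : ((e * (n * c * n⁻¹)) ^ 2) ^ (2 ^ k) = 1 := congrArg Subtype.val hk
        rw [← pow_mul, ← pow_succ'] at hk'
        exact odd_transp_comm_of_two_elt hD heD ha' hk'
      have hainv : c⁻¹ = c := inv_eq_of_mul_eq_one_left haa
      rw [commutatorElement_def, hainv]
      calc e * (n * c * n⁻¹ * c) = (e * (n * c * n⁻¹)) * c := by group
        _ = (n * c * n⁻¹) * e * c := by rw [key]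
        _ = (n * c * n⁻¹) * (e * c) := by group
        _ = (n * c * n⁻¹) * (c * e) := by rw [hea]
        _ = n * c * n⁻¹ * c * e := by group
  intro q hq
  exact (Subgroup.mem_centralizer_singleton_iff.mp (hle hq)).symm

theorem odd_transp_part2 {G : Type u} [Group G] [Finite G] {D : Set G}
    (hD : Cfsg.IsOddTranspositionSet D) {a : G} (ha : a ∈ D) :
    ∀ b ∈ Cfsg.oddPartners D a,
      Cfsg.pCore 2 G ⊓ Subgroup.centralizer {a * b} =
        Cfsg.pCore 2 G ⊓ Subgroup.centralizer {a} ⊓ Subgroup.centralizer {b} := by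
  rintro b ⟨hbD, hba, hodd⟩
  haveI : (Cfsg.pCore 2 G).Normal := pCore_normal3 2 G
  have hQ : IsPGroup 2 (Cfsg.pCore 2 G) := pCore_isPGroup3 2 G
  have haa : a * a = 1 := sq_one_of_mem_oddTransp hD ha
  have hbb : b * b = 1 := sq_one_of_mem_oddTransp hD hbD
  have hainv : a⁻¹ = a := inv_eq_of_mul_eq_one_left haa
  have hbinv : b⁻¹ = b := inv_eq_of_mul_eq_one_left hbb
  ext n
  simp only [Subgroup.mem_inf, Subgroup.mem_centralizer_singleton_iff]
  constructor
  · rintro ⟨hn, hnr⟩
    have ha' : n * a * n⁻¹ ∈ D := hD.1.conj_mem a ha n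
    have hb' : n * b * n⁻¹ ∈ D := hD.1.conj_mem b hbD n
    have h1 : a * (n * a * n⁻¹) ∈ Cfsg.pCore 2 G := by
      have e1 : a * (n * a * n⁻¹) = (a * n * a⁻¹) * n⁻¹ := by rw [hainv]; group
      rw [e1]
      exact Subgroup.mul_mem _ (Subgroup.Normal.conj_mem inferInstance n hn a)
        (Subgroup.inv_mem _ hn)
    obtain ⟨k, hk⟩ := hQ ⟨_, h1⟩
    have hk' : (a * (n * a * n⁻¹)) ^ (2 ^ k) = 1 := congrArg Subtype.val hk
    have hcomm : a * (n * a * n⁻¹) = (n * a * n⁻¹) * a :=
      odd_transp_comm_of_two_elt hD ha ha' hk'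
    have ha'2 : (n * a * n⁻¹) * (n * a * n⁻¹) = 1 := sq_one_of_mem_oddTransp hD ha'
    obtain ⟨t, ht⟩ : ∃ t, t = a * (n * a * n⁻¹) := ⟨_, rfl⟩
    have ht2 : t * t = 1 := by
      rw [ht]
      calc a * (n * a * n⁻¹) * (a * (n * a * n⁻¹))
          = a * ((n * a * n⁻¹) * a) * (n * a * n⁻¹) := by group
        _ = a * (a * (n * a * n⁻¹)) * (n * a * n⁻¹) := by rw [← hcomm]
        _ = (a * a) * ((n * a * n⁻¹) * (n * a * n⁻¹)) := by group
        _ = 1 := by rw [haa, ha'2, one_mul]
    have hninv_comm : n⁻¹ * (a * b) = (a * b) * n⁻¹ := by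
      calc n⁻¹ * (a * b) = n⁻¹ * ((a * b) * n) * n⁻¹ := by group
        _ = n⁻¹ * (n * (a * b)) * n⁻¹ := by rw [hnr]
        _ = (a * b) * n⁻¹ := by group
    have hb'eq1 : (n * a * n⁻¹) * (a * b) = n * b * n⁻¹ := by
      calc (n * a * n⁻¹) * (a * b) = n * a * (n⁻¹ * (a * b)) := by group
        _ = n * a * ((a * b) * n⁻¹) := by rw [hninv_comm]
        _ = n * (a * a) * b * n⁻¹ := by group
        _ = n * b * n⁻¹ := by rw [haa, mul_one]
    have hba_comm : (b * a) * n = n * (b * a) := by
      have e : b * a = (a * b)⁻¹ := by rw [mul_inv_rev, hainv, hbinv]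
      rw [e]
      calc (a * b)⁻¹ * n = (a * b)⁻¹ * (n * (a * b)) * (a * b)⁻¹ := by group
        _ = (a * b)⁻¹ * ((a * b) * n) * (a * b)⁻¹ := by rw [hnr]
        _ = n * (a * b)⁻¹ := by group
    have hb'eq2 : (a * b) * (a * (n * a * n⁻¹)) = a * (n * b * n⁻¹) := by
      calc (a * b) * (a * (n * a * n⁻¹)) = a * ((b * a) * n) * a * n⁻¹ := by group
        _ = a * (n * (b * a)) * a * n⁻¹ := by rw [hba_comm]
        _ = a * (n * b * (a * a) * n⁻¹) := by group
        _ = a * (n * b * n⁻¹) := by rw [haa, mul_one]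
    have htr : t * (a * b) = a * (n * b * n⁻¹) := by
      rw [ht, mul_assoc, hb'eq1]
    have hrt : (a * b) * t = a * (n * b * n⁻¹) := by rw [ht, hb'eq2]
    have hcomm_tr : Commute t (a * b) := by
      show t * (a * b) = (a * b) * t
      rw [htr, hrt]
    have ht1 : t = 1 := by
      rcases hD.1.pair a ha _ hb' with h | h | ⟨h, -⟩
      · exfalso
        have hsq : (a * (n * b * n⁻¹)) * (a * (n * b * n⁻¹)) = 1 := by
          calc (a * (n * b * n⁻¹)) * (a * (n * b * n⁻¹))
              = a * ((n * b * n⁻¹) * a) * (n * b * n⁻¹) := by group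
            _ = a * (a * (n * b * n⁻¹)) * (n * b * n⁻¹) := by rw [← h]
            _ = (a * a) * ((n * b * n⁻¹) * (n * b * n⁻¹)) := by group
            _ = 1 := by rw [haa, sq_one_of_mem_oddTransp hD hb', one_mul]
        rw [← htr] at hsq
        have hrr : (a * b) * (a * b) = 1 := by
          have h3 : t * (a * b) * (t * (a * b)) = (t * t) * ((a * b) * (a * b)) := by
            calc t * (a * b) * (t * (a * b)) = t * ((a * b) * t) * (a * b) := by group
              _ = t * (t * (a * b)) * (a * b) := by rw [hcomm_tr.eq]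
              _ = (t * t) * ((a * b) * (a * b)) := by group
          rw [h3, ht2, one_mul] at hsq
          exact hsq
        have hdvd : orderOf (a * b) ∣ 2 :=
          orderOf_dvd_of_pow_eq_one (by rw [pow_two]; exact hrr)
        have h1' : orderOf (a * b) = 1 :=
          Nat.Coprime.eq_one_of_dvd (Nat.coprime_two_right.mpr hodd) hdvd
        have hab1 : a * b = 1 := orderOf_eq_one_iff.mp h1'
        apply hba
        have h4 : b = a⁻¹ := eq_inv_of_mul_eq_one_right hab1
        rw [h4, hainv]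
      · obtain ⟨j, hj⟩ := h
        have hm : (t * (a * b)) ^ (2 * j + 1) = 1 := by
          rw [htr, ← hj]; exact pow_orderOf_eq_one _
        rw [hcomm_tr.mul_pow] at hm
        have htm : t ^ (2 * j + 1) = t := by
          rw [pow_succ, pow_mul, pow_two, ht2, one_pow, one_mul]
        rw [htm] at hm
        have ht' : t = ((a * b) ^ (2 * j + 1))⁻¹ := eq_inv_of_mul_eq_one_left hm
        obtain ⟨i, hi⟩ := hodd
        have hto : t ^ (2 * i + 1) = 1 := by
          rw [ht', inv_pow, ← pow_mul, mul_comm (2 * j + 1) (2 * i + 1), pow_mul, ← hi,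
            pow_orderOf_eq_one, one_pow, inv_one]
        have hti : t ^ (2 * i + 1) = t := by
          rw [pow_succ, pow_mul, pow_two, ht2, one_pow, one_mul]
        rw [hti] at hto
        exact hto
      · exact absurd h (hD.2 a ha _ hb')
    rw [ht] at ht1
    have h5 : n * a * n⁻¹ = a := by
      have h6 := eq_inv_of_mul_eq_one_right ht1
      rw [h6, hainv]
    have hna : n * a = a * n := by
      calc n * a = (n * a * n⁻¹) * n := by group
        _ = a * n := by rw [h5]
    refine ⟨⟨hn, hna⟩, ?_⟩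
    calc n * b = n * ((a * a) * b) := by rw [haa, one_mul]
      _ = (n * a) * (a * b) := by group
      _ = (a * n) * (a * b) := by rw [hna]
      _ = a * (n * (a * b)) := by group
      _ = a * ((a * b) * n) := by rw [hnr]
      _ = (a * a) * b * n := by group
      _ = b * n := by rw [haa, one_mul]
  · rintro ⟨⟨hn, hna⟩, hnb⟩
    refine ⟨hn, ?_⟩
    rw [← mul_assoc, hna, mul_assoc, hnb, mul_assoc]

end Cfsg.Agent.Lib.helper3
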