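import Mathlib
import Cfsg.Agent.Lib.helper3.Subnormal
import Cfsg.Agent.Lib.helper3.Solvable

set_option autoImplicit false
set_option linter.style.haveILetI false

namespace Cfsg.Agent.Lib.helper3

universe u v

/-- A minimal normal subgroup of a finite solvable group is an abelian `p`-group. -/
theorem IsMinNormal.exists_isPGroup_comm {G : Type u} [Group G] [Finite G] [Group.IsSolvable G]
    {B : Subgroup G} (hB : IsMinNormal B) :
    ∃ p : ℕ, p.Prime ∧ IsPGroup p B ∧ ∀ a ∈ B, ∀ b ∈ B, a * b = b * a := by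
  haveI := hB.1
  haveI : Nontrivial B := (Subgroup.nontrivial_iff_ne_bot B).mpr hB.2.1
  obtain ⟨A', hA'c, hA'comm, hA'ne⟩ := exists_char_comm_ne_bot B
  haveI := hA'c
  have hAn : (A'.map B.subtype).Normal := inferInstance
  have hAeq : A'.map B.subtype = B := by
    refine (hB.2.2 _ hAn (Subgroup.map_subtype_le _)).resolve_left ?_
    intro hbot
    rw [Subgroup.map_eq_bot_iff_of_injective _ (Subgroup.subtype_injective _)] at hbot
    exact hA'ne hbot
  have hcomm : ∀ x y : B, x * y = y * x := by
    intro x y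
    have hx : (x : G) ∈ A'.map B.subtype := by rw [hAeq]; exact x.2
    have hy : (y : G) ∈ A'.map B.subtype := by rw [hAeq]; exact y.2
    obtain ⟨x', hx', hxe⟩ := hx
    obtain ⟨y', hy', hye⟩ := hy
    have ex : x' = x := Subtype.ext hxe
    have ey : y' = y := Subtype.ext hye
    rw [← ex, ← ey]
    have := hA'comm.is_comm.comm ⟨x', hx'⟩ ⟨y', hy'⟩
    exact congrArg Subtype.val this
  have hcard : Nat.card B ≠ 1 := fun h => hB.2.1 (Subgroup.card_eq_one.mp h)
  obtain ⟨p, hp, hpd⟩ := Nat.exists_prime_and_dvd hcard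
  haveI : Fact p.Prime := ⟨hp⟩
  obtain P : Sylow p B := default
  have hPn : (P : Subgroup B).Normal := by
    constructor
    intro n hn g
    have : g * n * g⁻¹ = n := by rw [hcomm g n]; group
    rw [this]; exact hn
  haveI := P.characteristic_of_normal hPn
  have hPGn : ((P : Subgroup B).map B.subtype).Normal := inferInstance
  have hPeq : (P : Subgroup B).map B.subtype = B := by
    refine (hB.2.2 _ hPGn (Subgroup.map_subtype_le _)).resolve_left ?_
    intro hbot
    rw [Subgroup.map_eq_bot_iff_of_injective _ (Subgroup.subtype_injective _)] at hbot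
    exact P.ne_bot_of_dvd_card hpd hbot
  refine ⟨p, hp, ?_, ?_⟩
  · have h1 : IsPGroup p ((P : Subgroup B).map B.subtype) := P.isPGroup'.map B.subtype
    rwa [hPeq] at h1
  · intro a ha b hb
    exact congrArg Subtype.val (hcomm ⟨a, ha⟩ ⟨b, hb⟩)

/-- Structure of a minimal normal subgroup of a finite solvable group acting faithfully and
primitively: it is abelian, transitive, and the point stabilizers meet its centralizer
trivially. -/
theorem prim_minNormal {G : Type u} [Group G] [Finite G] [Group.IsSolvable G] {Ω : Type v}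
    [MulAction G Ω] [FaithfulSMul G Ω] (hprim : MulAction.IsPreprimitive G Ω) (M : Subgroup G)
    [M.Normal] (hM : M ≠ ⊥) (hmin : ∀ K : Subgroup G, K.Normal → K ≤ M → K = ⊥ ∨ K = M) :
    (∀ a ∈ M, ∀ b ∈ M, a * b = b * a) ∧ MulAction.IsPretransitive M Ω ∧
    (∀ (ω : Ω) (x : G), x ∈ MulAction.stabilizer G ω →
      x ∈ Subgroup.centralizer (M : Set G) → x = 1) ∧
    ∃ p : ℕ, p.Prime ∧ IsPGroup p M := by
  haveI := hprim
  have hMmin : IsMinNormal M := ⟨inferInstance, hM, hmin⟩
  obtain ⟨p, hp, hMp, hMab⟩ := hMmin.exists_isPGroup_comm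
  have hfix : MulAction.fixedPoints M Ω ≠ Set.univ := by
    intro h
    apply hM
    rw [eq_bot_iff]
    intro m hm
    rw [Subgroup.mem_bot]
    apply FaithfulSMul.eq_of_smul_eq_smul (α := Ω)
    intro ω
    have h1 : ω ∈ MulAction.fixedPoints M Ω := by rw [h]; trivial
    have h2 := h1 ⟨m, hm⟩
    rw [one_smul]
    exact h2
  have htrans : MulAction.IsPretransitive M Ω :=
    MulAction.IsQuasiPreprimitive.isPretransitive_of_normal hfix
  refine ⟨hMab, htrans, ?_, p, hp, hMp⟩
  intro ω x hx hxc
  apply FaithfulSMul.eq_of_smul_eq_smul (α := Ω)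
  intro ω'
  obtain ⟨n, hn⟩ := MulAction.exists_smul_eq M ω ω'
  have hn' : (n : G) • ω = ω' := hn
  rw [one_smul, ← hn', ← mul_smul]
  have h1 : x * (n : G) = n * x := ((Subgroup.mem_centralizer_iff.mp hxc) n n.2).symm
  rw [h1, mul_smul]
  congr 1

end Cfsg.Agent.Lib.helper3
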