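import Mathlib
import Cfsg.Agent.Lib.helper3.ItoNormal
import Cfsg.Agent.Lib.helper3.Supersolvable
import Cfsg.Agent.Lib.helper3.Basic
import Cfsg.Agent.S0572

set_option autoImplicit false
set_option linter.style.haveILetI false

namespace Cfsg.Agent.Lib.helper3

universe u

/-- Douglas / Huppert: a finite product of two cyclic subgroups is supersolvable. -/
theorem prod_cyclic_aux : ∀ (n : ℕ) (G : Type u) [Group G] [Finite G], Nat.card G = n →
    ∀ (A B : Subgroup G), IsCyclic A → IsCyclic B →
    (∀ g : G, ∃ a ∈ A, ∃ b ∈ B, g = a * b) → Cfsg.IsSupersolvable G := by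
  intro n
  induction n using Nat.strong_induction_on with
  | _ n ih =>
    intro G _ _ hn A B hAc hBc hAB
    rcases subsingleton_or_nontrivial G with hs | hnt
    · rw [isSupersolvable_iff_reach]
      have : (⊤ : Subgroup G) = ⊥ := Subsingleton.elim _ _
      rw [this]; exact Reach.bot
    haveI := hAc
    haveI := hBc
    have hA : ∀ x ∈ A, ∀ y ∈ A, x * y = y * x := fun x hx y hy => setLike_mul_comm hx hy
    have hB : ∀ x ∈ B, ∀ y ∈ B, x * y = y * x := fun x hx y hy => setLike_mul_comm hx hy
    have h2 : derivedSeries G 2 = ⊥ := Cfsg.Agent.S0572.result A B hAB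
    have h3 : ⁅commutator G, commutator G⁆ = ⊥ := by
      rw [← derivedSeries_one]; exact h2
    rw [Subgroup.commutator_eq_bot_iff_le_centralizer] at h3
    have hM : ∀ x ∈ commutator G, ∀ y ∈ commutator G, x * y = y * x := by
      intro x hx y hy
      exact (Subgroup.mem_centralizer_iff.mp (h3 hy) x hx)
    obtain ⟨N, hNn, hNbot, hNle⟩ := ito_normal_aux A B hA hB hAB hM
    haveI := hNn
    haveI hNcyc : IsCyclic N := by
      rcases hNle with h | h
      · exact isCyclic_of_injective (Subgroup.inclusion h) (Subgroup.inclusion_injective h)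
      · exact isCyclic_of_injective (Subgroup.inclusion h) (Subgroup.inclusion_injective h)
    have hreach : Reach N := reach_of_isCyclic_normal N
    have hlt : Nat.card (G ⧸ N) < n := hn ▸ card_quotient_lt N hNbot
    set π := QuotientGroup.mk' N with hπ
    have hAq : IsCyclic (A.map π) :=
      isCyclic_of_surjective (π.subgroupMap A) (π.subgroupMap_surjective A)
    have hBq : IsCyclic (B.map π) :=
      isCyclic_of_surjective (π.subgroupMap B) (π.subgroupMap_surjective B)
    have hQ : Cfsg.IsSupersolvable (G ⧸ N) := by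
      apply ih _ hlt (G ⧸ N) rfl (A.map π) (B.map π) hAq hBq
      intro g
      obtain ⟨g, rfl⟩ := QuotientGroup.mk'_surjective N g
      obtain ⟨a, ha, b, hb, rfl⟩ := hAB g
      exact ⟨π a, Subgroup.mem_map_of_mem π ha, π b, Subgroup.mem_map_of_mem π hb, map_mul π a b⟩
    exact isSupersolvable_of_extension N hreach hQ

end Cfsg.Agent.Lib.helper3
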