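import Mathlib
import Cfsg.Prelude.Def_PLocal
import Cfsg.Agent.Lib.helper3.QuadPairTracked
import Cfsg.Agent.Lib.helper3.SL2PSolv2
import Cfsg.Agent.Lib.helper3.SL23
import Cfsg.Agent.Lib.helper3.PSolvQuad

set_option autoImplicit false
set_option linter.style.haveILetI false

namespace Cfsg.Agent.Lib.helper3

universe u w

/-- From a homomorphism to `SL₂(K)` (odd characteristic `p`), an element `x` with `φ x` of order
dividing `p`, and an element `q` whose image lies in a normal `p'`-subgroup of the range and does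
not commute with `φ x`: `p = 3` and the trace data of a copy of `SL₂(𝔽₃)`. -/
theorem sl23_traces_of_hom {K : Type*} [Field K] {p : ℕ} [Fact p.Prime] [CharP K p]
    (hp2 : p ≠ 2) {G : Type w} [Group G] [Finite G]
    (φ : G →* Matrix.SpecialLinearGroup (Fin 2) K) (N : Subgroup φ.range) [N.Normal]
    (hNc : (Nat.card N).Coprime p) (x q : G) (hx : φ x ^ p = 1)
    (hq : φ.rangeRestrict q ∈ N) (hne : φ x * φ q ≠ φ q * φ x) :
    p = 3 ∧ Matrix.trace (φ x : Matrix (Fin 2) (Fin 2) K) = 2 ∧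
      Matrix.trace (φ (q * x⁻¹ * q⁻¹) : Matrix (Fin 2) (Fin 2) K) = 2 ∧
      Matrix.trace ((φ x : Matrix (Fin 2) (Fin 2) K) *
        (φ (q * x⁻¹ * q⁻¹) : Matrix (Fin 2) (Fin 2) K)) = 0 := by
  haveI : Finite φ.range := Finite.of_surjective φ.rangeRestrict φ.rangeRestrict_surjective
  have hx' : (φ.rangeRestrict x) ^ p = 1 := by
    apply Subtype.ext
    show φ x ^ p = 1
    exact hx
  have hne' : φ.rangeRestrict x * φ.rangeRestrict q ≠ φ.rangeRestrict q * φ.rangeRestrict x := by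
    intro h
    apply hne
    exact congrArg Subtype.val h
  obtain ⟨h0, h3⟩ := sl2g_comm_trace_zero (p := p) φ.range.subtype φ.range.subtype_injective hp2 N
    hNc (φ.rangeRestrict x) hx' (φ.rangeRestrict q) hq hne'
  refine ⟨h3, sl2_trace_of_ppow (φ x) 1 (by rw [pow_one]; exact hx), ?_, ?_⟩
  · apply sl2_trace_of_ppow (p := p) _ 1
    rw [pow_one, map_mul, map_mul, map_inv, map_inv, conj_pow, inv_pow, hx]
    group
  · have e0 : φ.rangeRestrict x *
        (φ.rangeRestrict q * (φ.rangeRestrict x)⁻¹ * (φ.rangeRestrict q)⁻¹) =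
        φ.rangeRestrict (x * (q * x⁻¹ * q⁻¹)) := by
      simp only [map_mul, map_inv]
    rw [e0] at h0
    have e1 : φ.range.subtype (φ.rangeRestrict (x * (q * x⁻¹ * q⁻¹))) =
        φ x * φ (q * x⁻¹ * q⁻¹) := by
      rw [← map_mul]; rfl
    rw [e1, Matrix.SpecialLinearGroup.coe_mul] at h0
    exact h0

/-- `p`-solvable version: two quadratic generators of a `p`-solvable group not acting as a
`p`-group force `p = 3` and the trace data of a copy of `SL₂(𝔽₃)`. -/
theorem quad_pair_sl23_psolv {E : Type u} [CommGroup E] [Finite E] {p : ℕ} [Fact p.Prime]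
    (hp2 : p ≠ 2)
    (hexp : ∀ x : E, x ^ p = 1) {G : Type w} [Group G] [Finite G] (α : G →* MulAut E) (a b : G)
    (hgen : Subgroup.closure {a, b} = ⊤)
    (ha : ∀ x : E, α a (α a x / x) = α a x / x) (hb : ∀ x : E, α b (α b x / x) = α b x / x)
    (hsol : Cfsg.IsPSolvable p G) (hnp : ∃ g : G, ∀ j : ℕ, α g ^ (p ^ j) ≠ 1) :
    p = 3 ∧ ∃ (n : ℕ) (φ : G →* Matrix.SpecialLinearGroup (Fin 2) (GaloisField p n)) (x y : G),
      Matrix.trace (φ x : Matrix (Fin 2) (Fin 2) (GaloisField p n)) = 2 ∧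
      Matrix.trace (φ y : Matrix (Fin 2) (Fin 2) (GaloisField p n)) = 2 ∧
      Matrix.trace ((φ x : Matrix (Fin 2) (Fin 2) (GaloisField p n)) *
        (φ y : Matrix (Fin 2) (Fin 2) (GaloisField p n))) = 0 := by
  classical
  have hp : p.Prime := Fact.out
  obtain ⟨n, φ, hφ1, g₀, hg₀⟩ := quad_pair_abstract hexp α a b hgen ha hb hnp
  haveI : Finite φ.range := Finite.of_surjective φ.rangeRestrict φ.rangeRestrict_surjective
  have hS : Subgroup.closure ({φ.rangeRestrict a, φ.rangeRestrict b} : Set φ.range) = ⊤ := by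
    have h1 := MonoidHom.map_closure φ.rangeRestrict ({a, b} : Set G)
    rw [hgen, Subgroup.map_top_of_surjective _ φ.rangeRestrict_surjective, Set.image_pair] at h1
    exact h1.symm
  have hpa : φ a ^ p = 1 := by
    rw [← map_pow]
    exact hφ1 _ (by rw [map_pow]; exact mulAut_quad_pow_prime hexp _ ha)
  have hpb : φ b ^ p = 1 := by
    rw [← map_pow]
    exact hφ1 _ (by rw [map_pow]; exact mulAut_quad_pow_prime hexp _ hb)
  have hSp1 : ∀ s ∈ ({φ.rangeRestrict a, φ.rangeRestrict b} : Set φ.range), s ^ p = 1 := by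
    intro s hs
    rcases hs with rfl | hs
    · apply Subtype.ext
      show φ a ^ p = 1
      exact hpa
    · rw [Set.mem_singleton_iff] at hs
      subst hs
      apply Subtype.ext
      show φ b ^ p = 1
      exact hpb
  have hsol' : Cfsg.IsPSolvable p φ.range :=
    Cfsg.Agent.Lib.helper16.isPSolvable_of_surjective φ.rangeRestrict
      φ.rangeRestrict_surjective hsol
  have hnpΓ : ¬ IsPGroup p φ.range := by
    intro hP
    obtain ⟨j, hj⟩ := hP (φ.rangeRestrict g₀)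
    apply hg₀ j
    have := congrArg Subtype.val hj
    simpa using this
  obtain ⟨s, hs, m, hm, hsm⟩ := sl2_psolv_exists_noncomm (p := p) φ.range.subtype
    φ.range.subtype_injective hsol' _ hS hSp1 hnpΓ
  have hNn : (Cfsg.pPrimeCore p φ.range).Normal :=
    (Cfsg.Agent.Lib.helper9.pPrimeCore_mem p φ.range).1
  haveI := hNn
  have hNc : (Nat.card (Cfsg.pPrimeCore p φ.range)).Coprime p :=
    (Cfsg.Agent.Lib.helper9.pPrimeCore_mem p φ.range).2
  obtain ⟨q₀, hq₀⟩ := φ.rangeRestrict_surjective m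
  obtain ⟨x₀, hx₀, hx₀p⟩ : ∃ x₀ : G, s = φ.rangeRestrict x₀ ∧ φ x₀ ^ p = 1 := by
    rcases hs with rfl | hs
    · exact ⟨a, rfl, hpa⟩
    · rw [Set.mem_singleton_iff] at hs
      exact ⟨b, hs, hpb⟩
  have hne : φ x₀ * φ q₀ ≠ φ q₀ * φ x₀ := by
    intro h
    apply hsm
    rw [hx₀, ← hq₀]
    exact Subtype.ext h
  obtain ⟨h3, t1, t2, t3⟩ := sl23_traces_of_hom hp2 φ (Cfsg.pPrimeCore p φ.range) hNc x₀ q₀ hx₀p
    (by rw [hq₀]; exact hm) hne
  exact ⟨h3, n, φ, x₀, q₀ * x₀⁻¹ * q₀⁻¹, t1, t2, t3⟩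

/-- Tracked version: a normal `p'`-subgroup `Q` with an element not commuting with the quadratic
generator `a` (in the action) forces `p = 3` and the trace data of a copy of `SL₂(𝔽₃)`. -/
theorem quad_pair_sl23_tracked {E : Type u} [CommGroup E] [Finite E] {p : ℕ} [Fact p.Prime]
    (hp2 : p ≠ 2)
    (hexp : ∀ x : E, x ^ p = 1) {G : Type w} [Group G] [Finite G] (α : G →* MulAut E) (a b : G)
    (hgen : Subgroup.closure {a, b} = ⊤)
    (ha : ∀ x : E, α a (α a x / x) = α a x / x) (hb : ∀ x : E, α b (α b x / x) = α b x / x)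
    (Q : Subgroup G) [hQn : Q.Normal] (hQ : (Nat.card Q).Coprime p) (q : G) (hq : q ∈ Q)
    (hqa : α (a * q * a⁻¹ * q⁻¹) ≠ 1) :
    p = 3 ∧ ∃ (n : ℕ) (φ : G →* Matrix.SpecialLinearGroup (Fin 2) (GaloisField p n)) (x y : G),
      Matrix.trace (φ x : Matrix (Fin 2) (Fin 2) (GaloisField p n)) = 2 ∧
      Matrix.trace (φ y : Matrix (Fin 2) (Fin 2) (GaloisField p n)) = 2 ∧
      Matrix.trace ((φ x : Matrix (Fin 2) (Fin 2) (GaloisField p n)) *
        (φ y : Matrix (Fin 2) (Fin 2) (GaloisField p n))) = 0 := by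
  classical
  have hp : p.Prime := Fact.out
  obtain ⟨c, hc⟩ : ∃ c : G, c = a * q * a⁻¹ * q⁻¹ := ⟨_, rfl⟩
  rw [← hc] at hqa
  have hcQ : c ∈ Q := by
    rw [hc]
    exact Q.mul_mem (hQn.conj_mem q hq a) (Q.inv_mem hq)
  have hg₀ : ∀ j : ℕ, α c ^ (p ^ j) ≠ 1 := by
    intro j hj
    apply hqa
    have h1 : orderOf (α c) ∣ p ^ j := orderOf_dvd_of_pow_eq_one hj
    have h2 : orderOf (α c) ∣ Nat.card Q :=
      (orderOf_map_dvd α c).trans (Q.orderOf_dvd_natCard hcQ)
    have h3 : orderOf (α c) ∣ Nat.gcd (Nat.card Q) (p ^ j) := Nat.dvd_gcd h2 h1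
    rw [(Nat.Coprime.pow_right j hQ).gcd_eq_one, Nat.dvd_one] at h3
    exact orderOf_eq_one_iff.mp h3
  obtain ⟨n, φ, hφ1, hφc⟩ := quad_pair_abstract_tr hexp α a b hgen ha hb c hg₀
  have hφc1 : φ c ≠ 1 := by
    have := hφc 0
    rw [pow_zero, pow_one] at this
    exact this
  have hne : φ a * φ q ≠ φ q * φ a := by
    intro h
    apply hφc1
    rw [hc, map_mul, map_mul, map_mul, map_inv, map_inv, h]
    group
  have hpa : φ a ^ p = 1 := by
    rw [← map_pow]
    exact hφ1 _ (by rw [map_pow]; exact mulAut_quad_pow_prime hexp _ ha)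
  haveI : (Q.map φ.rangeRestrict).Normal := hQn.map φ.rangeRestrict φ.rangeRestrict_surjective
  have hNc : (Nat.card (Q.map φ.rangeRestrict)).Coprime p :=
    Nat.Coprime.coprime_dvd_left (Subgroup.card_map_dvd Q φ.rangeRestrict) hQ
  obtain ⟨h3, t1, t2, t3⟩ := sl23_traces_of_hom hp2 φ (Q.map φ.rangeRestrict) hNc a q hpa
    ⟨q, hq, rfl⟩ hne
  exact ⟨h3, n, φ, a, q * a⁻¹ * q⁻¹, t1, t2, t3⟩

/-- Subgroups of a `p`-solvable subgroup are `p`-solvable. -/
theorem isPSolvable_of_le {G : Type u} [Group G] {p : ℕ} [Fact p.Prime] {H₁ H : Subgroup G}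
    (hle : H₁ ≤ H) (h : Cfsg.IsPSolvable p ↥H) : Cfsg.IsPSolvable p ↥H₁ :=
  Cfsg.Agent.Lib.helper16.isPSolvable_of_surjective
    (Subgroup.subgroupOfEquivOfLe hle).toMonoidHom (Subgroup.subgroupOfEquivOfLe hle).surjective
    (isPSolvable_subgroup (H₁.subgroupOf H) h)

/-- Concrete version inside a group: two quadratic elements `a`, `b` acting on the elementary
abelian `p`-subgroup `V`, generating a group acting faithfully, which is either `p`-solvable and
not a `p`-group, or has a normal `p'`-subgroup not centralized by `a`: then `p = 3` and the group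
has a section isomorphic to `SL₂(𝔽₃)`. -/
theorem quad_pair_sl23_subgroup {Y : Type u} [Group Y] [Finite Y] {p : ℕ} [Fact p.Prime]
    (hp2 : p ≠ 2)
    (V : Subgroup Y) (hVc : ∀ x ∈ V, ∀ y ∈ V, x * y = y * x) (hVe : ∀ x ∈ V, x ^ p = 1)
    (a b : Y) (haV : a ∈ Subgroup.normalizer (V : Set Y))
    (hbV : b ∈ Subgroup.normalizer (V : Set Y))
    (ha : ∀ v ∈ V, a * (a * v * a⁻¹ * v⁻¹) * a⁻¹ = a * v * a⁻¹ * v⁻¹)
    (hb : ∀ v ∈ V, b * (b * v * b⁻¹ * v⁻¹) * b⁻¹ = b * v * b⁻¹ * v⁻¹)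
    (hf : Subgroup.closure ({a, b} : Set Y) ⊓ Subgroup.centralizer (V : Set Y) = ⊥)
    (hcase : (Cfsg.IsPSolvable p ↥(Subgroup.closure ({a, b} : Set Y)) ∧
        ∃ h ∈ Subgroup.closure ({a, b} : Set Y), ∀ j : ℕ, h ^ (p ^ j) ≠ 1) ∨
      (∃ Q : Subgroup Y, Q ≤ Subgroup.closure ({a, b} : Set Y) ∧
        Subgroup.closure ({a, b} : Set Y) ≤ Subgroup.normalizer (Q : Set Y) ∧
        (Nat.card Q).Coprime p ∧ ∃ q ∈ Q, a * q ≠ q * a)) :
    p = 3 ∧ ∃ (K L : Subgroup Y) (_ : (L.subgroupOf K).Normal),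
      K ≤ Subgroup.closure ({a, b} : Set Y) ∧
      Nonempty (↥K ⧸ L.subgroupOf K ≃* Matrix.SpecialLinearGroup (Fin 2) (ZMod 3)) := by
  classical
  letI : CommGroup ↥V :=
    { (inferInstance : Group ↥V) with
      mul_comm := fun x y => Subtype.ext (hVc x x.2 y y.2) }
  have hHN : Subgroup.closure ({a, b} : Set Y) ≤ Subgroup.normalizer (V : Set Y) := by
    rw [Subgroup.closure_le]
    intro x hx
    rcases hx with rfl | hx
    · exact haV
    · rw [Set.mem_singleton_iff] at hx; subst hx; exact hbV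
  obtain ⟨α, hα⟩ : ∃ α : ↥(Subgroup.closure ({a, b} : Set Y)) →* MulAut ↥V,
      ∀ (g : ↥(Subgroup.closure ({a, b} : Set Y))) (v : ↥V),
        ((α g v : ↥V) : Y) = (g : Y) * v * (g : Y)⁻¹ :=
    ⟨(Subgroup.normalizerMonoidHom V).comp (Subgroup.inclusion hHN), fun g v => rfl⟩
  obtain ⟨a', ha'⟩ : ∃ a' : ↥(Subgroup.closure ({a, b} : Set Y)), (a' : Y) = a :=
    ⟨⟨a, Subgroup.subset_closure (by simp)⟩, rfl⟩
  obtain ⟨b', hb'⟩ : ∃ b' : ↥(Subgroup.closure ({a, b} : Set Y)), (b' : Y) = b :=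
    ⟨⟨b, Subgroup.subset_closure (by simp)⟩, rfl⟩
  have hgen : Subgroup.closure ({a', b'} : Set ↥(Subgroup.closure ({a, b} : Set Y))) = ⊤ := by
    have h1 := Subgroup.closure_closure_coe_preimage (k := ({a, b} : Set Y))
    have h2 : (Subtype.val ⁻¹' ({a, b} : Set Y) :
        Set ↥(Subgroup.closure ({a, b} : Set Y))) = {a', b'} := by
      ext x
      simp only [Set.mem_preimage, Set.mem_insert_iff, Set.mem_singleton_iff]
      rw [Subtype.ext_iff, Subtype.ext_iff, ha', hb']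
    rw [← h2]; exact h1
  have hexp : ∀ x : ↥V, x ^ p = 1 := fun x => Subtype.ext (hVe x x.2)
  have hqa : ∀ x : ↥V, α a' (α a' x / x) = α a' x / x := by
    intro x
    apply Subtype.ext
    rw [hα, Subgroup.coe_div, hα, ha', div_eq_mul_inv]
    exact ha x x.2
  have hqb : ∀ x : ↥V, α b' (α b' x / x) = α b' x / x := by
    intro x
    apply Subtype.ext
    rw [hα, Subgroup.coe_div, hα, hb', div_eq_mul_inv]
    exact hb x x.2
  have hfaith : ∀ g : ↥(Subgroup.closure ({a, b} : Set Y)), α g = 1 → g = 1 := by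
    intro g hg
    have h1 : (g : Y) ∈ Subgroup.closure ({a, b} : Set Y) ⊓ Subgroup.centralizer (V : Set Y) := by
      refine ⟨g.2, Subgroup.mem_centralizer_iff.mpr ?_⟩
      intro v hv
      have h3 := hα g ⟨v, hv⟩
      rw [hg] at h3
      have h4 : v = (g : Y) * v * (g : Y)⁻¹ := h3
      calc v * (g : Y) = ((g : Y) * v * (g : Y)⁻¹) * (g : Y) := by rw [← h4]
        _ = (g : Y) * v := by group
    rw [hf, Subgroup.mem_bot] at h1
    exact Subtype.ext h1
  have main : p = 3 ∧ ∃ (n : ℕ) (φ : ↥(Subgroup.closure ({a, b} : Set Y)) →*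
      Matrix.SpecialLinearGroup (Fin 2) (GaloisField p n))
      (x y : ↥(Subgroup.closure ({a, b} : Set Y))),
      Matrix.trace (φ x : Matrix (Fin 2) (Fin 2) (GaloisField p n)) = 2 ∧
      Matrix.trace (φ y : Matrix (Fin 2) (Fin 2) (GaloisField p n)) = 2 ∧
      Matrix.trace ((φ x : Matrix (Fin 2) (Fin 2) (GaloisField p n)) *
        (φ y : Matrix (Fin 2) (Fin 2) (GaloisField p n))) = 0 := by
    rcases hcase with ⟨hsol, h, hh, hhj⟩ | ⟨Q, hQle, hQn, hQc, q, hqQ, hqne⟩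
    · apply quad_pair_sl23_psolv hp2 hexp α a' b' hgen hqa hqb hsol
      refine ⟨⟨h, hh⟩, fun j hj => hhj j ?_⟩
      rw [← map_pow] at hj
      have := hfaith _ hj
      exact congrArg Subtype.val this
    · haveI hQ'n : (Q.subgroupOf (Subgroup.closure ({a, b} : Set Y))).Normal :=
        (Subgroup.normal_subgroupOf_iff_le_normalizer hQle).mpr hQn
      have hQ'c : (Nat.card ↥(Q.subgroupOf (Subgroup.closure ({a, b} : Set Y)))).Coprime p := by
        rw [Nat.card_congr (Subgroup.subgroupOfEquivOfLe hQle).toEquiv]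
        exact hQc
      apply quad_pair_sl23_tracked hp2 hexp α a' b' hgen hqa hqb
        (Q.subgroupOf (Subgroup.closure ({a, b} : Set Y))) hQ'c ⟨q, hQle hqQ⟩
        (Subgroup.mem_subgroupOf.mpr hqQ)
      intro h1
      have h2 := hfaith _ h1
      have h3 := congrArg Subtype.val h2
      simp only [Subgroup.coe_mul, Subgroup.coe_inv, ha', Subgroup.coe_one] at h3
      apply hqne
      calc a * q = (a * q * a⁻¹ * q⁻¹) * (q * a) := by group
        _ = q * a := by rw [h3, one_mul]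
  obtain ⟨hp3, n, φ, x, y, hx, hy, hxy⟩ := main
  subst hp3
  exact ⟨rfl, sl23_section_of_hom (Subgroup.closure ({a, b} : Set Y)) φ x y hx hy hxy⟩

/-- Baer–Suzuki wrapper: if `a` and each of its `H`-conjugates generate a `p`-group, `a` lies in
a normal `p`-subgroup of `H`. -/
theorem mem_normal_p_of_pairs {G : Type u} [Group G] [Finite G] {p : ℕ} [Fact p.Prime]
    (H : Subgroup G) (a : G) (haH : a ∈ H)
    (key : ∀ g ∈ H, ∀ h ∈ Subgroup.closure ({a, g * a * g⁻¹} : Set G),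
      ∃ j : ℕ, h ^ (p ^ j) = 1) :
    ∃ N : Subgroup ↥H, N.Normal ∧ IsPGroup p N ∧ (⟨a, haH⟩ : ↥H) ∈ N := by
  obtain ⟨x, hx⟩ : ∃ x : ↥H, x = ⟨a, haH⟩ := ⟨_, rfl⟩
  have hXp : IsPGroup p (Subgroup.zpowers x) := by
    rintro ⟨y, hy⟩
    have h1 : (y : G) ∈ Subgroup.closure ({a, 1 * a * 1⁻¹} : Set G) := by
      obtain ⟨i, rfl⟩ := Subgroup.mem_zpowers_iff.mp hy
      rw [hx]
      simp only [Subgroup.coe_zpow]
      exact Subgroup.zpow_mem _ (Subgroup.subset_closure (by simp)) _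
    obtain ⟨j, hj⟩ := key 1 H.one_mem _ h1
    exact ⟨j, Subtype.ext (Subtype.ext (by simpa using hj))⟩
  have hBS : ∀ g : ↥H, IsPGroup p ↥(Subgroup.zpowers x ⊔
      (Subgroup.zpowers x).map (MulAut.conj g).toMonoidHom) := by
    intro g
    have hle : Subgroup.zpowers x ⊔ (Subgroup.zpowers x).map (MulAut.conj g).toMonoidHom ≤
        (Subgroup.closure ({a, (g : G) * a * (g : G)⁻¹} : Set G)).subgroupOf H := by
      apply sup_le
      · rw [Subgroup.zpowers_le, Subgroup.mem_subgroupOf, hx]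
        exact Subgroup.subset_closure (by simp)
      · rw [MonoidHom.map_zpowers, Subgroup.zpowers_le, Subgroup.mem_subgroupOf, hx]
        exact Subgroup.subset_closure (by simp)
    rintro ⟨y, hy⟩
    obtain ⟨j, hj⟩ := key g g.2 _ (Subgroup.mem_subgroupOf.mp (hle hy))
    refine ⟨j, Subtype.ext (Subtype.ext ?_)⟩
    show (y : G) ^ (p ^ j) = 1
    exact hj
  obtain ⟨N, hNn, hNp, hxN⟩ := Cfsg.Agent.S0199.result (Subgroup.zpowers x) hXp hBS
  exact ⟨N, hNn, hNp, hx ▸ hxN (Subgroup.mem_zpowers x)⟩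

end Cfsg.Agent.Lib.helper3
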