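import Mathlib

set_option autoImplicit false

namespace Cfsg.Agent.Lib.helper3.S1454X1

open scoped commutatorElement

theorem extraspecial_of_rank {H : Type*} [Group H] [Finite H] (p : ℕ) [Fact p.Prime] (D : Subgroup H)
    (hexp : ∀ d ∈ D, d ^ p = 1)
    (hcl : ∀ x ∈ D, ∀ y ∈ D, ∀ z ∈ D, ⁅x, y⁆ * z = z * ⁅x, y⁆)
    (hrk : ∀ B : Subgroup H, B ≤ D → (∀ x ∈ B, ∀ y ∈ B, x * y = y * x) → Nat.card B ≤ p ^ 2)
    (hnc : ∃ x ∈ D, ∃ y ∈ D, x * y ≠ y * x) :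
    Nat.card D = p ^ 3 ∧ Nat.card ↥(D ⊓ Subgroup.centralizer (D : Set H)) = p := by
  classical
  have hp : p.Prime := Fact.out
  obtain ⟨d, hd, y, hy, hdy⟩ := hnc
  have pg : ∀ K : Subgroup H, K ≤ D → ∃ n : ℕ, Nat.card K = p ^ n := by
    intro K hK
    have hKp : IsPGroup p K := by
      intro g
      refine ⟨1, ?_⟩
      rw [pow_one]
      exact Subtype.ext (by simpa using hexp g (hK g.2))
    exact IsPGroup.iff_card.mp hKp
  obtain ⟨Z, hZ⟩ : ∃ Z : Subgroup H, Z = D ⊓ Subgroup.centralizer (D : Set H) := ⟨_, rfl⟩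
  have hZmem : ∀ z, z ∈ Z ↔ z ∈ D ∧ z ∈ Subgroup.centralizer (D : Set H) := by
    intro z; rw [hZ, Subgroup.mem_inf]
  have hZD : Z ≤ D := fun z hz => ((hZmem z).mp hz).1
  have hZc : ∀ z ∈ Z, ∀ w ∈ D, w * z = z * w := fun z hz w hw =>
    Subgroup.mem_centralizer_iff.mp ((hZmem z).mp hz).2 w hw
  have hcomD : ∀ a ∈ D, ∀ b ∈ D, ⁅a, b⁆ ∈ D := by
    intro a ha b hb
    rw [commutatorElement_def]
    exact D.mul_mem (D.mul_mem (D.mul_mem ha hb) (D.inv_mem ha)) (D.inv_mem hb)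
  have hcomZ : ∀ a ∈ D, ∀ b ∈ D, ⁅a, b⁆ ∈ Z := by
    intro a ha b hb
    rw [hZmem]
    refine ⟨hcomD a ha b hb, ?_⟩
    rw [Subgroup.mem_centralizer_iff]
    intro z hz
    exact (hcl a ha b hb z hz).symm
  have hc1 : ⁅d, y⁆ ≠ 1 := by
    intro h
    exact hdy (commutatorElement_eq_one_iff_mul_comm.mp h)
  have hZ1 : Nat.card Z ≠ 1 := by
    intro h
    have hbot : Z = ⊥ := Subgroup.eq_bot_of_card_eq Z h
    have hm : ⁅d, y⁆ ∈ Z := hcomZ d hd y hy
    rw [hbot, Subgroup.mem_bot] at hm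
    exact hc1 hm
  have hdZ : d ∉ Z := by
    intro h
    exact hdy (hZc d h y hy).symm
  have key : ∀ S : Set H, (∀ s ∈ S, s ∈ D) → (∀ a ∈ S, ∀ b ∈ S, a * b = b * a) →
      ∃ B : Subgroup H, B ≤ D ∧ (∀ u ∈ B, ∀ v ∈ B, u * v = v * u) ∧ Z ≤ B ∧ (∀ s ∈ S, s ∈ B) ∧
        B ≤ D ⊓ Subgroup.centralizer S := by
    intro S hS hScomm
    refine ⟨(D ⊓ Subgroup.centralizer S) ⊓
      Subgroup.centralizer ((D ⊓ Subgroup.centralizer S : Subgroup H) : Set H), ?_, ?_, ?_, ?_, ?_⟩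
    · exact inf_le_left.trans inf_le_left
    · intro u hu v hv
      have hu2 := (Subgroup.mem_inf.mp hu).2
      have hv1 := (Subgroup.mem_inf.mp hv).1
      exact (Subgroup.mem_centralizer_iff.mp hu2 v hv1).symm
    · intro z hz
      refine Subgroup.mem_inf.mpr ⟨Subgroup.mem_inf.mpr ⟨hZD hz, ?_⟩, ?_⟩
      · rw [Subgroup.mem_centralizer_iff]
        intro s hs
        exact hZc z hz s (hS s hs)
      · rw [Subgroup.mem_centralizer_iff]
        intro k hk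
        exact hZc z hz k (Subgroup.mem_inf.mp hk).1
    · intro s hs
      refine Subgroup.mem_inf.mpr ⟨Subgroup.mem_inf.mpr ⟨hS s hs, ?_⟩, ?_⟩
      · rw [Subgroup.mem_centralizer_iff]
        intro t ht
        exact hScomm t ht s hs
      · rw [Subgroup.mem_centralizer_iff]
        intro k hk
        exact (Subgroup.mem_centralizer_iff.mp (Subgroup.mem_inf.mp hk).2 s hs).symm
    · exact inf_le_left
  have stepD : ∀ B : Subgroup H, B ≤ D → (∀ u ∈ B, ∀ v ∈ B, u * v = v * u) → Z ≤ B → d ∈ B →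
      Nat.card B = p ^ 2 ∧ Nat.card Z = p := by
    intro B hBD hBab hZB hdB
    have h1 : Nat.card B ≤ p ^ 2 := hrk B hBD hBab
    have h2 : Nat.card Z < Nat.card B := by
      by_contra hcon
      have hZB' : Z = B := Subgroup.eq_of_le_of_card_ge hZB (not_lt.mp hcon)
      apply hdZ
      rw [hZB']
      exact hdB
    obtain ⟨a, ha⟩ := pg Z hZD
    obtain ⟨b, hb⟩ := pg B hBD
    rw [ha, hb] at h2
    rw [hb] at h1
    have hb2 : b ≤ 2 := (Nat.pow_le_pow_iff_right hp.one_lt).mp h1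
    have hab : a < b := (Nat.pow_lt_pow_iff_right hp.one_lt).mp h2
    have ha0 : a ≠ 0 := by
      intro h0
      rw [h0, pow_zero] at ha
      exact hZ1 ha
    have ha1 : a = 1 := by omega
    have hb2' : b = 2 := by omega
    constructor
    · rw [hb, hb2']
    · rw [ha, ha1, pow_one]
  obtain ⟨B1, hB1D, hB1ab, hZB1, hdB1, hB1K⟩ := key {d} (by
    intro s hs
    rw [Set.mem_singleton_iff] at hs
    rw [hs]; exact hd) (by
    intro a ha b hb
    rw [Set.mem_singleton_iff] at ha hb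
    rw [ha, hb])
  have hdB1' : d ∈ B1 := hdB1 d (Set.mem_singleton d)
  obtain ⟨hB1card, hZcard⟩ := stepD B1 hB1D hB1ab hZB1 hdB1'
  obtain ⟨K, hKdef⟩ : ∃ K : Subgroup H, K = D ⊓ Subgroup.centralizer ({d} : Set H) := ⟨_, rfl⟩
  have hKmem : ∀ c, c ∈ K ↔ c ∈ D ∧ c ∈ Subgroup.centralizer ({d} : Set H) := by
    intro c; rw [hKdef, Subgroup.mem_inf]
  have hKB1 : K ≤ B1 := by
    intro c hc
    have hcD := ((hKmem c).mp hc).1
    have hcd : d * c = c * d :=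
      Subgroup.mem_centralizer_iff.mp ((hKmem c).mp hc).2 d (Set.mem_singleton d)
    obtain ⟨B2, hB2D, hB2ab, hZB2, hSB2, -⟩ := key {d, c} (by
      intro s hs
      rcases hs with hs | hs
      · rw [hs]; exact hd
      · rw [Set.mem_singleton_iff] at hs; rw [hs]; exact hcD) (by
      intro a ha b hb
      rcases ha with ha | ha <;> rcases hb with hb | hb
      · rw [ha, hb]
      · rw [Set.mem_singleton_iff] at hb; rw [ha, hb]; exact hcd
      · rw [Set.mem_singleton_iff] at ha; rw [ha, hb]; exact hcd.symm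
      · rw [Set.mem_singleton_iff] at ha hb; rw [ha, hb])
    have hdB2 : d ∈ B2 := hSB2 d (Set.mem_insert d {c})
    have hcB2 : c ∈ B2 := hSB2 c (Set.mem_insert_of_mem d (Set.mem_singleton c))
    have hB2card := (stepD B2 hB2D hB2ab hZB2 hdB2).1
    have hIcard := (stepD (B1 ⊓ B2) (inf_le_left.trans hB1D)
      (fun u hu v hv => hB1ab u (Subgroup.mem_inf.mp hu).1 v (Subgroup.mem_inf.mp hv).1)
      (le_inf hZB1 hZB2) (Subgroup.mem_inf.mpr ⟨hdB1', hdB2⟩)).1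
    have hEq : B1 ⊓ B2 = B2 :=
      Subgroup.eq_of_le_of_card_ge inf_le_right (by rw [hIcard, hB2card])
    have hcI : c ∈ B1 ⊓ B2 := by rw [hEq]; exact hcB2
    exact (Subgroup.mem_inf.mp hcI).1
  have hKeq : K = B1 := le_antisymm hKB1 (by rw [hKdef]; exact hB1K)
  have hKcard : Nat.card K = p ^ 2 := by rw [hKeq]; exact hB1card
  have hcard_le : Nat.card D ≤ Nat.card Z * Nat.card K := by
    let rep : H → H := fun z => if h : ∃ y₀ ∈ D, ⁅y₀, d⁆ = z then h.choose else 1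
    have hrep : ∀ w ∈ D, rep ⁅w, d⁆ ∈ D ∧ ⁅rep ⁅w, d⁆, d⁆ = ⁅w, d⁆ := by
      intro w hw
      have h : ∃ y₀ ∈ D, ⁅y₀, d⁆ = ⁅w, d⁆ := ⟨w, hw, rfl⟩
      have hr : rep ⁅w, d⁆ = h.choose := dif_pos h
      rw [hr]
      exact h.choose_spec
    have hK : ∀ w ∈ D, (rep ⁅w, d⁆)⁻¹ * w ∈ K := by
      intro w hw
      obtain ⟨hr1, hr2⟩ := hrep w hw
      rw [hKmem]
      refine ⟨D.mul_mem (D.inv_mem hr1) hw, ?_⟩
      rw [Subgroup.mem_centralizer_iff]
      intro h hh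
      rw [Set.mem_singleton_iff] at hh
      rw [hh]
      have hr2' : rep ⁅w, d⁆ * d * (rep ⁅w, d⁆)⁻¹ * d⁻¹ = w * d * w⁻¹ * d⁻¹ := hr2
      have e1 : rep ⁅w, d⁆ * d * (rep ⁅w, d⁆)⁻¹ = w * d * w⁻¹ := mul_right_cancel hr2'
      calc d * ((rep ⁅w, d⁆)⁻¹ * w)
          = (rep ⁅w, d⁆)⁻¹ * (rep ⁅w, d⁆ * d * (rep ⁅w, d⁆)⁻¹) * w := by group
        _ = (rep ⁅w, d⁆)⁻¹ * (w * d * w⁻¹) * w := by rw [e1]
        _ = (rep ⁅w, d⁆)⁻¹ * w * d := by group
    have hinj : Function.Injective (fun w : ↥D =>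
        ((⟨⁅(w : H), d⁆, hcomZ w w.2 d hd⟩ : ↥Z),
          (⟨(rep ⁅(w : H), d⁆)⁻¹ * (w : H), hK w w.2⟩ : ↥K))) := by
      intro w w' h
      have h1 : ⁅(w : H), d⁆ = ⁅(w' : H), d⁆ := congrArg (fun q : ↥Z × ↥K => (q.1 : H)) h
      have h2 : (rep ⁅(w : H), d⁆)⁻¹ * (w : H) = (rep ⁅(w' : H), d⁆)⁻¹ * (w' : H) :=
        congrArg (fun q : ↥Z × ↥K => (q.2 : H)) h
      rw [h1] at h2
      exact Subtype.ext (mul_left_cancel h2)
    have h3 := Nat.card_le_card_of_injective _ hinj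
    rw [Nat.card_prod] at h3
    exact h3
  have hKD : Nat.card K < Nat.card D := by
    by_contra hcon
    have hKD' : K = D :=
      Subgroup.eq_of_le_of_card_ge (fun c hc => ((hKmem c).mp hc).1) (not_lt.mp hcon)
    have hyK : y ∈ K := by rw [hKD']; exact hy
    exact hdy (Subgroup.mem_centralizer_iff.mp ((hKmem y).mp hyK).2 d (Set.mem_singleton d))
  obtain ⟨n, hn⟩ := pg D le_rfl
  rw [hZcard, hKcard] at hcard_le
  rw [hKcard] at hKD
  rw [hn] at hcard_le hKD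
  have hn3 : n ≤ 3 := by
    have h4 : p ^ n ≤ p ^ 3 := by
      calc p ^ n ≤ p * p ^ 2 := hcard_le
        _ = p ^ 3 := by ring
    exact (Nat.pow_le_pow_iff_right hp.one_lt).mp h4
  have hn2 : 2 < n := (Nat.pow_lt_pow_iff_right hp.one_lt).mp hKD
  have hn' : n = 3 := by omega
  rw [← hZ, hn, hn']
  exact ⟨rfl, hZcard⟩

end Cfsg.Agent.Lib.helper3.S1454X1
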