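import Mathlib
import Cfsg.Agent.Lib.helper3.SL2Odd
import Cfsg.Agent.Lib.helper3.QuadPairSylow2
import Cfsg.Agent.S0016

set_option linter.style.haveILetI false
set_option autoImplicit false

namespace Cfsg.Agent.Lib.helper3

/-- A subgroup of `SL₂(F)`, `F` finite of odd characteristic `p`, with more than one Sylow
`p`-subgroup has generalized quaternion Sylow `2`-subgroups. -/
theorem sl2_sylow2_quaternion {F : Type*} [Field F] [Finite F] (p : ℕ) [Fact p.Prime] [CharP F p]
    (hp : p ≠ 2) (H : Subgroup (Matrix.SpecialLinearGroup (Fin 2) F))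
    (hH : 1 < Nat.card (Sylow p H)) (S : Sylow 2 H) :
    ∃ k : ℕ, 1 ≤ k ∧ Nonempty ((S : Subgroup H) ≃* QuaternionGroup (2 ^ k)) := by
  classical
  have hp' : p.Prime := Fact.out
  haveI : Finite (Matrix.SpecialLinearGroup (Fin 2) F) :=
    Finite.of_injective
      (fun g : Matrix.SpecialLinearGroup (Fin 2) F => (g : Matrix (Fin 2) (Fin 2) F))
      Subtype.val_injective
  have h2 : (2 : F) ≠ 0 := by
    intro h
    have h1 : ((2 : ℕ) : F) = 0 := by exact_mod_cast h
    rw [CharP.cast_eq_zero_iff F p] at h1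
    exact hp ((Nat.prime_dvd_prime_iff_eq hp' Nat.prime_two).mp h1)
  have key : ∀ z : ↥(S : Subgroup ↥H), z ^ 2 = 1 → z ≠ 1 →
      (((z : ↥H) : Matrix.SpecialLinearGroup (Fin 2) F) : Matrix (Fin 2) (Fin 2) F) = -1 := by
    intro z hz hz1
    apply sl2_sq_one_entries h2
    · have h1 := congrArg
        (fun t : ↥(S : Subgroup ↥H) => ((t : ↥H) : Matrix.SpecialLinearGroup (Fin 2) F)) hz
      simp only [Subgroup.coe_pow, Subgroup.coe_one] at h1
      rw [pow_two] at h1
      exact h1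
    · intro h
      apply hz1
      apply Subtype.ext
      apply Subtype.ext
      rw [h]; rfl
  have hinv : ∀ x y : ↥(S : Subgroup ↥H), x ^ 2 = 1 → y ^ 2 = 1 → x ≠ 1 → y ≠ 1 → x = y := by
    intro x y hx hy hx1 hy1
    apply Subtype.ext
    apply Subtype.ext
    apply Subtype.ext
    rw [key x hx hx1, key y hy hy1]
  have hsq : ∀ C : Subgroup ↥(S : Subgroup ↥H), Nat.card C = 2 → ∀ c ∈ C, c ^ 2 = 1 := by
    intro C hC c hc
    have h1 : (⟨c, hc⟩ : ↥C) ^ Nat.card ↥C = 1 := pow_card_eq_one'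
    rw [hC] at h1
    have h3 := congrArg Subtype.val h1
    rw [Subgroup.coe_pow] at h3
    exact h3
  have hAB : ∀ A B : Subgroup ↥(S : Subgroup ↥H), Nat.card A = 2 → Nat.card B = 2 → A ≤ B := by
    intro A B hA hB
    have hBne : B ≠ ⊥ := by
      intro h
      rw [h, Subgroup.card_bot] at hB
      omega
    obtain ⟨⟨b, hbB⟩, hb1⟩ := (Subgroup.ne_bot_iff_exists_ne_one).mp hBne
    have hb1' : b ≠ 1 := fun h => hb1 (Subtype.ext h)
    intro a ha
    by_cases ha1 : a = 1
    · rw [ha1]; exact B.one_mem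
    · have h3 := hinv a b (hsq A hA a ha) (hsq B hB b hbB) ha1 hb1'
      rw [h3]; exact hbB
  have huniq : ∀ A B : Subgroup ↥(S : Subgroup ↥H), Nat.card A = 2 → Nat.card B = 2 → A = B := by
    intro A B hA hB
    exact Subgroup.eq_of_le_of_card_ge (hAB A B hA hB) (by rw [hA, hB])
  have hnc : ¬ IsCyclic ↥(S : Subgroup ↥H) := by
    intro hcyc
    obtain ⟨k, hk⟩ : ∃ k : Set ↥H, k = {s | ∃ j : ℕ, s ^ (p ^ j) = 1} := ⟨_, rfl⟩
    have hkmem : ∀ s, s ∈ k → ∃ j : ℕ, s ^ (p ^ j) = 1 := by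
      intro s hs
      rw [hk] at hs
      exact hs
    obtain ⟨K, hK⟩ : ∃ K : Subgroup ↥H, K = Subgroup.closure k := ⟨_, rfl⟩
    have hTcyc : ∀ T : Sylow 2 ↥K, IsCyclic T := by
      intro T
      have hT2 : IsPGroup 2 ↥((T : Subgroup ↥K).map K.subtype) := T.isPGroup'.map K.subtype
      obtain ⟨Q, hQ⟩ := hT2.exists_le_sylow
      haveI hS1 : IsCyclic S := hcyc
      have hQ1 : IsCyclic Q :=
        isCyclic_of_surjective (Sylow.equiv S Q) (Sylow.equiv S Q).surjective
      haveI hQc : IsCyclic ↥(Q : Subgroup ↥H) := hQ1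
      have e1 : ↥(T : Subgroup ↥K) ≃* ↥((T : Subgroup ↥K).map K.subtype) :=
        (T : Subgroup ↥K).equivMapOfInjective K.subtype K.subtype_injective
      have e2 : ↥(((T : Subgroup ↥K).map K.subtype).subgroupOf (Q : Subgroup ↥H)) ≃*
          ↥((T : Subgroup ↥K).map K.subtype) := Subgroup.subgroupOfEquivOfLe hQ
      show IsCyclic ↥(T : Subgroup ↥K)
      exact isCyclic_of_surjective (e1.symm.toMonoidHom.comp e2.toMonoidHom)
        (e1.symm.surjective.comp e2.surjective)
    have hgenK : Subgroup.closure (Subtype.val ⁻¹' k : Set ↥K) = ⊤ := by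
      subst hK
      exact Subgroup.closure_closure_coe_preimage
    have hoddK : Odd (Nat.card ↥K) := by
      obtain ⟨T⟩ : Nonempty (Sylow 2 ↥K) := inferInstance
      refine odd_card_of_cyclic_sylow2 T (hTcyc T) _ hgenK ?_
      intro s hs
      obtain ⟨j, hj⟩ := hkmem _ hs
      refine ⟨p ^ j, ?_, Subtype.ext (by rw [Subgroup.coe_pow]; exact hj)⟩
      exact (hp'.odd_of_ne_two hp).pow
    have hKp : IsPGroup p ↥K := sl2_odd_isPGroup (H.subtype.comp K.subtype)
      (by rw [MonoidHom.coe_comp]; exact H.subtype_injective.comp K.subtype_injective)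
      hoddK _ hgenK (by
        intro s hs
        obtain ⟨j, hj⟩ := hkmem _ hs
        exact ⟨j, Subtype.ext (by rw [Subgroup.coe_pow]; exact hj)⟩)
    have hle : ∀ P : Sylow p ↥H, (P : Subgroup ↥H) ≤ K := by
      intro P x hx
      rw [hK]
      apply Subgroup.subset_closure
      rw [hk]
      obtain ⟨j, hj⟩ := P.isPGroup' ⟨x, hx⟩
      have h3 := congrArg Subtype.val hj
      rw [Subgroup.coe_pow] at h3
      exact ⟨j, h3⟩
    have heq : ∀ P : Sylow p ↥H, (P : Subgroup ↥H) = K :=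
      fun P => (P.is_maximal' hKp (hle P)).symm
    have hsub : Subsingleton (Sylow p ↥H) :=
      ⟨fun P Q => Sylow.ext ((heq P).trans (heq Q).symm)⟩
    have h1 : Nat.card (Sylow p ↥H) ≤ 1 := Finite.card_le_one_iff_subsingleton.mpr hsub
    omega
  rcases Cfsg.Agent.S0016.result 2 S.isPGroup' huniq with hc | ⟨-, n, ⟨e⟩⟩
  · exact absurd hc hnc
  · refine ⟨n, ?_, ⟨e⟩⟩
    by_contra hn
    have hn0 : n = 0 := by omega
    subst hn0
    apply hnc
    haveI : IsCyclic (QuaternionGroup (2 ^ 0)) := by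
      rw [pow_zero]; exact QuaternionGroup.quaternionGroup_one_isCyclic
    exact isCyclic_of_surjective e.symm e.symm.surjective

end Cfsg.Agent.Lib.helper3
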