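import Mathlib
import Cfsg.Agent.Lib.helper3.SchmidtC

set_option autoImplicit false
set_option linter.style.haveILetI false

namespace Cfsg.Agent.Lib.helper3

universe u

theorem card_eq_of_sylow_sup {G : Type u} [Group G] [Finite G] {p q : ℕ} [Fact p.Prime]
    [Fact q.Prime] (hpq : p ≠ q) (P : Sylow p G) (Q : Sylow q G) [(Q : Subgroup G).Normal]
    (hPQ : (P : Subgroup G) ⊔ Q = ⊤) : Nat.card P * Nat.card Q = Nat.card G := by
  have hdisj : (P : Subgroup G) ⊓ Q = ⊥ :=
    disjoint_iff.mp (IsPGroup.disjoint_of_ne p q hpq _ _ P.isPGroup' Q.isPGroup')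
  have h2 := card_sup_mul_card_inf_of_normal (P : Subgroup G) (Q : Subgroup G)
  rw [hPQ, hdisj, Subgroup.card_bot, Subgroup.card_top, mul_one] at h2
  exact h2.symm

theorem sylow_eq_bot_of_ne {G : Type u} [Group G] [Finite G] {p q : ℕ} [Fact p.Prime]
    [Fact q.Prime] (hpq : p ≠ q) (P : Sylow p G) (Q : Sylow q G) [(Q : Subgroup G).Normal]
    (hPQ : (P : Subgroup G) ⊔ Q = ⊤) {r : ℕ} [hr : Fact r.Prime] (hrp : r ≠ p) (hrq : r ≠ q)
    (R : Sylow r G) : (R : Subgroup G) = ⊥ := by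
  have hc := card_eq_of_sylow_sup hpq P Q hPQ
  have hnd : ¬ r ∣ Nat.card G := by
    rw [← hc, P.card_eq_multiplicity, Q.card_eq_multiplicity]
    intro hd
    rcases (Nat.Prime.dvd_mul hr.out).mp hd with h1 | h1
    · exact hrp ((Nat.prime_dvd_prime_iff_eq hr.out Fact.out).mp
        (Nat.Prime.dvd_of_dvd_pow hr.out h1))
    · exact hrq ((Nat.prime_dvd_prime_iff_eq hr.out Fact.out).mp
        (Nat.Prime.dvd_of_dvd_pow hr.out h1))
  rw [← Subgroup.card_eq_one, R.card_eq_multiplicity, Nat.factorization_eq_zero_of_not_dvd hnd,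
    pow_zero]

theorem nilpotent_of_two_normal_sylow {G : Type u} [Group G] [Finite G] {p q : ℕ}
    [Fact p.Prime] [Fact q.Prime] (hpq : p ≠ q) (P : Sylow p G) (Q : Sylow q G)
    (hP : (P : Subgroup G).Normal) (hQ : (Q : Subgroup G).Normal)
    (hPQ : (P : Subgroup G) ⊔ Q = ⊤) : Group.IsNilpotent G := by
  apply ((Group.isNilpotent_of_finite_tfae (G := G)).out 0 3).mpr
  intro r hrf R
  by_cases hrp : r = p
  · subst hrp; exact all_sylow_normal_of_normal P hP R
  by_cases hrq : r = q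
  · subst hrq; exact all_sylow_normal_of_normal Q hQ R
  haveI := hQ
  rw [sylow_eq_bot_of_ne hpq P Q hPQ hrp hrq R]
  exact Subgroup.normal_bot

end Cfsg.Agent.Lib.helper3
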