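import Mathlib
import Cfsg.Agent.S0531
import Cfsg.Agent.S0532
import Cfsg.Agent.Lib.helper3.Supersolvable
import Cfsg.Agent.Lib.helper3.SupersolvablePrime
import Cfsg.Agent.Lib.helper3.Conj
import Cfsg.Agent.Lib.helper3.Normalizer
import Cfsg.Agent.Lib.helper3.Primitive

set_option autoImplicit false
set_option linter.style.haveILetI false

namespace Cfsg.Agent.Lib.helper3

universe u

open Pointwise

/-- In a finite supersolvable group the Sylow subgroup for the largest prime is normal. -/
theorem supersolvable_sylow_normal {G : Type u} [Group G] [Finite G]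
    (h : Cfsg.IsSupersolvable G) (p : ℕ) [Fact p.Prime]
    (hmax : ∀ q : ℕ, q.Prime → q ∣ Nat.card G → q ≤ p) (P : Sylow p G) :
    (P : Subgroup G).Normal :=
  Cfsg.Agent.S0532.aux _ G rfl
    (fun H => Cfsg.Agent.S0531.key _ H rfl
      (isSupersolvable_of_injective H.subtype (Subgroup.subtype_injective H) h)) p hmax P

/-- Supersolvable Hall subgroups of the same order are conjugate. -/
theorem supersolvable_hall_conj_aux : ∀ (n : ℕ) (G : Type u) [Group G] [Finite G]
    (H K : Subgroup G), Nat.card H = n → Cfsg.IsSupersolvable H → Cfsg.IsSupersolvable K →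
    Nat.card H = Nat.card K → (Nat.card H).Coprime H.index →
    ∃ x : G, MulAut.conj x • H = K := by
  intro n
  induction n using Nat.strong_induction_on with
  | _ n ih =>
    intro G _ _ H K hn hH hK hcard hHall
    by_cases h1 : n = 1
    · have hHb : H = ⊥ := Subgroup.eq_bot_of_card_eq H (hn.trans h1)
      have hKb : K = ⊥ := Subgroup.eq_bot_of_card_eq K (by rw [← hcard, hn, h1])
      refine ⟨1, ?_⟩
      rw [hHb, hKb, map_one, one_smul]
    · have hn1 : 1 < n := by
        have := Nat.card_pos (α := H)
        omega
      obtain ⟨p, hp, hpn, hmax⟩ := exists_maximal_prime hn1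
      haveI : Fact p.Prime := ⟨hp⟩
      obtain PH : Sylow p H := default
      obtain QK : Sylow p K := default
      have hPHn : (PH : Subgroup H).Normal :=
        supersolvable_sylow_normal hH p (by rw [hn]; exact hmax) PH
      have hQKn : (QK : Subgroup K).Normal :=
        supersolvable_sylow_normal hK p (by rw [← hcard, hn]; exact hmax) QK
      set P : Subgroup G := (PH : Subgroup H).map H.subtype with hP
      set Q : Subgroup G := (QK : Subgroup K).map K.subtype with hQ
      have hPH : P ≤ H := Subgroup.map_subtype_le _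
      have hQK : Q ≤ K := Subgroup.map_subtype_le _
      have hPp : IsPGroup p P := PH.isPGroup'.map _
      have hQp : IsPGroup p Q := QK.isPGroup'.map _
      have hpH : ¬ p ∣ H.index := by
        intro hd
        have h2 : p ∣ Nat.gcd (Nat.card H) H.index := Nat.dvd_gcd (hn ▸ hpn) hd
        rw [hHall.gcd_eq_one] at h2
        exact hp.one_lt.ne' (Nat.dvd_one.mp h2)
      have hKidx : K.index = H.index := by
        have e1 := H.card_mul_index
        have e2 := K.card_mul_index
        rw [← hcard] at e2
        exact Nat.eq_of_mul_eq_mul_left Nat.card_pos (e2.trans e1.symm)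
      have hPidx : ¬ p ∣ P.index := by
        rw [hP, Subgroup.index_map_subtype]
        exact hp.not_dvd_mul PH.not_dvd_index hpH
      have hQidx : ¬ p ∣ Q.index := by
        rw [hQ, Subgroup.index_map_subtype, hKidx]
        exact hp.not_dvd_mul QK.not_dvd_index hpH
      obtain ⟨g, hg⟩ := MulAction.exists_smul_eq G (hPp.toSylow hPidx) (hQp.toSylow hQidx)
      have hgPQ : ∀ z : G, z ∈ P ↔ g * z * g⁻¹ ∈ Q := fun z => sylow_smul_mem_iff hg
      -- normalizing
      have hHP : ∀ h ∈ H, ∀ a ∈ P, h * a * h⁻¹ ∈ P := by
        rintro h hh _ ⟨a, ha, rfl⟩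
        exact ⟨_, hPHn.conj_mem a ha ⟨h, hh⟩, by simp⟩
      have hKQ : ∀ k ∈ K, ∀ a ∈ Q, k * a * k⁻¹ ∈ Q := by
        rintro k hk _ ⟨a, ha, rfl⟩
        exact ⟨_, hQKn.conj_mem a ha ⟨k, hk⟩, by simp⟩
      set N : Subgroup G := Subgroup.normalizer (Q : Set G) with hN
      have hKN : K ≤ N := le_normalizer_of_conj_mem hKQ
      -- conjugates of H normalize Q
      have hHN : ∀ v ∈ H, g * v * g⁻¹ ∈ N := by
        intro v hv
        have hle : Subgroup.zpowers (g * v * g⁻¹) ≤ N := by
          apply le_normalizer_of_conj_mem
          intro t ht a ha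
          obtain ⟨k, rfl⟩ := Subgroup.mem_zpowers_iff.mp ht
          have h3 : (g * v * g⁻¹) ^ k = g * v ^ k * g⁻¹ := by rw [conj_zpow]
          rw [h3]
          have h4 : g⁻¹ * a * g ∈ P := by
            rw [hgPQ]
            have : g * (g⁻¹ * a * g) * g⁻¹ = a := by group
            rw [this]; exact ha
          have h5 := hHP (v ^ k) (H.zpow_mem hv k) _ h4
          rw [hgPQ] at h5
          have h6 : g * (v ^ k * (g⁻¹ * a * g) * (v ^ k)⁻¹) * g⁻¹ =
              g * v ^ k * g⁻¹ * a * (g * v ^ k * g⁻¹)⁻¹ := by group
          rw [h6] at h5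
          exact h5
        exact hle (Subgroup.mem_zpowers _)
      -- complements
      have hPHcard : Nat.card (PH : Subgroup H) = p ^ (Nat.card H).factorization p :=
        PH.card_eq_multiplicity
      have hQKcard : Nat.card (QK : Subgroup K) = p ^ (Nat.card K).factorization p :=
        QK.card_eq_multiplicity
      have hPQcard : Nat.card (PH : Subgroup H) = Nat.card (QK : Subgroup K) := by
        rw [hPHcard, hQKcard, hcard]
      have hPHhall : (Nat.card (PH : Subgroup H)).Coprime (PH : Subgroup H).index := by
        rw [hPHcard]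
        exact Nat.Coprime.pow_left _ ((Nat.Prime.coprime_iff_not_dvd hp).mpr PH.not_dvd_index)
      have hQKhall : (Nat.card (QK : Subgroup K)).Coprime (QK : Subgroup K).index := by
        rw [hQKcard]
        exact Nat.Coprime.pow_left _ ((Nat.Prime.coprime_iff_not_dvd hp).mpr QK.not_dvd_index)
      obtain ⟨H₁', hH₁'⟩ := Subgroup.exists_right_complement'_of_coprime hPHhall
      obtain ⟨K₁', hK₁'⟩ := Subgroup.exists_right_complement'_of_coprime hQKhall
      have hcH := hH₁'.card_mul_card
      have hcK := hK₁'.card_mul_card
      have hcard₁ : Nat.card H₁' = Nat.card K₁' := by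
        have : Nat.card (PH : Subgroup H) * Nat.card H₁' =
            Nat.card (PH : Subgroup H) * Nat.card K₁' := by
          rw [hcH, hPQcard, hcK, hcard]
        exact Nat.eq_of_mul_eq_mul_left Nat.card_pos this
      have hinjH : Function.Injective H.subtype := Subgroup.subtype_injective H
      have hinjK : Function.Injective K.subtype := Subgroup.subtype_injective K
      have hinjg : Function.Injective (MulAut.conj g).toMonoidHom := (MulAut.conj g).injective
      set H₁ : Subgroup G := H₁'.map H.subtype with hH₁
      set K₁ : Subgroup G := K₁'.map K.subtype with hK₁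
      set H₂ : Subgroup G := H₁.map (MulAut.conj g).toMonoidHom with hH₂
      have hH₁H : H₁ ≤ H := Subgroup.map_subtype_le _
      have hK₁K : K₁ ≤ K := Subgroup.map_subtype_le _
      have hH₂N : H₂ ≤ N := by
        rintro _ ⟨v, hv, rfl⟩
        exact hHN v (hH₁H hv)
      have hK₁N : K₁ ≤ N := hK₁K.trans hKN
      have hcH₁ : Nat.card H₁ = Nat.card H₁' := Subgroup.card_map_of_injective hinjH
      have hcK₁ : Nat.card K₁ = Nat.card K₁' := Subgroup.card_map_of_injective hinjK
      have hcH₂ : Nat.card H₂ = Nat.card H₁' := by
        rw [hH₂, Subgroup.card_map_of_injective hinjg, hcH₁]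
      set A : Subgroup N := H₂.subgroupOf N with hA
      set B : Subgroup N := K₁.subgroupOf N with hB
      have hcA : Nat.card A = Nat.card H₁' := by
        rw [← hcH₂, ← Subgroup.card_map_of_injective (Subgroup.subtype_injective N),
          Subgroup.map_subgroupOf_eq_of_le hH₂N]
      have hcB : Nat.card B = Nat.card K₁' := by
        rw [← hcK₁, ← Subgroup.card_map_of_injective (Subgroup.subtype_injective N),
          Subgroup.map_subgroupOf_eq_of_le hK₁N]
      have hPHgt : 1 < Nat.card (PH : Subgroup H) := by
        rw [Subgroup.one_lt_card_iff_ne_bot]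
        exact PH.ne_bot_of_dvd_card (hn ▸ hpn)
      have hlt : Nat.card A < n := by
        rw [hcA, ← hn, ← hcH]
        have := Nat.card_pos (α := H₁')
        nlinarith
      -- supersolvability of A and B
      have hAss : Cfsg.IsSupersolvable A := by
        let e1 : A ≃* H₂ := Subgroup.subgroupOfEquivOfLe hH₂N
        let e2 : H₁ ≃* H₂ := H₁.equivMapOfInjective _ hinjg
        let e3 : H₁' ≃* H₁ := H₁'.equivMapOfInjective _ hinjH
        let e : A ≃* H₁' := (e1.trans e2.symm).trans e3.symm
        exact isSupersolvable_of_injective (H₁'.subtype.comp e.toMonoidHom)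
          ((Subgroup.subtype_injective H₁').comp e.injective) hH
      have hBss : Cfsg.IsSupersolvable B := by
        let e1 : B ≃* K₁ := Subgroup.subgroupOfEquivOfLe hK₁N
        let e3 : K₁' ≃* K₁ := K₁'.equivMapOfInjective _ hinjK
        let e : B ≃* K₁' := e1.trans e3.symm
        exact isSupersolvable_of_injective (K₁'.subtype.comp e.toMonoidHom)
          ((Subgroup.subtype_injective K₁').comp e.injective) hK
      -- Hall property of A in N
      have hAhall : (Nat.card A).Coprime A.index := by
        have hdvd : A.index ∣ H₂.index := Subgroup.relIndex_dvd_index_of_le hH₂N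
        apply Nat.Coprime.coprime_dvd_right hdvd
        rw [hcA]
        have hH₂idx : H₂.index = Nat.card (PH : Subgroup H) * H.index := by
          have e1 := H₂.card_mul_index
          have e2 := H.card_mul_index
          rw [hcH₂] at e1
          have : Nat.card H₁' * H₂.index =
              Nat.card H₁' * (Nat.card (PH : Subgroup H) * H.index) := by
            rw [e1, ← e2, ← hcH]; ring
          exact Nat.eq_of_mul_eq_mul_left Nat.card_pos this
        rw [hH₂idx]
        apply Nat.Coprime.mul_right
        · have h7 : (PH : Subgroup H).index = Nat.card H₁' := hH₁'.symm.index_eq_card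
          rw [hPHcard, ← h7]
          exact Nat.Coprime.pow_right _
            ((Nat.Prime.coprime_iff_not_dvd hp).mpr PH.not_dvd_index).symm
        · exact Nat.Coprime.coprime_dvd_left (Dvd.intro_left _ hcH) hHall
      obtain ⟨y, hy⟩ := ih (Nat.card A) hlt N A B rfl hAss hBss (by rw [hcA, hcB, hcard₁]) hAhall
      refine ⟨(y : G) * g, ?_⟩
      have hle : MulAut.conj ((y : G) * g) • H ≤ K := by
        intro z hz
        rw [mem_conj_smul] at hz
        set w := ((y : G) * g)⁻¹ * z * ((y : G) * g) with hw
        obtain ⟨u', hu', v', hv', huv⟩ :=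
          exists_mul_of_sup_eq_top (PH : Subgroup H) H₁' hH₁'.sup_eq_top ⟨w, hz⟩
        have hwuv : w = (u' : G) * (v' : G) := by
          have := congrArg Subtype.val huv
          simpa using this
        have hz' : z = ((y : G) * (g * (u' : G) * g⁻¹) * (y : G)⁻¹) *
            ((y : G) * (g * (v' : G) * g⁻¹) * (y : G)⁻¹) := by
          have : z = ((y : G) * g) * w * ((y : G) * g)⁻¹ := by rw [hw]; group
          rw [this, hwuv]; group
        rw [hz']
        apply K.mul_mem
        · have h3 : g * (u' : G) * g⁻¹ ∈ Q := (hgPQ _).mp ⟨u', hu', rfl⟩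
          have h4 := (Subgroup.mem_normalizer_iff.mp y.2 _).mp h3
          exact hQK h4
        · have h3 : g * (v' : G) * g⁻¹ ∈ H₂ := ⟨(v' : G), ⟨v', hv', rfl⟩, rfl⟩
          have h4 : (⟨g * (v' : G) * g⁻¹, hH₂N h3⟩ : N) ∈ A := by
            rw [hA, Subgroup.mem_subgroupOf]; exact h3
          have h5 : y * (⟨g * (v' : G) * g⁻¹, hH₂N h3⟩ : N) * y⁻¹ ∈ MulAut.conj y • A :=
            conj_mem_conj_smul.mpr h4
          rw [hy, hB, Subgroup.mem_subgroupOf] at h5
          exact hK₁K h5
      have hcc : Nat.card K ≤ Nat.card (MulAut.conj ((y : G) * g) • H : Subgroup G) := by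
        rw [Subgroup.pointwise_smul_def]
        have : Nat.card (H.map (MulAut.conj ((y : G) * g)).toMonoidHom) = Nat.card H :=
          Subgroup.card_map_of_injective (MulAut.conj ((y : G) * g)).injective
        exact le_of_eq (hcard.symm.trans this.symm)
      exact Subgroup.eq_of_le_of_card_ge hle hcc

end Cfsg.Agent.Lib.helper3
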