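import Mathlib
import Cfsg.Agent.Lib.helper3.Solvable
import Cfsg.Agent.Lib.helper3.Basic

set_option autoImplicit false
set_option linter.style.haveILetI false

namespace Cfsg.Agent.Lib.helper3

universe u

/-- Absorb an element of a normal subgroup `N ≤ T j` into an ordered product. -/
theorem absorb_normal {G : Type u} [Group G] (N : Subgroup G) [N.Normal] :
    ∀ (t : ℕ) (s : Fin t → G) (j : Fin t) (T : Fin t → Subgroup G), (∀ i, s i ∈ T i) →
      N ≤ T j → ∀ n ∈ N, ∃ s' : Fin t → G, (∀ i, s' i ∈ T i) ∧
        (List.ofFn s').prod = (List.ofFn s).prod * n := by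
  intro t
  induction t with
  | zero => intro s j; exact j.elim0
  | succ t ih =>
    intro s j T hs hN n hn
    induction j using Fin.cases with
    | zero =>
      set r : G := (List.ofFn (fun i : Fin t => s i.succ)).prod with hr
      refine ⟨Fin.cons (α := fun _ => G) (s 0 * (r * n * r⁻¹)) (fun i => s i.succ), ?_, ?_⟩
      · intro i
        induction i using Fin.cases with
        | zero =>
          simp only [Fin.cons_zero]
          exact mul_mem (hs 0) (hN (‹N.Normal›.conj_mem n hn r))
        | succ i =>
          simp only [Fin.cons_succ]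
          exact hs i.succ
      · rw [List.ofFn_succ, List.ofFn_succ, List.prod_cons, List.prod_cons]
        simp only [Fin.cons_zero, Fin.cons_succ]
        rw [← hr]; group
    | succ j =>
      obtain ⟨s'', hs'', hprod⟩ := ih (fun i => s i.succ) j (fun i => T i.succ)
        (fun i => hs i.succ) hN n hn
      refine ⟨Fin.cons (α := fun _ => G) (s 0) s'', ?_, ?_⟩
      · intro i
        induction i using Fin.cases with
        | zero => simp only [Fin.cons_zero]; exact hs 0
        | succ i => simp only [Fin.cons_succ]; exact hs'' i
      · rw [List.ofFn_succ, List.ofFn_succ, List.prod_cons, List.prod_cons]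
        simp only [Fin.cons_zero, Fin.cons_succ]
        rw [hprod, mul_assoc]

/-- In a finite solvable group, the ordered product of Sylow subgroups, one for each prime
divisor of the order, is the whole group. -/
theorem sylow_prod_aux : ∀ (n : ℕ) (G : Type u) [Group G] [Finite G] [Group.IsSolvable G],
    Nat.card G = n → ∀ (t : ℕ) (p : Fin t → ℕ) (_hp : ∀ i, (p i).Prime)
    (_hall : ∀ q : ℕ, q.Prime → q ∣ Nat.card G → ∃ i, p i = q)
    (S : (i : Fin t) → Sylow (p i) G) (g : G),
    ∃ s : (i : Fin t) → G, (∀ i, s i ∈ (S i : Subgroup G)) ∧ g = (List.ofFn s).prod := by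
  intro n
  induction n using Nat.strong_induction_on with
  | _ n ih =>
    intro G _ _ _ hn t p hp hall S g
    by_cases htriv : Subsingleton G
    · refine ⟨fun _ => 1, fun i => one_mem _, ?_⟩
      exact Subsingleton.elim _ _
    · rw [not_subsingleton_iff_nontrivial] at htriv
      haveI := htriv
      obtain ⟨q, hq, N, hNn, hNq, hNne⟩ := exists_normal_pgroup_ne_bot' G
      haveI := hNn
      have hqdvd : q ∣ Nat.card G := by
        haveI : Fact q.Prime := ⟨hq⟩
        obtain ⟨k, hk⟩ := IsPGroup.iff_card.mp hNq
        have hk0 : k ≠ 0 := by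
          rintro rfl
          rw [pow_zero] at hk
          exact hNne (Subgroup.eq_bot_of_card_eq N hk)
        have h1 : q ∣ Nat.card N := by rw [hk]; exact dvd_pow_self q hk0
        exact h1.trans (Subgroup.card_subgroup_dvd_card N)
      obtain ⟨j, hj⟩ := hall q hq hqdvd
      haveI : ∀ i, Fact (p i).Prime := fun i => ⟨hp i⟩
      have hNS : N ≤ (S j : Subgroup G) := by
        have hNq' : IsPGroup (p j) N := by rw [hj]; exact hNq
        exact hNq'.le_sylow_of_normal (S j)
      have hlt : Nat.card (G ⧸ N) < n := by rw [← hn]; exact card_quotient_lt N hNne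
      have hsurj := QuotientGroup.mk'_surjective N
      have hall' : ∀ q : ℕ, q.Prime → q ∣ Nat.card (G ⧸ N) → ∃ i, p i = q := by
        intro q' hq' hdvd
        apply hall q' hq'
        have := Subgroup.card_eq_card_quotient_mul_card_subgroup N
        rw [this]
        exact Dvd.dvd.mul_right hdvd _
      obtain ⟨sb, hsb, hprod⟩ := ih (Nat.card (G ⧸ N)) hlt (G ⧸ N) rfl t p hp hall'
        (fun i => (S i).mapSurjective hsurj) (QuotientGroup.mk' N g)
      have hlift : ∀ i, ∃ x ∈ (S i : Subgroup G), QuotientGroup.mk' N x = sb i := by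
        intro i
        have := hsb i
        exact this
      choose s hs hsb' using hlift
      have hmk : QuotientGroup.mk' N (List.ofFn s).prod = QuotientGroup.mk' N g := by
        rw [hprod, map_list_prod, List.map_ofFn]
        congr 2
        funext i
        exact hsb' i
      have hn' : (List.ofFn s).prod⁻¹ * g ∈ N := by
        have h1 : ((List.ofFn s).prod : G ⧸ N) = (g : G ⧸ N) := hmk
        exact QuotientGroup.eq.mp h1
      obtain ⟨s', hs', hprod'⟩ := absorb_normal N t s j (fun i => (S i : Subgroup G)) hs hNS _ hn'
      refine ⟨s', hs', ?_⟩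
      rw [hprod']; group

end Cfsg.Agent.Lib.helper3
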