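import Mathlib

set_option autoImplicit false

/-! Explicit permutations of the projective line over `ZMod 7` used to pin down the
simple group of order 168 as a permutation group of degree 8. -/

namespace Cfsg.Agent.Lib.helper3.U168

/-- the projective line over `ZMod 7` -/
abbrev X := Option (ZMod 7)

def uf : X → X
  | none => none
  | some x => some (x + 1)

def ufi : X → X
  | none => none
  | some x => some (x - 1)

def hf : X → X
  | none => none
  | some x => some (2 * x)

def hfi : X → X
  | none => none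
  | some x => some (4 * x)

def tf (a : ZMod 7) : X → X
  | none => some 0
  | some x => if x = 0 then none else if a = 0 then some x else some (a * x ^ 5)

theorem uf_l : ∀ p : X, ufi (uf p) = p := by decide
theorem uf_r : ∀ p : X, uf (ufi p) = p := by decide
theorem hf_l : ∀ p : X, hfi (hf p) = p := by decide
theorem hf_r : ∀ p : X, hf (hfi p) = p := by decide
theorem tf_inv : ∀ (a : ZMod 7) (p : X), tf a (tf a p) = p := by decide

/-- `x ↦ x + 1` -/
def su : Equiv.Perm X := ⟨uf, ufi, uf_l, uf_r⟩
/-- `x ↦ 2 x` -/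
def sh : Equiv.Perm X := ⟨hf, hfi, hf_l, hf_r⟩
/-- `x ↦ a / x` -/
def st (a : ZMod 7) : Equiv.Perm X := ⟨tf a, tf a, tf_inv a, tf_inv a⟩

def FF (q r : X) : X → X
  | none => some 0
  | some x => if x = 0 then none else if x = 1 then q else if x = 2 then hfi q
      else if x = 4 then hfi (hfi q) else if x = 3 then r else if x = 6 then hfi r
      else hfi (hfi r)

set_option maxRecDepth 100000 in
theorem FF_dec : ∀ q r : X, (∀ p, FF q r (FF q r p) = p) → (∀ p, FF q r p ≠ p) →
    (FF q r = tf 3 ∨ FF q r = tf 5 ∨ FF q r = tf 6) := by decide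

theorem zmod7_cases : ∀ x : ZMod 7, x = 0 ∨ x = 1 ∨ x = 2 ∨ x = 3 ∨ x = 4 ∨ x = 5 ∨ x = 6 := by
  decide

theorem t_det (T : Equiv.Perm X) (h1 : T none = some 0) (h2 : ∀ p, T (T p) = p)
    (h3 : ∀ p, T (hf p) = hfi (T p)) (h4 : ∀ p, T p ≠ p) :
    T = st 3 ∨ T = st 5 ∨ T = st 6 := by
  have e0 : T (some 0) = none := by rw [← h1]; exact h2 none
  have e1 : T (some 2) = hfi (T (some 1)) := h3 (some 1)
  have e2 : T (some 4) = hfi (hfi (T (some 1))) := by rw [← e1]; exact h3 (some 2)
  have e3 : T (some 6) = hfi (T (some 3)) := h3 (some 3)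
  have e4 : T (some 5) = hfi (hfi (T (some 3))) := by rw [← e3]; exact h3 (some 6)
  have key : ∀ p, T p = FF (T (some 1)) (T (some 3)) p := by
    intro p
    rcases p with _ | x
    · exact h1
    · rcases zmod7_cases x with rfl | rfl | rfl | rfl | rfl | rfl | rfl
      · exact e0
      · rfl
      · exact e1
      · rfl
      · exact e2
      · exact e4
      · exact e3
  have hfun : (T : X → X) = FF (T (some 1)) (T (some 3)) := funext key
  have hA : ∀ p, FF (T (some 1)) (T (some 3)) (FF (T (some 1)) (T (some 3)) p) = p := by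
    intro p; rw [← key, ← key]; exact h2 p
  have hB : ∀ p, FF (T (some 1)) (T (some 3)) p ≠ p := by
    intro p; rw [← key]; exact h4 p
  rcases FF_dec _ _ hA hB with hh | hh | hh
  · left; exact Equiv.ext (fun p => by rw [key, hh]; rfl)
  · right; left; exact Equiv.ext (fun p => by rw [key, hh]; rfl)
  · right; right; exact Equiv.ext (fun p => by rw [key, hh]; rfl)

/-- the permutation group generated by `x+1`, `2x`, `a/x` -/
def K (a : ZMod 7) : Subgroup (Equiv.Perm X) := Subgroup.closure {su, sh, st a}

theorem conj_st_aux : ∀ (a : ZMod 7) (p : X), (sh * st a * sh⁻¹) p = st (4 * a) p := by decide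

theorem conj_st (a : ZMod 7) : sh * st a * sh⁻¹ = st (4 * a) := Equiv.ext (conj_st_aux a)

theorem K_le (a : ZMod 7) : K (4 * a) ≤ K a := by
  unfold K
  rw [Subgroup.closure_le]
  have hu : su ∈ Subgroup.closure ({su, sh, st a} : Set (Equiv.Perm X)) :=
    Subgroup.subset_closure (by simp)
  have hh : sh ∈ Subgroup.closure ({su, sh, st a} : Set (Equiv.Perm X)) :=
    Subgroup.subset_closure (by simp)
  have ht : st a ∈ Subgroup.closure ({su, sh, st a} : Set (Equiv.Perm X)) :=
    Subgroup.subset_closure (by simp)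
  intro x hx
  simp only [Set.mem_insert_iff, Set.mem_singleton_iff] at hx
  rcases hx with rfl | rfl | rfl
  · exact hu
  · exact hh
  · rw [← conj_st]; exact Subgroup.mul_mem _ (Subgroup.mul_mem _ hh ht) (Subgroup.inv_mem _ hh)

theorem K_eq (a : ZMod 7) (ha : a = 3 ∨ a = 5 ∨ a = 6) : K a = K 3 := by
  have e5 : (4 * 3 : ZMod 7) = 5 := by decide
  have e6 : (4 * 5 : ZMod 7) = 6 := by decide
  have e3 : (4 * 6 : ZMod 7) = 3 := by decide
  have h53 : K 5 ≤ K 3 := by have := K_le 3; rwa [e5] at this
  have h65 : K 6 ≤ K 5 := by have := K_le 5; rwa [e6] at this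
  have h36 : K 3 ≤ K 6 := by have := K_le 6; rwa [e3] at this
  rcases ha with rfl | rfl | rfl
  · rfl
  · exact le_antisymm h53 (h36.trans h65)
  · exact le_antisymm (h65.trans h53) h36

end Cfsg.Agent.Lib.helper3.U168
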